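import Mathlib

set_option autoImplicit false

namespace Cfsg.Agent.Helper1

open scoped Pointwise

variable {G : Type*} [Group G]

theorem mem_normalizer_iff_conj_smul {H : Subgroup G} {g : G} :
    g ∈ Subgroup.normalizer (H : Set G) ↔ MulAut.conj g • H = H :=
  Subgroup.mem_normalizer_iff_map_conj_eq

theorem card_conj_smul (g : G) (H : Subgroup G) :
    Nat.card (MulAut.conj g • H : Subgroup G) = Nat.card H :=
  (Nat.card_congr (Subgroup.equivSMul (MulAut.conj g) H).toEquiv).symm

theorem conj_smul_eq_of_le [Finite G] {D : Subgroup G} {g : G} (h : D ≤ MulAut.conj g • D) :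
    MulAut.conj g • D = D :=
  (Subgroup.eq_of_le_of_card_ge h (card_conj_smul g D).le).symm

theorem conj_mem_of_normal_subgroupOf {A H : Subgroup G} (hA : A ≤ H)
    (hn : (A.subgroupOf H).Normal) {h a : G} (hh : h ∈ H) (ha : a ∈ A) : h * a * h⁻¹ ∈ A := by
  have := hn.conj_mem ⟨a, hA ha⟩ (by simpa [Subgroup.mem_subgroupOf] using ha) ⟨h, hh⟩
  simpa [Subgroup.mem_subgroupOf] using this

theorem conj_smul_eq_of_normal_subgroupOf {A H : Subgroup G} (hA : A ≤ H)
    (hn : (A.subgroupOf H).Normal) {h : G} (hh : h ∈ H) : MulAut.conj h • A = A := by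
  apply le_antisymm
  · rintro - ⟨a, ha, rfl⟩
    exact conj_mem_of_normal_subgroupOf hA hn hh ha
  · intro a ha
    rw [Subgroup.mem_pointwise_smul_iff_inv_smul_mem, ← map_inv]
    have := conj_mem_of_normal_subgroupOf hA hn (H.inv_mem hh) ha
    simpa [MulAut.smul_def] using this

end Cfsg.Agent.Helper1
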