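import Mathlib
import Cfsg.Agent.Helper1.Sextet

set_option autoImplicit false

namespace Cfsg.Agent.Helper1.Golay

open Cfsg

/-- The word with a given support. -/
def ind (s : Finset GolayPt) : GolayPt → ZMod 2 := fun p => if p ∈ s then 1 else 0

theorem support₂_ind (s : Finset GolayPt) : support₂ (ind s) = s := by
  ext p
  rw [mem_support₂, ind]
  by_cases h : p ∈ s <;> simp [h]

theorem ind_support₂ (v : GolayPt → ZMod 2) : ind (support₂ v) = v :=
  support₂_injective (support₂_ind _)

theorem ind_injective : Function.Injective ind := fun s t h => by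
  rw [← support₂_ind s, h, support₂_ind]

theorem mem_code_of_support {x : GolayPt → ZMod 2}
    (h : support₂ x ∈ supports (golayCode : Set (GolayPt → ZMod 2))) : x ∈ golayCode := by
  obtain ⟨c, hc, e⟩ := h
  rw [← support₂_injective e]
  exact hc

/-- Every coset of the code contains a word of weight at most four. -/
theorem exists_leader (w : GolayPt → ZMod 2) :
    ∃ v : GolayPt → ZMod 2, hammingNorm v ≤ 4 ∧ w - v ∈ golayCode := by
  induction' h : hammingNorm w using Nat.strong_induction_on with n ih generalizing w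
  by_cases h4 : hammingNorm w ≤ 4
  · exact ⟨w, h4, by rw [sub_self]; exact Submodule.zero_mem _⟩
  · have h5 : 5 ≤ (support₂ w).card := by
      rw [card_support₂]
      omega
    obtain ⟨s, hs, hs5⟩ := Finset.exists_subset_card_eq h5
    obtain ⟨ho, hso⟩ := octOf_spec hs5
    obtain ⟨c, hc, hco⟩ := ho.1
    have hnorm := hammingNorm_add_supports w c
    have hinter : 5 ≤ (support₂ w ∩ support₂ c).card := by
      rw [hco, ← hs5]
      exact Finset.card_le_card (Finset.subset_inter hs hso)
    have hc8 : (support₂ c).card = 8 := by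
      rw [hco]
      exact ho.2
    have hw : (support₂ w).card = n := by rw [card_support₂, h]
    have hlt : hammingNorm (w + c) < n := by omega
    obtain ⟨v, hv4, hvC⟩ := ih _ hlt (w + c) rfl
    refine ⟨v, hv4, ?_⟩
    have e : w - v = (w + c - v) - c := by abel
    rw [e]
    exact Submodule.sub_mem _ hvC hc

/-- Two words of weight at most four in the same coset. -/
theorem leader_pair {w v v' : GolayPt → ZMod 2} (hv : hammingNorm v ≤ 4)
    (hv' : hammingNorm v' ≤ 4) (hC : w - v ∈ golayCode) (hC' : w - v' ∈ golayCode) :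
    v = v' ∨ (hammingNorm v = 4 ∧ hammingNorm v' = 4 ∧ Disjoint (support₂ v) (support₂ v')
      ∧ support₂ v ∪ support₂ v' ∈ octads) := by
  have hd : v + v' ∈ golayCode := by
    have e : v + v' = (w - v) + (w - v') := by
      funext p
      simp only [Pi.add_apply, Pi.sub_apply]
      exact (by decide : ∀ a b c : ZMod 2, b + c = (a - b) + (a - c)) _ _ _
    rw [e]
    exact Submodule.add_mem _ hC hC'
  have hn := hammingNorm_eq _ hd
  have hs := hammingNorm_add_supports v v'
  rw [card_support₂, card_support₂] at hs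
  rcases hn with h0 | h8 | h | h | h
  · left
    rw [hammingNorm_eq_zero] at h0
    funext p
    have hp := congrFun h0 p
    exact (by decide : ∀ x y : ZMod 2, x + y = 0 → x = y) _ _ hp
  · right
    have hi : (support₂ v ∩ support₂ v').card = 0 := by omega
    have hdis : Disjoint (support₂ v) (support₂ v') := by
      rw [Finset.disjoint_iff_inter_eq_empty, ← Finset.card_eq_zero]
      exact hi
    refine ⟨by omega, by omega, hdis, ⟨?_, ?_⟩⟩
    · refine ⟨v + v', hd, ?_⟩
      rw [support₂_add, hdis.symmDiff_eq_sup]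
      rfl
    · rw [Finset.card_union_of_disjoint hdis, card_support₂, card_support₂]
      omega
  · omega
  · omega
  · omega

theorem mem_sextOf_of_union {t u : Finset GolayPt} (ht : t.card = 4) (hu : u.card = 4)
    (hdis : Disjoint t u) (hoct : t ∪ u ∈ octads) : u ∈ sextOf t := by
  have hne : u.Nonempty := by
    rw [← Finset.card_pos, hu]
    norm_num
  obtain ⟨p, hp⟩ := hne
  have hpt : p ∉ t := fun h => (Finset.disjoint_left.mp hdis h) hp
  have hins : insert p t ⊆ t ∪ u :=
    Finset.insert_subset (Finset.mem_union_right _ hp) Finset.subset_union_left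
  have e := octOf_unique (card_insert_tet ht hpt) hoct hins
  have e2 : tetOf t p = u := by
    rw [tetOf, ← e, Finset.union_sdiff_cancel_left hdis]
  exact Finset.mem_insert_of_mem (mem_sextOf_image.mpr ⟨p, hpt, e2⟩)

theorem sextOf_disjoint {t u : Finset GolayPt} (ht : t.card = 4) (hu : u ∈ sextOf t)
    (hne : t ≠ u) : Disjoint t u ∧ t ∪ u ∈ octads := by
  have hS := sextOf_mem ht
  have hoct := hS.2.2 t (Finset.mem_insert_self t _) u hu hne
  have hci := Finset.card_union_add_card_inter t u
  rw [hoct.2, ht, hS.2.1 u hu] at hci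
  refine ⟨?_, hoct⟩
  rw [Finset.disjoint_iff_inter_eq_empty, ← Finset.card_eq_zero]
  omega

/-- The words of weight at most four in a coset of the code. -/
theorem coset_leaders (w : GolayPt → ZMod 2) :
    ({v : GolayPt → ZMod 2 | hammingNorm v ≤ 4 ∧ w - v ∈ golayCode}.ncard = 1
      ∧ ∃ v : GolayPt → ZMod 2, hammingNorm v ≤ 3 ∧ w - v ∈ golayCode)
    ∨ ({v : GolayPt → ZMod 2 | hammingNorm v ≤ 4 ∧ w - v ∈ golayCode}.ncard = 6
      ∧ ∀ v : GolayPt → ZMod 2, w - v ∈ golayCode → hammingNorm v ≤ 4 → hammingNorm v = 4) := by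
  by_cases h3 : ∃ v : GolayPt → ZMod 2, hammingNorm v ≤ 3 ∧ w - v ∈ golayCode
  · left
    obtain ⟨v₀, hv₀, hC₀⟩ := h3
    refine ⟨?_, v₀, hv₀, hC₀⟩
    rw [Set.ncard_eq_one]
    refine ⟨v₀, ?_⟩
    ext v
    simp only [Set.mem_ofPred_eq, Set.mem_singleton_iff]
    constructor
    · rintro ⟨hv, hC⟩
      rcases leader_pair hv (by omega) hC hC₀ with h | ⟨_, h4, _, _⟩
      · exact h
      · omega
    · rintro rfl
      exact ⟨by omega, hC₀⟩
  · right
    have hall : ∀ v : GolayPt → ZMod 2, w - v ∈ golayCode → hammingNorm v ≤ 4 →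
        hammingNorm v = 4 := by
      intro v hC hv
      by_contra hne
      exact h3 ⟨v, by omega, hC⟩
    refine ⟨?_, hall⟩
    obtain ⟨v₀, hv₀, hC₀⟩ := exists_leader w
    have h4 := hall v₀ hC₀ hv₀
    have ht : (support₂ v₀).card = 4 := by
      rw [card_support₂]
      exact h4
    have e : {v : GolayPt → ZMod 2 | hammingNorm v ≤ 4 ∧ w - v ∈ golayCode}
        = ind '' ↑(sextOf (support₂ v₀)) := by
      ext v
      simp only [Set.mem_ofPred_eq, Set.mem_image, Finset.mem_coe]
      constructor
      · rintro ⟨hv, hC⟩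
        refine ⟨support₂ v, ?_, ind_support₂ v⟩
        rcases leader_pair hv₀ hv hC₀ hC with h | ⟨_, hv4, hdis, hoct⟩
        · rw [← h]
          exact Finset.mem_insert_self _ _
        · exact mem_sextOf_of_union ht (by rw [card_support₂]; exact hv4) hdis hoct
      · rintro ⟨u, hu, rfl⟩
        have hu4 : u.card = 4 := (sextOf_mem ht).2.1 u hu
        refine ⟨by rw [← card_support₂, support₂_ind, hu4], ?_⟩
        by_cases hut : support₂ v₀ = u
        · rw [← hut, ind_support₂]
          exact hC₀
        · obtain ⟨hdis, hoct⟩ := sextOf_disjoint ht hu hut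
          have hx : v₀ + ind u ∈ golayCode := mem_code_of_support (by
            rw [support₂_add, support₂_ind, hdis.symmDiff_eq_sup]
            exact hoct.1)
          have e2 : w - ind u = (w - v₀) + (v₀ + ind u) := by
            funext p
            simp only [Pi.add_apply, Pi.sub_apply]
            exact (by decide : ∀ a b c : ZMod 2, a - c = (a - b) + (b + c)) _ _ _
          rw [e2]
          exact Submodule.add_mem _ hC₀ hx
    rw [e, Set.ncard_image_of_injective _ ind_injective, Set.ncard_coe_finset, (sextOf_mem ht).1]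

end Cfsg.Agent.Helper1.Golay
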