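import Mathlib
import Cfsg.Agent.Helper1.Simple2
import Cfsg.Agent.Helper1.Golay12

set_option autoImplicit false
open scoped Pointwise

namespace Cfsg.Agent.Helper1.Golay

open Cfsg

theorem exists_embedding_five {α : Type*} [DecidableEq α] (d : Finset α) (hd : 5 ≤ d.card)
    (a₀ a₁ a₂ : α) (h₀ : a₀ ∈ d) (h₁ : a₁ ∈ d) (h₂ : a₂ ∈ d) (h01 : a₀ ≠ a₁) (h02 : a₀ ≠ a₂)
    (h12 : a₁ ≠ a₂) :
    ∃ x : Fin 5 ↪ α, (∀ i, x i ∈ d) ∧ x 0 = a₀ ∧ x 1 = a₁ ∧ x 2 = a₂ := by
  have hcard : 2 ≤ (d \ {a₀, a₁, a₂}).card := by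
    have h3 : ({a₀, a₁, a₂} : Finset α).card ≤ 3 := Finset.card_le_three
    have h4 := Finset.le_card_sdiff {a₀, a₁, a₂} d
    omega
  obtain ⟨a₃, h3, a₄, h4, h34⟩ := Finset.one_lt_card.mp hcard
  simp only [Finset.mem_sdiff, Finset.mem_insert, Finset.mem_singleton, not_or] at h3 h4
  obtain ⟨h3d, h30, h31, h32⟩ := h3
  obtain ⟨h4d, h40, h41, h42⟩ := h4
  have hinj : Function.Injective ![a₀, a₁, a₂, a₃, a₄] := by
    rw [← List.nodup_ofFn]
    simp only [List.ofFn_succ, List.ofFn_zero]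
    simp [h01, h02, h12, h34, Ne.symm h30, Ne.symm h31, Ne.symm h32, Ne.symm h40, Ne.symm h41,
      Ne.symm h42]
  refine ⟨⟨![a₀, a₁, a₂, a₃, a₄], hinj⟩, ?_, rfl, rfl, rfl⟩
  intro i
  fin_cases i
  · exact h₀
  · exact h₁
  · exact h₂
  · exact h3d
  · exact h4d

theorem m11_simple (d : Finset GolayPt) (hd : d ∈ dodecads) (p : GolayPt) (hp : p ∈ d) :
    IsSimpleGroup ↥(MulAction.stabilizer M24 d ⊓ MulAction.stabilizer M24 p) := by
  have hfact : Fact (Nat.Prime 11) := ⟨by norm_num⟩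
  have hdcard : d.card = 12 := hd.2
  have hcardG := card_stabilizer_dodecad_point d hd p hp
  refine simple_of_prime_degree (G := ↥(MulAction.stabilizer M24 d ⊓ MulAction.stabilizer M24 p))
    (α := GolayPt) ((d : Set GolayPt) \ {p}) 11 ?_ ?_ ?_ ?_ 720 ?_ ?_ ?_ ?_
  · rw [Set.ncard_sdiff_singleton_of_mem (Finset.mem_coe.mpr hp), Set.ncard_coe_finset, hdcard]
  · intro g x hx
    obtain ⟨hxd, hxp⟩ := hx
    have hg := g.2
    rw [Subgroup.mem_inf, MulAction.mem_stabilizer_iff, MulAction.mem_stabilizer_iff] at hg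
    refine ⟨?_, ?_⟩
    · have h : (g : M24) • x ∈ (g : M24) • d := Finset.smul_mem_smul_finset hxd
      rw [hg.1] at h
      exact h
    · intro h
      rw [Set.mem_singleton_iff] at h
      apply hxp
      have h' : (g : M24) • x = (g : M24) • p := by
        rw [hg.2]
        exact h
      exact Set.mem_singleton_iff.mpr (smul_left_cancel _ h')
  · intro g hg
    have hgm := g.2
    rw [Subgroup.mem_inf, MulAction.mem_stabilizer_iff, MulAction.mem_stabilizer_iff] at hgm
    have hfix : ∀ x ∈ d, (g : M24) • x = x := by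
      intro x hx
      by_cases hxp : x = p
      · rw [hxp]
        exact hgm.2
      · exact hg x ⟨hx, hxp⟩
    have h5 : 5 ≤ d.card := by
      rw [hdcard]
      norm_num
    have hx : ∀ i, ((Fin.castLEEmb h5).trans
        (d.equivFin.symm.toEmbedding.trans (Function.Embedding.subtype _))) i ∈ d :=
      fun i => (d.equivFin.symm _).2
    have hbot := m12_stab_trivial d hd _ hx
    have hmem : (g : M24) ∈ MulAction.stabilizer M24 d ⊓ MulAction.stabilizer M24
        ((Fin.castLEEmb h5).trans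
          (d.equivFin.symm.toEmbedding.trans (Function.Embedding.subtype _))) := by
      rw [Subgroup.mem_inf, MulAction.mem_stabilizer_iff, MulAction.mem_stabilizer_iff]
      refine ⟨hgm.1, ?_⟩
      refine Function.Embedding.ext (fun i => ?_)
      exact hfix _ (hx i)
    rw [hbot, Subgroup.mem_bot] at hmem
    exact Subtype.ext hmem
  · intro a ha b hb hab a' ha' b' hb' hab'
    have h5 : 5 ≤ d.card := by
      rw [hdcard]
      norm_num
    obtain ⟨x, hx, hx0, hx1, hx2⟩ := exists_embedding_five d h5 p a b hp ha.1 hb.1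
      (fun h => ha.2 (Set.mem_singleton_iff.mpr h.symm))
      (fun h => hb.2 (Set.mem_singleton_iff.mpr h.symm)) hab
    obtain ⟨y, hy, hy0, hy1, hy2⟩ := exists_embedding_five d h5 p a' b' hp ha'.1 hb'.1
      (fun h => ha'.2 (Set.mem_singleton_iff.mpr h.symm))
      (fun h => hb'.2 (Set.mem_singleton_iff.mpr h.symm)) hab'
    obtain ⟨g, hgM, hgd, hg⟩ := m12_exists d hd x y hx hy
    have h0 := hg 0
    rw [hx0, hy0] at h0
    have h1 := hg 1
    rw [hx1, hy1] at h1
    have h2 := hg 2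
    rw [hx2, hy2] at h2
    exact ⟨⟨⟨g, hgM⟩, Subgroup.mem_inf.mpr ⟨MulAction.mem_stabilizer_iff.mpr hgd,
      MulAction.mem_stabilizer_iff.mpr h0⟩⟩, h1, h2⟩
  · rw [hcardG]
  · norm_num
  · intro k hk hmod
    have hk' : k ≤ 10 := Nat.le_of_dvd (by norm_num) hk
    interval_cases k <;> revert hk hmod <;> decide
  · rw [hcardG]
    norm_num

end Cfsg.Agent.Helper1.Golay
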