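import Mathlib

set_option autoImplicit false

namespace Cfsg.Agent.Helper1

open scoped Pointwise

/-- In an `n`-transitive action, every injection of a set of at most `n` points is induced
by a group element. -/
theorem exists_smul_eq_of_injOn {G α : Type*} [Group G] [MulAction G α] [Finite α]
    (n : ℕ) [MulAction.IsMultiplyPretransitive G α n] (hn : n ≤ Nat.card α)
    (A : Finset α) (hA : A.card ≤ n) (f : α → α) (hf : Set.InjOn f A) :
    ∃ g : G, ∀ a ∈ A, g • a = f a := by
  have : MulAction.IsMultiplyPretransitive G α A.card :=
    MulAction.isMultiplyPretransitive_of_le hA hn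
  let e := A.equivFin
  let x : Fin A.card ↪ α :=
    ⟨fun i => (e.symm i).1, fun i j h => e.symm.injective (Subtype.ext h)⟩
  let y : Fin A.card ↪ α := ⟨fun i => f (e.symm i).1, fun i j h =>
    e.symm.injective (Subtype.ext (hf (e.symm i).2 (e.symm j).2 h))⟩
  obtain ⟨g, hg⟩ := MulAction.exists_smul_eq G x y
  refine ⟨g, fun a ha => ?_⟩
  have h : (g • x) (e ⟨a, ha⟩) = y (e ⟨a, ha⟩) := by rw [hg]
  rw [Function.Embedding.smul_apply] at h
  have hx : x (e ⟨a, ha⟩) = a := by
    show ((e.symm (e ⟨a, ha⟩) : A) : α) = a
    rw [Equiv.symm_apply_apply]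
  have hy : y (e ⟨a, ha⟩) = f a := by
    show f ((e.symm (e ⟨a, ha⟩) : A) : α) = f a
    rw [Equiv.symm_apply_apply]
  rw [hx, hy] at h
  exact h

/-- Two subsets meeting a third in equally many points are exchanged by a permutation
preserving the third. -/
theorem exists_perm_of_card_inter {α : Type*} [Fintype α] [DecidableEq α] (s x x' : Finset α)
    (hx : x.card = x'.card) (hsx : (s ∩ x).card = (s ∩ x').card) :
    ∃ σ : Equiv.Perm α, (∀ a, σ a ∈ s ↔ a ∈ s) ∧ (∀ a, σ a ∈ x' ↔ a ∈ x) := by
  classical
  let col : α → Bool × Bool := fun a => (decide (a ∈ s), decide (a ∈ x))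
  let col' : α → Bool × Bool := fun a => (decide (a ∈ s), decide (a ∈ x'))
  have hcard : ∀ b : Bool × Bool,
      Fintype.card {a // col a = b} = Fintype.card {a // col' a = b} := by
    intro b
    rw [Fintype.card_subtype, Fintype.card_subtype]
    have h1 := Finset.card_sdiff_add_card_inter s x
    have h1' := Finset.card_sdiff_add_card_inter s x'
    have h2 := Finset.card_sdiff_add_card_inter x s
    have h2' := Finset.card_sdiff_add_card_inter x' s
    have h3 := Finset.card_union_add_card_inter s x
    have h3' := Finset.card_union_add_card_inter s x'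
    have h4 := Finset.card_compl_add_card (s ∪ x)
    have h4' := Finset.card_compl_add_card (s ∪ x')
    rw [Finset.inter_comm] at h2 h2'
    obtain ⟨b1, b2⟩ := b
    cases b1 <;> cases b2
    · have e : (Finset.univ.filter (fun a => col a = (false, false))) = (s ∪ x)ᶜ := by
        ext a
        simp [col]
      have e' : (Finset.univ.filter (fun a => col' a = (false, false))) = (s ∪ x')ᶜ := by
        ext a
        simp [col']
      rw [e, e']
      omega
    · have e : (Finset.univ.filter (fun a => col a = (false, true))) = x \ s := by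
        ext a
        simp [col]
        tauto
      have e' : (Finset.univ.filter (fun a => col' a = (false, true))) = x' \ s := by
        ext a
        simp [col']
        tauto
      rw [e, e']
      omega
    · have e : (Finset.univ.filter (fun a => col a = (true, false))) = s \ x := by
        ext a
        simp [col]
      have e' : (Finset.univ.filter (fun a => col' a = (true, false))) = s \ x' := by
        ext a
        simp [col']
      rw [e, e']
      omega
    · have e : (Finset.univ.filter (fun a => col a = (true, true))) = s ∩ x := by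
        ext a
        simp [col]
      have e' : (Finset.univ.filter (fun a => col' a = (true, true))) = s ∩ x' := by
        ext a
        simp [col']
      rw [e, e']
      omega
  have E : ∀ b : Bool × Bool, {a // col a = b} ≃ {a // col' a = b} :=
    fun b => Fintype.equivOfCardEq (hcard b)
  let σ : Equiv.Perm α := (Equiv.sigmaFiberEquiv col).symm.trans
    ((Equiv.sigmaCongrRight E).trans (Equiv.sigmaFiberEquiv col'))
  have key : ∀ a, col' (σ a) = col a := by
    intro a
    exact ((E (col a)) ⟨a, rfl⟩).2
  refine ⟨σ, ?_, ?_⟩
  · intro a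
    have h := congrArg Prod.fst (key a)
    simpa [col, col'] using h
  · intro a
    have h := congrArg Prod.snd (key a)
    simpa [col, col'] using h

/-- In an `n`-transitive action on a finite set, the stabiliser of a set `s` is transitive on
the sets of given size meeting `s` in a given number of points, as long as the union has at
most `n` points. -/
theorem exists_smul_pair {G α : Type*} [Group G] [MulAction G α] [Fintype α] [DecidableEq α]
    (n : ℕ) [MulAction.IsMultiplyPretransitive G α n] (hn : n ≤ Nat.card α)
    (s x x' : Finset α) (hcard : (s ∪ x).card ≤ n)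
    (hx : x.card = x'.card) (hsx : (s ∩ x).card = (s ∩ x').card) :
    ∃ g : G, g • s = s ∧ g • x = x' := by
  obtain ⟨σ, hσ1, hσ2⟩ := exists_perm_of_card_inter s x x' hx hsx
  obtain ⟨g, hg⟩ := exists_smul_eq_of_injOn (G := G) n hn (s ∪ x) hcard σ σ.injective.injOn
  refine ⟨g, ?_, ?_⟩
  · ext b
    rw [Finset.mem_smul_finset]
    constructor
    · rintro ⟨a, ha, rfl⟩
      rw [hg a (Finset.mem_union_left _ ha)]
      exact (hσ1 a).mpr ha
    · intro hb
      have ha : σ.symm b ∈ s := by
        rw [← hσ1, Equiv.apply_symm_apply]
        exact hb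
      exact ⟨σ.symm b, ha, by rw [hg _ (Finset.mem_union_left _ ha), Equiv.apply_symm_apply]⟩
  · ext b
    rw [Finset.mem_smul_finset]
    constructor
    · rintro ⟨a, ha, rfl⟩
      rw [hg a (Finset.mem_union_right _ ha)]
      exact (hσ2 a).mpr ha
    · intro hb
      have ha : σ.symm b ∈ x := by
        rw [← hσ2, Equiv.apply_symm_apply]
        exact hb
      exact ⟨σ.symm b, ha, by rw [hg _ (Finset.mem_union_right _ ha), Equiv.apply_symm_apply]⟩

/-- The number of `k`-subsets meeting a set `s` in exactly `j` points. -/
theorem card_filter_inter_eq {α : Type*} [Fintype α] [DecidableEq α] (s : Finset α) (k j : ℕ)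
    (hjk : j ≤ k) :
    ((Finset.univ : Finset (Finset α)).filter (fun x => x.card = k ∧ (s ∩ x).card = j)).card
      = Nat.choose s.card j * Nat.choose (Fintype.card α - s.card) (k - j) := by
  rw [← Finset.card_compl, ← Finset.card_powersetCard, ← Finset.card_powersetCard (k - j) sᶜ,
    ← Finset.card_product]
  refine Finset.card_nbij' (fun x => (s ∩ x, x \ s)) (fun p => p.1 ∪ p.2) ?_ ?_ ?_ ?_
  · intro x hx
    simp only [Finset.coe_filter, Finset.mem_univ, true_and, Set.mem_ofPred_eq] at hx
    simp only [Finset.coe_product, Set.mem_prod, Finset.mem_coe, Finset.mem_powersetCard]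
    have h := Finset.card_sdiff_add_card_inter x s
    rw [Finset.inter_comm] at h
    refine ⟨⟨Finset.inter_subset_left, hx.2⟩, ⟨?_, by omega⟩⟩
    intro a ha
    rw [Finset.mem_sdiff] at ha
    exact Finset.mem_compl.mpr ha.2
  · rintro ⟨a, b⟩ hp
    simp only [Finset.coe_product, Set.mem_prod, Finset.mem_coe, Finset.mem_powersetCard] at hp
    obtain ⟨⟨ha, hac⟩, hb, hbc⟩ := hp
    have hdisj : Disjoint a b := by
      rw [Finset.disjoint_left]
      intro y hya hyb
      exact Finset.mem_compl.mp (hb hyb) (ha hya)
    have hsa : s ∩ (a ∪ b) = a := by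
      ext y
      simp only [Finset.mem_inter, Finset.mem_union]
      constructor
      · rintro ⟨hys, hya | hyb⟩
        · exact hya
        · exact absurd hys (Finset.mem_compl.mp (hb hyb))
      · intro hya
        exact ⟨ha hya, Or.inl hya⟩
    simp only [Finset.coe_filter, Finset.mem_univ, true_and, Set.mem_ofPred_eq]
    refine ⟨?_, by rw [hsa, hac]⟩
    rw [Finset.card_union_of_disjoint hdisj, hac, hbc]
    omega
  · intro x _
    ext y
    simp only [Finset.mem_union, Finset.mem_inter, Finset.mem_sdiff]
    tauto
  · rintro ⟨a, b⟩ hp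
    simp only [Finset.coe_product, Set.mem_prod, Finset.mem_coe, Finset.mem_powersetCard] at hp
    obtain ⟨⟨ha, hac⟩, hb, hbc⟩ := hp
    refine Prod.ext ?_ ?_
    · ext y
      simp only [Finset.mem_inter, Finset.mem_union]
      constructor
      · rintro ⟨hys, hya | hyb⟩
        · exact hya
        · exact absurd hys (Finset.mem_compl.mp (hb hyb))
      · intro hya
        exact ⟨ha hya, Or.inl hya⟩
    · ext y
      simp only [Finset.mem_sdiff, Finset.mem_union]
      constructor
      · rintro ⟨hya | hyb, hys⟩
        · exact absurd (ha hya) hys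
        · exact hyb
      · intro hyb
        exact ⟨Or.inr hyb, Finset.mem_compl.mp (hb hyb)⟩

theorem ncard_inter_eq {α : Type*} [Fintype α] [DecidableEq α] (s : Finset α) (k j : ℕ)
    (hjk : j ≤ k) :
    {x : Finset α | x.card = k ∧ (s ∩ x).card = j}.ncard
      = Nat.choose s.card j * Nat.choose (Fintype.card α - s.card) (k - j) := by
  rw [← card_filter_inter_eq s k j hjk, ← Set.ncard_coe_finset]
  congr 1
  ext x
  simp

end Cfsg.Agent.Helper1
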