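import Mathlib
import Cfsg.Agent.Helper1.Maximal2
import Cfsg.Agent.Helper1.Trans5

set_option autoImplicit false

namespace Cfsg.Agent.Helper1.Golay

open Cfsg Cfsg.Agent.Helper1
open scoped Pointwise

/-- The stabiliser in the group of the code of a set `s` is transitive on the sets of given
size meeting `s` in a given number of points, as long as the union has at most 5 points. -/
theorem m24_pair_trans (s x x' : Finset GolayPt) (hcard : (s ∪ x).card ≤ 5)
    (hx : x.card = x'.card) (hsx : (s ∩ x).card = (s ∩ x').card) :
    ∃ g : M24, g • s = s ∧ g • x = x' := by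
  have := M24_five_transitive
  obtain ⟨g, h1, h2⟩ := exists_smul_pair (G := M24) 5
    (by rw [Nat.card_eq_fintype_card, card_golayPt]; norm_num) s x x' hcard hx hsx
  exact ⟨g, h1, h2⟩

theorem card_smul_m24 (g : M24) (s : Finset GolayPt) : (g • s).card = s.card :=
  Finset.card_smul_finset (g : Equiv.Perm GolayPt) s

/-- The stabiliser of a pair of points is maximal. -/
theorem duad_stabilizer_isCoatom (s : Finset GolayPt) (hs : s.card = 2) :
    IsCoatom (MulAction.stabilizer M24 s) := by
  have hc : (s ∩ s).card = 2 := by rw [Finset.inter_self]; exact hs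
  have horb : ∀ x : Finset GolayPt, x ∈ MulAction.orbit M24 s ↔ x.card = 2 := by
    intro x
    constructor
    · rintro ⟨g, rfl⟩
      show (g • s).card = 2
      rw [card_smul_m24, hs]
    · intro hx
      obtain ⟨g, -, hg⟩ := m24_pair_trans ∅ s x (by rw [Finset.empty_union, hs]; norm_num)
        (by rw [hs, hx]) (by simp)
      exact ⟨g, hg⟩
  have h2 : ∀ i ∈ ({2, 1, 0} : Finset ℕ),
      {x | x ∈ MulAction.orbit M24 s ∧ (s ∩ x).card = i}.ncard
        = (fun i => if i = 2 then 1 else if i = 1 then 44 else 231) i := by
    intro i hi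
    have e : {x | x ∈ MulAction.orbit M24 s ∧ (s ∩ x).card = i}
        = {x : Finset GolayPt | x.card = 2 ∧ (s ∩ x).card = i} := by
      ext x
      simp only [Set.mem_ofPred_eq, horb]
    rw [e]
    simp only [Finset.mem_insert, Finset.mem_singleton] at hi
    rcases hi with rfl | rfl | rfl
    · rw [ncard_inter_eq s 2 2 le_rfl, hs, card_golayPt]
      decide
    · rw [ncard_inter_eq s 2 1 (by norm_num), hs, card_golayPt]
      decide
    · rw [ncard_inter_eq s 2 0 (by norm_num), hs, card_golayPt]
      decide
  refine isCoatom_of_orbit_sizes s (MulAction.stabilizer M24 s) le_rfl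
    (fun x => (s ∩ x).card) ({2, 1, 0} : Finset ℕ)
    (fun i => if i = 2 then 1 else if i = 1 then 44 else 231)
    ?_ h2 ?_ ?_ ?_ ?_
  · intro g
    have h : (s ∩ g • s).card ≤ 2 := by
      rw [← hs]
      exact Finset.card_le_card Finset.inter_subset_left
    simp only [Finset.mem_insert, Finset.mem_singleton]
    omega
  · intro g hg
    rw [hc] at hg
    have h1 : s ∩ g • s = s :=
      Finset.eq_of_subset_of_card_le Finset.inter_subset_left (by rw [hg, hs])
    have h2 : s ∩ g • s = g • s :=
      Finset.eq_of_subset_of_card_le Finset.inter_subset_right (by rw [hg, card_smul_m24, hs])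
    rw [MulAction.mem_stabilizer_iff, ← h2, h1]
  · intro g g' hgg
    have hu : (s ∪ g • s).card ≤ 5 := by
      have := Finset.card_union_le s (g • s)
      rw [card_smul_m24, hs] at this
      omega
    obtain ⟨h, h1, h2⟩ := m24_pair_trans s (g • s) (g' • s) hu
      (by rw [card_smul_m24, card_smul_m24]) hgg
    exact ⟨h, h1, h2⟩
  · intro I hI h8 hd
    rw [hc] at h8 ⊢
    revert I
    decide
  · intro htop
    have h0 := h2 0 (by decide)
    have hne : {x | x ∈ MulAction.orbit M24 s ∧ (s ∩ x).card = 0}.Nonempty := by
      rw [← Set.ncard_pos (Set.toFinite _), h0]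
      norm_num
    obtain ⟨x, ⟨g, rfl⟩, hx⟩ := hne
    have hg : g ∈ MulAction.stabilizer M24 s := by rw [htop]; exact Subgroup.mem_top g
    rw [MulAction.mem_stabilizer_iff] at hg
    have hx' : (s ∩ g • s).card = 0 := hx
    rw [hg, hc] at hx'
    omega

end Cfsg.Agent.Helper1.Golay
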