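import Mathlib
import Cfsg.Agent.Helper1.Maximal4

set_option autoImplicit false

namespace Cfsg.Agent.Helper1.Golay

open Cfsg Cfsg.Agent.Helper1
open scoped Pointwise

theorem m24_pair_trans' (s x x' : Finset GolayPt) (hcard : (s ∪ x).card ≤ 5)
    (hx : x.card = x'.card) (hsx : (s ∩ x).card = (s ∩ x').card) :
    ∃ g : Equiv.Perm GolayPt, g ∈ M24 ∧ g • s = s ∧ g • x = x' := by
  obtain ⟨⟨g, hg⟩, h1, h2⟩ := m24_pair_trans s x x' hcard hx hsx
  exact ⟨g, hg, h1, h2⟩

theorem perm_inv_apply_self {α : Type*} (f : Equiv.Perm α) (x : α) : f⁻¹ (f x) = x :=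
  Equiv.symm_apply_apply f x

theorem smul_eq_self_of_fix {α : Type*} [DecidableEq α] (g : Equiv.Perm α) (S : Finset α)
    (h : ∀ a ∈ S, g a = a) : g • S = S := by
  ext b
  rw [Finset.mem_smul_finset]
  constructor
  · rintro ⟨a, ha, rfl⟩
    rw [Equiv.Perm.smul_def, h a ha]
    exact ha
  · intro hb
    exact ⟨b, hb, h b hb⟩

/-- The five base points as a set. -/
def base5 : Finset GolayPt := {bp 0, bp 1, bp 2, bp 3, bp 4}

theorem card_base5 : base5.card = 5 := by decide

theorem base5_subset : base5 ⊆ support₂ (ofBits (comb 15)) := by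
  have h : ∀ p ∈ base5, (comb 15).testBit (pos p) = true := by decide +kernel
  intro p hp
  rw [mem_support₂_ofBits]
  exact h p hp

theorem mem_base5 (p : GolayPt) (hp : p ∈ base5) : ∃ i < 5, p = bp i := by
  simp only [base5, Finset.mem_insert, Finset.mem_singleton] at hp
  rcases hp with rfl | rfl | rfl | rfl | rfl
  · exact ⟨0, by norm_num, rfl⟩
  · exact ⟨1, by norm_num, rfl⟩
  · exact ⟨2, by norm_num, rfl⟩
  · exact ⟨3, by norm_num, rfl⟩
  · exact ⟨4, by norm_num, rfl⟩

theorem octad_eq_of_five {o o' F : Finset GolayPt} (ho : o ∈ octads) (ho' : o' ∈ octads)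
    (hF : 5 ≤ F.card) (h1 : F ⊆ o) (h2 : F ⊆ o') : o = o' :=
  octads_unique ho ho' (hF.trans (Finset.card_le_card (Finset.subset_inter h1 h2)))

/-- The pointwise stabiliser of five points is transitive on the points outside their
octad. -/
theorem five_stab_trans (F o : Finset GolayPt) (hF : F.card = 5) (ho : o ∈ octads)
    (hFo : F ⊆ o) (w u : GolayPt) (hw : w ∉ o) (hu : u ∉ o) :
    ∃ g : Equiv.Perm GolayPt, g ∈ M24 ∧ (∀ a ∈ F, g a = a) ∧ g w = u := by
  obtain ⟨t, ht, -, htF⟩ := m24_pair_trans' ∅ F base5 (by rw [Finset.empty_union, hF])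
    (by rw [hF, card_base5]) (by simp)
  have hto : t • o = support₂ (ofBits (comb 15)) := by
    refine octad_eq_of_five (smul_mem_wordsOfWeight ht ho) baseOctad_mem (F := base5)
      (by rw [card_base5]) ?_ base5_subset
    rw [← htF]
    exact Finset.smul_finset_subset_smul_finset hFo
  have key : ∀ v : GolayPt, v ∉ o →
      ∃ h ∈ genGroup, h (t v) = bp 6 ∧ ∀ i < 6, h (bp i) = bp i := by
    intro v hv
    apply lvl7_pts
    apply mask7_ok
    have hnot : t v ∉ support₂ (ofBits (comb 15)) := by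
      rw [← hto]
      intro hmem
      exact hv ((Finset.smul_mem_smul_finset_iff t).mp hmem)
    rw [mem_support₂_ofBits] at hnot
    simpa using hnot
  obtain ⟨h1, hh1, e1, f1⟩ := key w hw
  obtain ⟨h2, hh2, e2, f2⟩ := key u hu
  refine ⟨t⁻¹ * (h2⁻¹ * h1) * t, ?_, ?_, ?_⟩
  · exact M24.mul_mem (M24.mul_mem (M24.inv_mem ht)
      (M24.mul_mem (M24.inv_mem (genGroup_le hh2)) (genGroup_le hh1))) ht
  · intro a ha
    have hta : t a ∈ base5 := by
      rw [← htF]
      exact Finset.smul_mem_smul_finset ha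
    obtain ⟨i, hi, hti⟩ := mem_base5 _ hta
    simp only [Equiv.Perm.mul_apply]
    rw [hti, f1 i (by omega), Equiv.Perm.inv_eq_iff_eq.mpr (f2 i (by omega)).symm, ← hti,
      perm_inv_apply_self]
  · simp only [Equiv.Perm.mul_apply]
    rw [e1, ← e2, perm_inv_apply_self, perm_inv_apply_self]

theorem triad_trans_octad (T U U' o o' : Finset GolayPt) (hT : T.card = 3) (hU : U.card = 3)
    (hU' : U'.card = 3) (hTU : Disjoint T U) (hTU' : Disjoint T U') (ho : o ∈ octads)
    (ho' : o' ∈ octads) (hsub : T ∪ U ⊆ o) (hsub' : T ∪ U' ⊆ o') :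
    ∃ g : Equiv.Perm GolayPt, g ∈ M24 ∧ g • T = T ∧ g • U = U' := by
  have hc6 : (T ∪ U).card = 6 := by rw [Finset.card_union_of_disjoint hTU, hT, hU]
  have hc6' : (T ∪ U').card = 6 := by rw [Finset.card_union_of_disjoint hTU', hT, hU']
  have hx : (o \ (T ∪ U)).card = 2 := by rw [Finset.card_sdiff_of_subset hsub, ho.2, hc6]
  have hx' : (o' \ (T ∪ U')).card = 2 := by rw [Finset.card_sdiff_of_subset hsub', ho'.2, hc6']
  have hd : Disjoint T (o \ (T ∪ U)) := by
    rw [Finset.disjoint_left]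
    intro a ha hb
    rw [Finset.mem_sdiff] at hb
    exact hb.2 (Finset.mem_union_left _ ha)
  have hd' : Disjoint T (o' \ (T ∪ U')) := by
    rw [Finset.disjoint_left]
    intro a ha hb
    rw [Finset.mem_sdiff] at hb
    exact hb.2 (Finset.mem_union_left _ ha)
  obtain ⟨g, hg, hgT, hgx⟩ := m24_pair_trans' T (o \ (T ∪ U)) (o' \ (T ∪ U'))
    (by rw [Finset.card_union_of_disjoint hd, hT, hx]) (by rw [hx, hx'])
    (by rw [Finset.disjoint_iff_inter_eq_empty.mp hd, Finset.disjoint_iff_inter_eq_empty.mp hd'])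
  have e : g • (T ∪ (o \ (T ∪ U))) = T ∪ (o' \ (T ∪ U')) := by
    rw [Finset.smul_finset_union, hgT, hgx]
  have hgo : g • o = o' := by
    refine octad_eq_of_five (smul_mem_wordsOfWeight hg ho) ho' (F := T ∪ (o' \ (T ∪ U')))
      (by rw [Finset.card_union_of_disjoint hd', hT, hx']) ?_ ?_
    · rw [← e]
      exact Finset.smul_finset_subset_smul_finset
        (Finset.union_subset (Finset.union_subset_left hsub) Finset.sdiff_subset)
    · exact Finset.union_subset (Finset.union_subset_left hsub') Finset.sdiff_subset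
  have hU_eq : o \ (T ∪ (o \ (T ∪ U))) = U := by
    ext a
    simp only [Finset.mem_sdiff, Finset.mem_union]
    have h1 : a ∈ U → a ∈ o := fun h => hsub (Finset.mem_union_right _ h)
    have h2 : a ∈ T → a ∈ U → False := fun h h' => Finset.disjoint_left.mp hTU h h'
    tauto
  have hU_eq' : o' \ (T ∪ (o' \ (T ∪ U'))) = U' := by
    ext a
    simp only [Finset.mem_sdiff, Finset.mem_union]
    have h1 : a ∈ U' → a ∈ o' := fun h => hsub' (Finset.mem_union_right _ h)
    have h2 : a ∈ T → a ∈ U' → False := fun h h' => Finset.disjoint_left.mp hTU' h h'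
    tauto
  refine ⟨g, hg, hgT, ?_⟩
  calc g • U = g • (o \ (T ∪ (o \ (T ∪ U)))) := by rw [hU_eq]
    _ = g • o \ g • (T ∪ (o \ (T ∪ U))) := Finset.smul_finset_sdiff
    _ = o' \ (T ∪ (o' \ (T ∪ U'))) := by rw [hgo, e]
    _ = U' := hU_eq'

theorem triad_trans_nonoctad (T U U' : Finset GolayPt) (hT : T.card = 3) (hU : U.card = 3)
    (hU' : U'.card = 3) (hTU : Disjoint T U) (hTU' : Disjoint T U')
    (hno : ¬ ∃ o ∈ octads, T ∪ U ⊆ o) (hno' : ¬ ∃ o ∈ octads, T ∪ U' ⊆ o) :
    ∃ g : Equiv.Perm GolayPt, g ∈ M24 ∧ g • T = T ∧ g • U = U' := by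
  obtain ⟨u, hu⟩ := Finset.card_pos.mp (by rw [hU]; norm_num : 0 < U.card)
  obtain ⟨u', hu'⟩ := Finset.card_pos.mp (by rw [hU']; norm_num : 0 < U'.card)
  have hV : (U.erase u).card = 2 := by rw [Finset.card_erase_of_mem hu, hU]
  have hV' : (U'.erase u').card = 2 := by rw [Finset.card_erase_of_mem hu', hU']
  have hd : Disjoint T (U.erase u) := hTU.mono_right (Finset.erase_subset _ _)
  have hd' : Disjoint T (U'.erase u') := hTU'.mono_right (Finset.erase_subset _ _)
  have hF : (T ∪ U.erase u).card = 5 := by rw [Finset.card_union_of_disjoint hd, hT, hV]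
  have hF' : (T ∪ U'.erase u').card = 5 := by rw [Finset.card_union_of_disjoint hd', hT, hV']
  obtain ⟨o, ⟨ho, hFo⟩, -⟩ := octads_steiner.2 _ hF
  obtain ⟨o', ⟨ho', hFo'⟩, -⟩ := octads_steiner.2 _ hF'
  have huo : u ∉ o := by
    intro h
    apply hno
    refine ⟨o, ho, ?_⟩
    intro a ha
    rcases Finset.mem_union.mp ha with h1 | h1
    · exact hFo (Finset.mem_union_left _ h1)
    · by_cases hau : a = u
      · rw [hau]; exact h
      · exact hFo (Finset.mem_union_right _ (Finset.mem_erase.mpr ⟨hau, h1⟩))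
  have huo' : u' ∉ o' := by
    intro h
    apply hno'
    refine ⟨o', ho', ?_⟩
    intro a ha
    rcases Finset.mem_union.mp ha with h1 | h1
    · exact hFo' (Finset.mem_union_left _ h1)
    · by_cases hau : a = u'
      · rw [hau]; exact h
      · exact hFo' (Finset.mem_union_right _ (Finset.mem_erase.mpr ⟨hau, h1⟩))
  obtain ⟨g1, hg1, hg1T, hg1V⟩ := m24_pair_trans' T (U.erase u) (U'.erase u') (by rw [hF])
    (by rw [hV, hV'])
    (by rw [Finset.disjoint_iff_inter_eq_empty.mp hd, Finset.disjoint_iff_inter_eq_empty.mp hd'])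
  have e : g1 • (T ∪ U.erase u) = T ∪ U'.erase u' := by
    rw [Finset.smul_finset_union, hg1T, hg1V]
  have hgo : g1 • o = o' := by
    refine octad_eq_of_five (smul_mem_wordsOfWeight hg1 ho) ho' (F := T ∪ U'.erase u')
      (by rw [hF']) ?_ hFo'
    rw [← e]
    exact Finset.smul_finset_subset_smul_finset hFo
  have hg1u : g1 u ∉ o' := by
    rw [← hgo]
    intro hmem
    exact huo ((Finset.smul_mem_smul_finset_iff g1).mp hmem)
  obtain ⟨g2, hg2, hfix, hg2u⟩ := five_stab_trans (T ∪ U'.erase u') o' hF' ho' hFo' (g1 u) u'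
    hg1u huo'
  refine ⟨g2 * g1, M24.mul_mem hg2 hg1, ?_, ?_⟩
  · rw [mul_smul, hg1T]
    exact smul_eq_self_of_fix g2 T (fun a ha => hfix a (Finset.mem_union_left _ ha))
  · have hUins : insert u (U.erase u) = U := Finset.insert_erase hu
    have hUins' : insert u' (U'.erase u') = U' := Finset.insert_erase hu'
    rw [mul_smul]
    calc g2 • g1 • U = g2 • g1 • insert u (U.erase u) := by rw [hUins]
      _ = insert (g2 (g1 u)) (g2 • (U'.erase u')) := by
          rw [Finset.smul_finset_insert, hg1V, Finset.smul_finset_insert]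
          rfl
      _ = insert u' (U'.erase u') := by
          rw [hg2u, smul_eq_self_of_fix g2 _ (fun a ha => hfix a (Finset.mem_union_right _ ha))]
      _ = U' := hUins'

/-- The stabiliser of a triad is transitive on the disjoint triads lying in a common octad
with it, and on those not doing so. -/
theorem triad_trans (T U U' : Finset GolayPt) (hT : T.card = 3) (hU : U.card = 3)
    (hU' : U'.card = 3) (hTU : Disjoint T U) (hTU' : Disjoint T U')
    (hiff : (∃ o ∈ octads, T ∪ U ⊆ o) ↔ (∃ o ∈ octads, T ∪ U' ⊆ o)) :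
    ∃ g : Equiv.Perm GolayPt, g ∈ M24 ∧ g • T = T ∧ g • U = U' := by
  by_cases h : ∃ o ∈ octads, T ∪ U ⊆ o
  · obtain ⟨o, ho, hsub⟩ := h
    obtain ⟨o', ho', hsub'⟩ := hiff.mp ⟨o, ho, hsub⟩
    exact triad_trans_octad T U U' o o' hT hU hU' hTU hTU' ho ho' hsub hsub'
  · exact triad_trans_nonoctad T U U' hT hU hU' hTU hTU' h (fun h' => h (hiff.mpr h'))

theorem triad_octad_count (T : Finset GolayPt) (hT : T.card = 3) :
    {U : Finset GolayPt | U.card = 3 ∧ Disjoint T U ∧ (∃ o ∈ octads, T ∪ U ⊆ o)}.ncard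
      = 210 := by
  classical
  have hlam := steiner_lam octads_steiner T (by rw [hT]; norm_num)
  rw [hT, card_golayPt] at hlam
  have h21 : ((blocks octads).filter (fun b => T ⊆ b)).card = 21 := by
    norm_num [Nat.choose] at hlam
    omega
  have e : {U : Finset GolayPt | U.card = 3 ∧ Disjoint T U ∧ (∃ o ∈ octads, T ∪ U ⊆ o)}
      = ↑(((blocks octads).filter (fun b => T ⊆ b)).biUnion
          (fun o => (o \ T).powersetCard 3)) := by
    ext U
    simp only [Set.mem_ofPred_eq, Finset.mem_coe, Finset.mem_biUnion, Finset.mem_filter,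
      Finset.mem_powersetCard, mem_blocks]
    constructor
    · rintro ⟨hU, hd, o, ho, hsub⟩
      refine ⟨o, ⟨ho, Finset.union_subset_left hsub⟩, ?_, hU⟩
      intro a ha
      exact Finset.mem_sdiff.mpr ⟨hsub (Finset.mem_union_right _ ha),
        fun h => Finset.disjoint_left.mp hd h ha⟩
    · rintro ⟨o, ⟨ho, hTo⟩, hUo, hU⟩
      refine ⟨hU, ?_, o, ho, Finset.union_subset hTo (hUo.trans Finset.sdiff_subset)⟩
      rw [Finset.disjoint_left]
      intro a ha hb
      exact (Finset.mem_sdiff.mp (hUo hb)).2 ha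
  rw [e, Set.ncard_coe_finset, Finset.card_biUnion]
  · rw [Finset.sum_congr rfl (g := fun _ => 10)]
    · rw [Finset.sum_const, h21]
      rfl
    · intro o ho
      rw [Finset.mem_filter, mem_blocks] at ho
      rw [Finset.card_powersetCard, Finset.card_sdiff_of_subset ho.2, ho.1.2, hT]
      decide
  · intro o ho o' ho' hne
    rw [Finset.mem_coe, Finset.mem_filter, mem_blocks] at ho ho'
    rw [Function.onFun, Finset.disjoint_left]
    intro U hU hU'
    rw [Finset.mem_powersetCard] at hU hU'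
    apply hne
    have hd : Disjoint T U := by
      rw [Finset.disjoint_left]
      intro a ha hb
      exact (Finset.mem_sdiff.mp (hU.1 hb)).2 ha
    refine octad_eq_of_five ho.1 ho'.1 (F := T ∪ U) ?_
      (Finset.union_subset ho.2 (hU.1.trans Finset.sdiff_subset))
      (Finset.union_subset ho'.2 (hU'.1.trans Finset.sdiff_subset))
    rw [Finset.card_union_of_disjoint hd, hT, hU.2]
    norm_num

theorem triad_nonoctad_count (T : Finset GolayPt) (hT : T.card = 3) :
    {U : Finset GolayPt | U.card = 3 ∧ Disjoint T U ∧ ¬ (∃ o ∈ octads, T ∪ U ⊆ o)}.ncard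
      = 1120 := by
  have h0 := ncard_inter_eq T 3 0 (by norm_num)
  rw [hT, card_golayPt] at h0
  have hsplit : {x : Finset GolayPt | x.card = 3 ∧ (T ∩ x).card = 0}
      = {U : Finset GolayPt | U.card = 3 ∧ Disjoint T U ∧ (∃ o ∈ octads, T ∪ U ⊆ o)}
        ∪ {U : Finset GolayPt | U.card = 3 ∧ Disjoint T U ∧ ¬ (∃ o ∈ octads, T ∪ U ⊆ o)} := by
    ext U
    simp only [Set.mem_ofPred_eq, Set.mem_union, Finset.card_eq_zero,
      ← Finset.disjoint_iff_inter_eq_empty]
    by_cases h : ∃ o ∈ octads, T ∪ U ⊆ o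
    · simp only [h, not_true_eq_false, and_false, or_false, and_true]
    · simp only [h, not_false_eq_true, and_false, false_or, and_true]
  have hdisj : Disjoint
      {U : Finset GolayPt | U.card = 3 ∧ Disjoint T U ∧ (∃ o ∈ octads, T ∪ U ⊆ o)}
      {U : Finset GolayPt | U.card = 3 ∧ Disjoint T U ∧ ¬ (∃ o ∈ octads, T ∪ U ⊆ o)} := by
    rw [Set.disjoint_left]
    rintro U ⟨_, _, h1⟩ ⟨_, _, h2⟩
    exact h2 h1
  rw [hsplit, Set.ncard_union_eq hdisj (Set.toFinite _) (Set.toFinite _),
    triad_octad_count T hT] at h0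
  have h1330 : Nat.choose 3 0 * Nat.choose (24 - 3) (3 - 0) = 1330 := by decide
  omega

end Cfsg.Agent.Helper1.Golay
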