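import Mathlib
import Cfsg.Agent.Helper1.Triad
import Cfsg.Agent.Helper1.GolayOrb3
import Cfsg.Agent.Helper1.MathieuSimple

set_option autoImplicit false

namespace Cfsg.Agent.Helper1.Golay

open Cfsg Cfsg.Agent.Helper1
open scoped Pointwise

theorem m24_emb_trans (x y : Fin 5 ↪ GolayPt) :
    ∃ g : Equiv.Perm GolayPt, g ∈ M24 ∧ ∀ i, g (x i) = y i := by
  have := M24_five_transitive
  obtain ⟨g, hg⟩ := MulAction.exists_smul_eq M24 x y
  refine ⟨g, g.2, fun i => ?_⟩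
  have h : (g • x) i = y i := by rw [hg]
  exact h

theorem exists_emb2 {α : Type*} [DecidableEq α] (d : Finset α) (hd : 5 ≤ d.card) (a₀ a₁ : α)
    (h₀ : a₀ ∈ d) (h₁ : a₁ ∈ d) (h01 : a₀ ≠ a₁) :
    ∃ x : Fin 5 ↪ α, (∀ i, x i ∈ d) ∧ x 0 = a₀ ∧ x 1 = a₁ := by
  have hcard : 0 < (d \ {a₀, a₁}).card := by
    have h2 : ({a₀, a₁} : Finset α).card ≤ 2 := Finset.card_le_two
    have h4 := Finset.le_card_sdiff {a₀, a₁} d
    omega
  obtain ⟨a₂, h2⟩ := Finset.card_pos.mp hcard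
  rw [Finset.mem_sdiff, Finset.mem_insert, Finset.mem_singleton, not_or] at h2
  obtain ⟨x, hx, e0, e1, -⟩ := exists_embedding_five d hd a₀ a₁ a₂ h₀ h₁ h2.1 h01
    (Ne.symm h2.2.1) (Ne.symm h2.2.2)
  exact ⟨x, hx, e0, e1⟩

theorem exists_emb1 {α : Type*} [DecidableEq α] (d : Finset α) (hd : 5 ≤ d.card) (a₀ : α)
    (h₀ : a₀ ∈ d) : ∃ x : Fin 5 ↪ α, (∀ i, x i ∈ d) ∧ x 0 = a₀ := by
  have hcard : 0 < (d.erase a₀).card := by
    rw [Finset.card_erase_of_mem h₀]
    omega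
  obtain ⟨a₁, h1⟩ := Finset.card_pos.mp hcard
  rw [Finset.mem_erase] at h1
  obtain ⟨x, hx, e0, -⟩ := exists_emb2 d hd a₀ a₁ h₀ h1.2 (Ne.symm h1.1)
  exact ⟨x, hx, e0⟩

theorem m24_flag (o o₀ : Finset GolayPt) (ho : o ∈ octads) (ho₀ : o₀ ∈ octads)
    (x y : Fin 5 ↪ GolayPt) (hx : ∀ i, x i ∈ o) (hy : ∀ i, y i ∈ o₀) :
    ∃ g : Equiv.Perm GolayPt, g ∈ M24 ∧ g • o = o₀ ∧ ∀ i, g (x i) = y i := by
  obtain ⟨g, hg, hgx⟩ := m24_emb_trans x y
  refine ⟨g, hg, ?_, hgx⟩
  refine octad_eq_of_five (smul_mem_wordsOfWeight hg ho) ho₀ (F := Finset.univ.map y)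
    (by rw [Finset.card_map, Finset.card_univ, Fintype.card_fin]) ?_ ?_
  · intro a ha
    rw [Finset.mem_map] at ha
    obtain ⟨i, -, rfl⟩ := ha
    rw [← hgx i]
    exact Finset.smul_mem_smul_finset (hx i)
  · intro a ha
    rw [Finset.mem_map] at ha
    obtain ⟨i, -, rfl⟩ := ha
    exact hy i

theorem base15_mem0 : unpos 0 ∈ support₂ (ofBits (comb 15)) := by
  rw [mem_support₂_ofBits]
  decide +kernel

theorem base15_mem2 : unpos 2 ∈ support₂ (ofBits (comb 15)) := by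
  rw [mem_support₂_ofBits]
  decide +kernel

theorem base15_not1 : unpos 1 ∉ support₂ (ofBits (comb 15)) := by
  rw [mem_support₂_ofBits]
  decide +kernel

theorem base1_mem0 : unpos 0 ∈ support₂ (ofBits (comb 1)) := by
  rw [mem_support₂_ofBits]
  decide +kernel

theorem unpos02 : unpos 0 ≠ unpos 2 := by decide

theorem octad_card_ge {o : Finset GolayPt} (ho : o ∈ octads) : 5 ≤ o.card := by
  rw [ho.2]
  norm_num

/-- Flags (point in octad) are conjugate to the base flag. -/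
theorem flag_in (o : Finset GolayPt) (ho : o ∈ octads) (x : GolayPt) (hx : x ∈ o) :
    ∃ t : Equiv.Perm GolayPt, t ∈ M24 ∧ t • o = support₂ (ofBits (comb 15))
      ∧ t x = unpos 0 := by
  obtain ⟨ex, hex, ex0⟩ := exists_emb1 o (octad_card_ge ho) x hx
  obtain ⟨ey, hey, ey0⟩ := exists_emb1 _ (octad_card_ge baseOctad_mem) (unpos 0) base15_mem0
  obtain ⟨g, hg, hgo, hgx⟩ := m24_flag o _ ho baseOctad_mem ex ey hex hey
  refine ⟨g, hg, hgo, ?_⟩
  rw [← ex0, hgx 0, ey0]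

/-- Flags (two points in an octad) are conjugate to the base flag. -/
theorem flag_in2 (o : Finset GolayPt) (ho : o ∈ octads) (p q : GolayPt) (hp : p ∈ o)
    (hq : q ∈ o) (hpq : p ≠ q) :
    ∃ t : Equiv.Perm GolayPt, t ∈ M24 ∧ t • o = support₂ (ofBits (comb 15))
      ∧ t p = unpos 0 ∧ t q = unpos 2 := by
  obtain ⟨ex, hex, ex0, ex1⟩ := exists_emb2 o (octad_card_ge ho) p q hp hq hpq
  obtain ⟨ey, hey, ey0, ey1⟩ := exists_emb2 _ (octad_card_ge baseOctad_mem) (unpos 0) (unpos 2)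
    base15_mem0 base15_mem2 unpos02
  obtain ⟨g, hg, hgo, hgx⟩ := m24_flag o _ ho baseOctad_mem ex ey hex hey
  refine ⟨g, hg, hgo, ?_, ?_⟩
  · rw [← ex0, hgx 0, ey0]
  · rw [← ex1, hgx 1, ey1]

/-- Flags (a point in an octad, a point outside) are conjugate to the base flag. -/
theorem flag_in_out (o : Finset GolayPt) (ho : o ∈ octads) (p q : GolayPt) (hp : p ∈ o)
    (hq : q ∉ o) :
    ∃ t : Equiv.Perm GolayPt, t ∈ M24 ∧ t • o = support₂ (ofBits (comb 15))
      ∧ t p = unpos 0 ∧ t q = unpos 1 := by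
  obtain ⟨ex, hex, ex0⟩ := exists_emb1 o (octad_card_ge ho) p hp
  obtain ⟨ey, hey, ey0⟩ := exists_emb1 _ (octad_card_ge baseOctad_mem) (unpos 0) base15_mem0
  obtain ⟨g, hg, hgo, hgx⟩ := m24_flag o _ ho baseOctad_mem ex ey hex hey
  have hF : (Finset.univ.map ey).card = 5 := by
    rw [Finset.card_map, Finset.card_univ, Fintype.card_fin]
  have hFo : Finset.univ.map ey ⊆ support₂ (ofBits (comb 15)) := by
    intro a ha
    rw [Finset.mem_map] at ha
    obtain ⟨i, -, rfl⟩ := ha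
    exact hey i
  have hgq : g q ∉ support₂ (ofBits (comb 15)) := by
    rw [← hgo]
    intro hmem
    exact hq ((Finset.smul_mem_smul_finset_iff g).mp hmem)
  obtain ⟨h, hh, hfix, hhq⟩ := five_stab_trans _ _ hF baseOctad_mem hFo (g q) (unpos 1) hgq
    base15_not1
  have hho : h • support₂ (ofBits (comb 15)) = support₂ (ofBits (comb 15)) := by
    refine octad_eq_of_five (smul_mem_wordsOfWeight hh baseOctad_mem) baseOctad_mem
      (F := Finset.univ.map ey) (by rw [hF]) ?_ hFo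
    intro a ha
    rw [← hfix a ha]
    exact Finset.smul_mem_smul_finset (hFo ha)
  refine ⟨h * g, M24.mul_mem hh hg, ?_, ?_, ?_⟩
  · rw [mul_smul, hgo, hho]
  · rw [Equiv.Perm.mul_apply, ← ex0, hgx 0, ey0]
    apply hfix
    rw [Finset.mem_map]
    exact ⟨0, Finset.mem_univ _, ey0⟩
  · rw [Equiv.Perm.mul_apply, hhq]

/-- Flags (a point outside an octad) are conjugate to the base flag. -/
theorem flag_out (o : Finset GolayPt) (ho : o ∈ octads) (q : GolayPt) (hq : q ∉ o) :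
    ∃ t : Equiv.Perm GolayPt, t ∈ M24 ∧ t • o = support₂ (ofBits (comb 15))
      ∧ t q = unpos 1 := by
  obtain ⟨p, hp⟩ := Finset.card_pos.mp (by rw [ho.2]; norm_num : 0 < o.card)
  obtain ⟨t, ht, hto, -, htq⟩ := flag_in_out o ho p q hp hq
  exact ⟨t, ht, hto, htq⟩

/-- Flags (a point in a dodecad) are conjugate to the base flag. -/
theorem flag_dod (d : Finset GolayPt) (hd : d ∈ dodecads) (x : GolayPt) (hx : x ∈ d) :
    ∃ t : Equiv.Perm GolayPt, t ∈ M24 ∧ t • d = support₂ (ofBits (comb 1))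
      ∧ t x = unpos 0 := by
  obtain ⟨t1, ht1⟩ := dodecads_transitive d _ hd baseDodecad_mem
  have ht1' : (t1 : Equiv.Perm GolayPt) • d = support₂ (ofBits (comb 1)) := ht1
  have hx1 : (t1 : Equiv.Perm GolayPt) x ∈ support₂ (ofBits (comb 1)) := by
    rw [← ht1']
    exact Finset.smul_mem_smul_finset hx
  obtain ⟨h, hh, hhd, hhx⟩ := dodecad_stab_trans _ baseDodecad_mem _ (unpos 0) hx1 base1_mem0
  refine ⟨h * t1, M24.mul_mem hh t1.2, ?_, ?_⟩
  · rw [mul_smul, ht1', hhd]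
  · rw [Equiv.Perm.mul_apply, hhx]

/-- Arithmetic of types: one membership bit set. -/
theorem typ1_iff (a k : ℕ) (p : Prop) [Decidable p] :
    2 * a + (if p then 1 else 0) = 2 * k + 1 ↔ p ∧ a = k := by
  by_cases h : p
  · rw [if_pos h]
    constructor
    · intro h1
      exact ⟨h, by omega⟩
    · rintro ⟨-, h1⟩
      omega
  · rw [if_neg h]
    constructor
    · intro h1
      omega
    · rintro ⟨h1, -⟩
      exact absurd h1 h

/-- Arithmetic of types: one membership bit clear. -/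
theorem typ0_iff (a k : ℕ) (p : Prop) [Decidable p] :
    2 * a + (if p then 1 else 0) = 2 * k ↔ ¬ p ∧ a = k := by
  by_cases h : p
  · rw [if_pos h]
    constructor
    · intro h1
      omega
    · rintro ⟨h1, -⟩
      exact absurd h h1
  · rw [if_neg h]
    constructor
    · intro h1
      exact ⟨h, by omega⟩
    · rintro ⟨-, h1⟩
      omega

theorem perm_eq_inv_of_apply {α : Type*} (t : Equiv.Perm α) {x y : α} (h : t x = y) :
    t⁻¹ y = x := by
  rw [← h]
  exact Equiv.symm_apply_apply t x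

end Cfsg.Agent.Helper1.Golay
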