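import Mathlib
import Cfsg.Agent.Helper1.GolayFlag

set_option autoImplicit false

namespace Cfsg.Agent.Helper1.Golay

open Cfsg Cfsg.Agent.Helper1
open scoped Pointwise

/-- Arithmetic of types: two membership bits set. -/
theorem typ11_iff (a k : ℕ) (p q : Prop) [Decidable p] [Decidable q] :
    2 * (2 * a + (if p then 1 else 0)) + (if q then 1 else 0) = 4 * k + 3 ↔ p ∧ q ∧ a = k := by
  by_cases hp : p <;> by_cases hq : q
  · rw [if_pos hp, if_pos hq]
    constructor
    · intro h1
      exact ⟨hp, hq, by omega⟩
    · rintro ⟨-, -, h1⟩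
      omega
  · rw [if_pos hp, if_neg hq]
    constructor
    · intro h1
      omega
    · rintro ⟨-, h1, -⟩
      exact absurd h1 hq
  · rw [if_neg hp, if_pos hq]
    constructor
    · intro h1
      omega
    · rintro ⟨h1, -, -⟩
      exact absurd h1 hp
  · rw [if_neg hp, if_neg hq]
    constructor
    · intro h1
      omega
    · rintro ⟨h1, -, -⟩
      exact absurd h1 hp

/-- Arithmetic of types: first membership bit set, second clear. -/
theorem typ10_iff (a k : ℕ) (p q : Prop) [Decidable p] [Decidable q] :
    2 * (2 * a + (if p then 1 else 0)) + (if q then 1 else 0) = 4 * k + 2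
      ↔ p ∧ ¬ q ∧ a = k := by
  by_cases hp : p <;> by_cases hq : q
  · rw [if_pos hp, if_pos hq]
    constructor
    · intro h1
      omega
    · rintro ⟨-, h1, -⟩
      exact absurd hq h1
  · rw [if_pos hp, if_neg hq]
    constructor
    · intro h1
      exact ⟨hp, hq, by omega⟩
    · rintro ⟨-, -, h1⟩
      omega
  · rw [if_neg hp, if_pos hq]
    constructor
    · intro h1
      omega
    · rintro ⟨h1, -, -⟩
      exact absurd h1 hp
  · rw [if_neg hp, if_neg hq]
    constructor
    · intro h1
      omega
    · rintro ⟨h1, -, -⟩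
      exact absurd h1 hp

end Cfsg.Agent.Helper1.Golay
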