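import Mathlib
import Cfsg.Agent.Helper1.GolayFlag2

set_option autoImplicit false

namespace Cfsg.Agent.Helper1.Golay

open Cfsg Cfsg.Agent.Helper1
open scoped Pointwise

theorem m24_five_pts (a0 a1 a2 a3 a4 b0 b1 b2 b3 b4 : GolayPt)
    (ha : [a0, a1, a2, a3, a4].Nodup) (hb : [b0, b1, b2, b3, b4].Nodup) :
    ∃ g : Equiv.Perm GolayPt, g ∈ M24 ∧ g a0 = b0 ∧ g a1 = b1 ∧ g a2 = b2 ∧ g a3 = b3
      ∧ g a4 = b4 := by
  let x : Fin 5 ↪ GolayPt := ⟨[a0, a1, a2, a3, a4].get, List.nodup_iff_injective_get.mp ha⟩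
  let y : Fin 5 ↪ GolayPt := ⟨[b0, b1, b2, b3, b4].get, List.nodup_iff_injective_get.mp hb⟩
  obtain ⟨g, hg, h⟩ := m24_emb_trans x y
  exact ⟨g, hg, h 0, h 1, h 2, h 3, h 4⟩

theorem bp_mem_base5 : ∀ i < 5, bp i ∈ base5 := by
  intro i hi
  interval_cases i <;> simp [base5]

/-- The pointwise stabiliser of five points of an octad is transitive on the other three
points of the octad. -/
theorem five_stab_trans_in (F o : Finset GolayPt) (hF : F.card = 5) (ho : o ∈ octads)
    (hFo : F ⊆ o) (w u : GolayPt) (hw : w ∈ o) (hu : u ∈ o) (hwF : w ∉ F) (huF : u ∉ F) :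
    ∃ g : Equiv.Perm GolayPt, g ∈ M24 ∧ (∀ a ∈ F, g a = a) ∧ g w = u := by
  obtain ⟨t, ht, -, htF⟩ := m24_pair_trans' ∅ F base5 (by rw [Finset.empty_union, hF])
    (by rw [hF, card_base5]) (by simp)
  have hto : t • o = support₂ (ofBits (comb 15)) := by
    refine octad_eq_of_five (smul_mem_wordsOfWeight ht ho) baseOctad_mem (F := base5)
      (by rw [card_base5]) ?_ base5_subset
    rw [← htF]
    exact Finset.smul_finset_subset_smul_finset hFo
  have key : ∀ v : GolayPt, v ∈ o → v ∉ F →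
      ∃ h ∈ genGroup, h (t v) = bp 5 ∧ ∀ i < 5, h (bp i) = bp i := by
    intro v hv hvF
    apply lvl6_pts
    have hin : t v ∈ support₂ (ofBits (comb 15)) := by
      rw [← hto]
      exact Finset.smul_mem_smul_finset hv
    rw [mem_support₂_ofBits] at hin
    have hne : ∀ i < 5, t v ≠ bp i := by
      intro i hi heq
      have hmem : t v ∈ t • F := by
        rw [htF, heq]
        exact bp_mem_base5 i hi
      exact hvF ((Finset.smul_mem_smul_finset_iff t).mp hmem)
    exact mask6_ok (t v) hin (hne 0 (by norm_num)) (hne 1 (by norm_num)) (hne 2 (by norm_num))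
      (hne 3 (by norm_num)) (hne 4 (by norm_num))
  obtain ⟨h1, hh1, e1, f1⟩ := key w hw hwF
  obtain ⟨h2, hh2, e2, f2⟩ := key u hu huF
  refine ⟨t⁻¹ * (h2⁻¹ * h1) * t, ?_, ?_, ?_⟩
  · exact M24.mul_mem (M24.mul_mem (M24.inv_mem ht)
      (M24.mul_mem (M24.inv_mem (genGroup_le hh2)) (genGroup_le hh1))) ht
  · intro a ha
    have hta : t a ∈ base5 := by
      rw [← htF]
      exact Finset.smul_mem_smul_finset ha
    obtain ⟨i, hi, hti⟩ := mem_base5 _ hta
    simp only [Equiv.Perm.mul_apply]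
    rw [hti, f1 i hi, Equiv.Perm.inv_eq_iff_eq.mpr (f2 i hi).symm, ← hti,
      perm_inv_apply_self]
  · simp only [Equiv.Perm.mul_apply]
    rw [e1, ← e2, perm_inv_apply_self, perm_inv_apply_self]

theorem pair_meet_one {α : Type*} [DecidableEq α] (s t : Finset α) (hs : s.card = 2)
    (ht : t.card = 2) (h : (s ∩ t).card = 1) :
    ∃ a b c, a ≠ b ∧ a ≠ c ∧ b ≠ c ∧ s = {a, b} ∧ t = {a, c} := by
  obtain ⟨a, ha⟩ := Finset.card_eq_one.mp h
  have has : a ∈ s := Finset.mem_of_mem_inter_left (by rw [ha]; exact Finset.mem_singleton_self a)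
  have hat : a ∈ t := Finset.mem_of_mem_inter_right (by rw [ha]; exact Finset.mem_singleton_self a)
  obtain ⟨b, hb⟩ := Finset.card_eq_one.mp (by rw [Finset.card_erase_of_mem has, hs] :
    (s.erase a).card = 1)
  obtain ⟨c, hc⟩ := Finset.card_eq_one.mp (by rw [Finset.card_erase_of_mem hat, ht] :
    (t.erase a).card = 1)
  have hbs : b ∈ s.erase a := by rw [hb]; exact Finset.mem_singleton_self b
  have hct : c ∈ t.erase a := by rw [hc]; exact Finset.mem_singleton_self c
  rw [Finset.mem_erase] at hbs hct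
  refine ⟨a, b, c, Ne.symm hbs.1, Ne.symm hct.1, ?_, ?_, ?_⟩
  · intro hbc
    have hmem : b ∈ s ∩ t := Finset.mem_inter.mpr ⟨hbs.2, hbc ▸ hct.2⟩
    rw [ha, Finset.mem_singleton] at hmem
    exact hbs.1 hmem
  · rw [← Finset.insert_erase has, hb]
  · rw [← Finset.insert_erase hat, hc]

theorem duad22_trans (p q : GolayPt) (hpq : p ≠ q) (s : Finset GolayPt) (hs : s.card = 2)
    (hps : p ∉ s) (hqs : q ∉ s) (t t' : Finset GolayPt) (ht : t.card = 2) (hpt : p ∉ t)
    (hqt : q ∉ t) (ht' : t'.card = 2) (hpt' : p ∉ t') (hqt' : q ∉ t') (hts : t ≠ s)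
    (hcard : (s ∩ t).card = (s ∩ t').card)
    (hiff : (∃ o ∈ octads, p ∈ o ∧ q ∈ o ∧ s ∪ t ⊆ o)
      ↔ (∃ o ∈ octads, p ∈ o ∧ q ∈ o ∧ s ∪ t' ⊆ o)) :
    ∃ g : Equiv.Perm GolayPt, g ∈ M24 ∧ g p = p ∧ g q = q ∧ g • s = s ∧ g • t = t' := by
  have hle : (s ∩ t).card ≤ 2 := by
    rw [← hs]
    exact Finset.card_le_card Finset.inter_subset_left
  have hcases : (s ∩ t).card = 0 ∨ (s ∩ t).card = 1 ∨ (s ∩ t).card = 2 := by omega
  rcases hcases with h0 | h1 | h2
  · -- disjoint pairs
    have h0' : (s ∩ t').card = 0 := by rw [← hcard, h0]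
    have hd : Disjoint s t := Finset.disjoint_iff_inter_eq_empty.mpr (Finset.card_eq_zero.mp h0)
    have hd' : Disjoint s t' :=
      Finset.disjoint_iff_inter_eq_empty.mpr (Finset.card_eq_zero.mp h0')
    obtain ⟨a, b, hab, rfl⟩ := Finset.card_eq_two.mp hs
    obtain ⟨c, e, hce, rfl⟩ := Finset.card_eq_two.mp ht
    obtain ⟨c', e', hce', rfl⟩ := Finset.card_eq_two.mp ht'
    simp only [Finset.mem_insert, Finset.mem_singleton, not_or] at hps hqs hpt hqt hpt' hqt'
    simp only [Finset.disjoint_insert_left, Finset.disjoint_singleton_left, Finset.mem_insert,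
      Finset.mem_singleton, not_or] at hd hd'
    obtain ⟨g1, hg1, g1p, g1q, g1a, g1b, g1c⟩ := m24_five_pts p q a b c p q a b c'
      (by simp [hpq, hps.1, hps.2, hpt.1, hqs.1, hqs.2, hqt.1, hab, hd.1.1, hd.2.1])
      (by simp [hpq, hps.1, hps.2, hpt'.1, hqs.1, hqs.2, hqt'.1, hab, hd'.1.1, hd'.2.1])
    have hF' : ({p, q, a, b, c'} : Finset GolayPt).card = 5 := by
      rw [Finset.card_insert_of_notMem, Finset.card_insert_of_notMem,
        Finset.card_insert_of_notMem, Finset.card_pair hd'.2.1]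
      · simp [hd'.1.1, hab]
      · simp [hqs.1, hqs.2, hqt'.1]
      · simp [hpq, hps.1, hps.2, hpt'.1]
    have hg1e : g1 e ∉ ({p, q, a, b, c'} : Finset GolayPt) := by
      simp only [Finset.mem_insert, Finset.mem_singleton, not_or]
      refine ⟨?_, ?_, ?_, ?_, ?_⟩
      · rw [← g1p]; exact fun h => hpt.2 (g1.injective h).symm
      · rw [← g1q]; exact fun h => hqt.2 (g1.injective h).symm
      · rw [← g1a]; exact fun h => hd.1.2 (g1.injective h).symm
      · rw [← g1b]; exact fun h => hd.2.2 (g1.injective h).symm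
      · rw [← g1c]; exact fun h => hce (g1.injective h).symm
    have he'F : e' ∉ ({p, q, a, b, c'} : Finset GolayPt) := by
      simp only [Finset.mem_insert, Finset.mem_singleton, not_or]
      exact ⟨Ne.symm hpt'.2, Ne.symm hqt'.2, Ne.symm hd'.1.2, Ne.symm hd'.2.2, Ne.symm hce'⟩
    have hsub5 : ∀ o : Finset GolayPt, p ∈ o → q ∈ o → a ∈ o → b ∈ o → c' ∈ o →
        ({p, q, a, b, c'} : Finset GolayPt) ⊆ o := by
      intro o h1 h2 h3 h4 h5 x hx
      simp only [Finset.mem_insert, Finset.mem_singleton] at hx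
      rcases hx with rfl | rfl | rfl | rfl | rfl <;> assumption
    have hsub5g : ∀ o : Finset GolayPt, p ∈ o → q ∈ o → a ∈ o → b ∈ o → c ∈ o →
        ({p, q, a, b, c'} : Finset GolayPt) ⊆ g1 • o := by
      intro o h1 h2 h3 h4 h5
      apply hsub5
      · rw [← g1p]; exact Finset.smul_mem_smul_finset h1
      · rw [← g1q]; exact Finset.smul_mem_smul_finset h2
      · rw [← g1a]; exact Finset.smul_mem_smul_finset h3
      · rw [← g1b]; exact Finset.smul_mem_smul_finset h4
      · rw [← g1c]; exact Finset.smul_mem_smul_finset h5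
    have hex : ∃ h : Equiv.Perm GolayPt, h ∈ M24
        ∧ (∀ x ∈ ({p, q, a, b, c'} : Finset GolayPt), h x = x) ∧ h (g1 e) = e' := by
      by_cases hoct : ∃ o ∈ octads, p ∈ o ∧ q ∈ o ∧ ({a, b} : Finset GolayPt) ∪ {c, e} ⊆ o
      · obtain ⟨o, ho, hpo, hqo, hsub⟩ := hoct
        obtain ⟨o', ho', hpo', hqo', hsub'⟩ := hiff.mp ⟨o, ho, hpo, hqo, hsub⟩
        have hao : a ∈ o := hsub (by simp)
        have hbo : b ∈ o := hsub (by simp)
        have hco : c ∈ o := hsub (by simp)
        have heo : e ∈ o := hsub (by simp)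
        have hao' : a ∈ o' := hsub' (by simp)
        have hbo' : b ∈ o' := hsub' (by simp)
        have hco' : c' ∈ o' := hsub' (by simp)
        have heo' : e' ∈ o' := hsub' (by simp)
        have hgo : g1 • o = o' := octad_eq_of_five (smul_mem_wordsOfWeight hg1 ho) ho'
          (F := {p, q, a, b, c'}) (by rw [hF']) (hsub5g o hpo hqo hao hbo hco)
          (hsub5 o' hpo' hqo' hao' hbo' hco')
        have hge : g1 e ∈ o' := by
          rw [← hgo]
          exact Finset.smul_mem_smul_finset heo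
        exact five_stab_trans_in _ o' hF' ho' (hsub5 o' hpo' hqo' hao' hbo' hco') (g1 e) e'
          hge heo' hg1e he'F
      · have hoct' : ¬ ∃ o ∈ octads, p ∈ o ∧ q ∈ o ∧ ({a, b} : Finset GolayPt) ∪ {c', e'} ⊆ o :=
          fun h => hoct (hiff.mpr h)
        have hF : ({p, q, a, b, c} : Finset GolayPt).card = 5 := by
          rw [Finset.card_insert_of_notMem, Finset.card_insert_of_notMem,
            Finset.card_insert_of_notMem, Finset.card_pair hd.2.1]
          · simp [hd.1.1, hab]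
          · simp [hqs.1, hqs.2, hqt.1]
          · simp [hpq, hps.1, hps.2, hpt.1]
        obtain ⟨o, ⟨ho, hFo⟩, -⟩ := octads_steiner.2 _ hF
        obtain ⟨o', ⟨ho', hFo'⟩, -⟩ := octads_steiner.2 _ hF'
        have hpo : p ∈ o := hFo (by simp)
        have hqo : q ∈ o := hFo (by simp)
        have hao : a ∈ o := hFo (by simp)
        have hbo : b ∈ o := hFo (by simp)
        have hco : c ∈ o := hFo (by simp)
        have hpo' : p ∈ o' := hFo' (by simp)
        have hqo' : q ∈ o' := hFo' (by simp)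
        have hao' : a ∈ o' := hFo' (by simp)
        have hbo' : b ∈ o' := hFo' (by simp)
        have hco' : c' ∈ o' := hFo' (by simp)
        have heo : e ∉ o := by
          intro he
          apply hoct
          refine ⟨o, ho, hpo, hqo, ?_⟩
          intro x hx
          simp only [Finset.mem_union, Finset.mem_insert, Finset.mem_singleton] at hx
          rcases hx with (rfl | rfl) | (rfl | rfl) <;> assumption
        have heo' : e' ∉ o' := by
          intro he
          apply hoct'
          refine ⟨o', ho', hpo', hqo', ?_⟩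
          intro x hx
          simp only [Finset.mem_union, Finset.mem_insert, Finset.mem_singleton] at hx
          rcases hx with (rfl | rfl) | (rfl | rfl) <;> assumption
        have hgo : g1 • o = o' := octad_eq_of_five (smul_mem_wordsOfWeight hg1 ho) ho'
          (F := {p, q, a, b, c'}) (by rw [hF']) (hsub5g o hpo hqo hao hbo hco) hFo'
        have hge : g1 e ∉ o' := by
          rw [← hgo]
          intro hmem
          exact heo ((Finset.smul_mem_smul_finset_iff g1).mp hmem)
        exact five_stab_trans _ o' hF' ho' hFo' (g1 e) e' hge heo'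
    obtain ⟨h, hh, hfix, hhe⟩ := hex
    have hp5 : p ∈ ({p, q, a, b, c'} : Finset GolayPt) := by simp
    have hq5 : q ∈ ({p, q, a, b, c'} : Finset GolayPt) := by simp
    have ha5 : a ∈ ({p, q, a, b, c'} : Finset GolayPt) := by simp
    have hb5 : b ∈ ({p, q, a, b, c'} : Finset GolayPt) := by simp
    have hc5 : c' ∈ ({p, q, a, b, c'} : Finset GolayPt) := by simp
    refine ⟨h * g1, M24.mul_mem hh hg1, ?_, ?_, ?_, ?_⟩
    · rw [Equiv.Perm.mul_apply, g1p, hfix p hp5]
    · rw [Equiv.Perm.mul_apply, g1q, hfix q hq5]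
    · rw [Finset.smul_finset_insert, Finset.smul_finset_singleton, Equiv.Perm.smul_def,
        Equiv.Perm.smul_def, Equiv.Perm.mul_apply, Equiv.Perm.mul_apply, g1a, g1b,
        hfix a ha5, hfix b hb5]
    · rw [Finset.smul_finset_insert, Finset.smul_finset_singleton, Equiv.Perm.smul_def,
        Equiv.Perm.smul_def, Equiv.Perm.mul_apply, Equiv.Perm.mul_apply, g1c, hhe,
        hfix c' hc5]
  · -- pairs meeting in one point
    have h1' : (s ∩ t').card = 1 := by rw [← hcard, h1]
    obtain ⟨a, b, c, hab, hac, hbc, rfl, rfl⟩ := pair_meet_one s t hs ht h1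
    obtain ⟨a', b', c', hab', hac', hbc', hs', rfl⟩ := pair_meet_one _ t' hs ht' h1'
    have hps' := hps
    have hqs' := hqs
    rw [hs'] at hps' hqs'
    simp only [Finset.mem_insert, Finset.mem_singleton, not_or] at hps hqs hpt hqt hpt' hqt'
    simp only [Finset.mem_insert, Finset.mem_singleton, not_or] at hps' hqs'
    obtain ⟨g, hg, gp, gq, ga, gb, gc⟩ := m24_five_pts p q a b c p q a' b' c'
      (by simp [hpq, hps.1, hps.2, hpt.2, hqs.1, hqs.2, hqt.2, hab, hac, hbc])
      (by simp [hpq, hps'.1, hps'.2, hpt'.2, hqs'.1, hqs'.2, hqt'.2, hab', hac', hbc'])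
    refine ⟨g, hg, gp, gq, ?_, ?_⟩
    · rw [Finset.smul_finset_insert, Finset.smul_finset_singleton, Equiv.Perm.smul_def,
        Equiv.Perm.smul_def, ga, gb, hs']
    · rw [Finset.smul_finset_insert, Finset.smul_finset_singleton, Equiv.Perm.smul_def,
        Equiv.Perm.smul_def, ga, gc]
  · exfalso
    have e1 : s ∩ t = s := Finset.eq_of_subset_of_card_le Finset.inter_subset_left
      (by rw [h2, hs])
    have e2 : s ∩ t = t := Finset.eq_of_subset_of_card_le Finset.inter_subset_right
      (by rw [h2, ht])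
    exact hts (by rw [← e2, e1])

end Cfsg.Agent.Helper1.Golay
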