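import Mathlib
import Cfsg.Agent.Helper1.Duad22

set_option autoImplicit false

namespace Cfsg.Agent.Helper1.Golay

open Cfsg Cfsg.Agent.Helper1
open scoped Pointwise

theorem duad22_Q_card (p q : GolayPt) (hpq : p ≠ q) (s : Finset GolayPt) (hs : s.card = 2)
    (hps : p ∉ s) (hqs : q ∉ s) : (insert p (insert q s)).card = 4 := by
  rw [Finset.card_insert_of_notMem, Finset.card_insert_of_notMem hqs, hs]
  rw [Finset.mem_insert, not_or]
  exact ⟨hpq, hps⟩

theorem duad22_cond (p q : GolayPt) (s t : Finset GolayPt) :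
    (p ∉ t ∧ q ∉ t) ∧ Disjoint s t ↔ Disjoint (insert p (insert q s)) t := by
  rw [Finset.disjoint_insert_left, Finset.disjoint_insert_left]
  tauto

theorem duad22_oct (p q : GolayPt) (s t : Finset GolayPt) :
    (∃ o ∈ octads, p ∈ o ∧ q ∈ o ∧ s ∪ t ⊆ o)
      ↔ ∃ o ∈ octads, insert p (insert q s) ∪ t ⊆ o := by
  constructor
  · rintro ⟨o, ho, hp, hq, hsub⟩
    refine ⟨o, ho, ?_⟩
    intro x hx
    simp only [Finset.mem_union, Finset.mem_insert] at hx
    rcases hx with (rfl | rfl | hx) | hx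
    · exact hp
    · exact hq
    · exact hsub (Finset.mem_union_left _ hx)
    · exact hsub (Finset.mem_union_right _ hx)
  · rintro ⟨o, ho, hsub⟩
    refine ⟨o, ho, hsub (by simp), hsub (by simp), ?_⟩
    intro x hx
    apply hsub
    simp only [Finset.mem_union, Finset.mem_insert] at hx ⊢
    tauto

theorem quad_octad_count (Q : Finset GolayPt) (hQ : Q.card = 4) :
    {t : Finset GolayPt | t.card = 2 ∧ Disjoint Q t ∧ (∃ o ∈ octads, Q ∪ t ⊆ o)}.ncard
      = 30 := by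
  classical
  have hlam := steiner_lam octads_steiner Q (by rw [hQ]; norm_num)
  rw [hQ, card_golayPt] at hlam
  have c1 : (8 - 4).choose (5 - 4) = 4 := by decide
  have c2 : (24 - 4).choose (5 - 4) = 20 := by decide
  rw [c1, c2] at hlam
  have h5 : ((blocks octads).filter (fun b => Q ⊆ b)).card = 5 := by omega
  have e : {t : Finset GolayPt | t.card = 2 ∧ Disjoint Q t ∧ (∃ o ∈ octads, Q ∪ t ⊆ o)}
      = ↑(((blocks octads).filter (fun b => Q ⊆ b)).biUnion
          (fun o => (o \ Q).powersetCard 2)) := by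
    ext U
    simp only [Set.mem_ofPred_eq, Finset.mem_coe, Finset.mem_biUnion, Finset.mem_filter,
      Finset.mem_powersetCard, mem_blocks]
    constructor
    · rintro ⟨hU, hd, o, ho, hsub⟩
      refine ⟨o, ⟨ho, Finset.union_subset_left hsub⟩, ?_, hU⟩
      intro a ha
      exact Finset.mem_sdiff.mpr ⟨hsub (Finset.mem_union_right _ ha),
        fun h => Finset.disjoint_left.mp hd h ha⟩
    · rintro ⟨o, ⟨ho, hTo⟩, hUo, hU⟩
      refine ⟨hU, ?_, o, ho, Finset.union_subset hTo (hUo.trans Finset.sdiff_subset)⟩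
      rw [Finset.disjoint_left]
      intro a ha hb
      exact (Finset.mem_sdiff.mp (hUo hb)).2 ha
  rw [e, Set.ncard_coe_finset, Finset.card_biUnion]
  · rw [Finset.sum_congr rfl (g := fun _ => 6)]
    · rw [Finset.sum_const, h5]
      rfl
    · intro o ho
      rw [Finset.mem_filter, mem_blocks] at ho
      rw [Finset.card_powersetCard, Finset.card_sdiff_of_subset ho.2, ho.1.2, hQ]
      decide
  · intro o ho o' ho' hne
    rw [Finset.mem_coe, Finset.mem_filter, mem_blocks] at ho ho'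
    rw [Function.onFun, Finset.disjoint_left]
    intro U hU hU'
    rw [Finset.mem_powersetCard] at hU hU'
    apply hne
    have hd : Disjoint Q U := by
      rw [Finset.disjoint_left]
      intro a ha hb
      exact (Finset.mem_sdiff.mp (hU.1 hb)).2 ha
    refine octad_eq_of_five ho.1 ho'.1 (F := Q ∪ U) ?_
      (Finset.union_subset ho.2 (hU.1.trans Finset.sdiff_subset))
      (Finset.union_subset ho'.2 (hU'.1.trans Finset.sdiff_subset))
    rw [Finset.card_union_of_disjoint hd, hQ, hU.2]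
    norm_num

theorem quad_nonoctad_count (Q : Finset GolayPt) (hQ : Q.card = 4) :
    {t : Finset GolayPt | t.card = 2 ∧ Disjoint Q t ∧ ¬ (∃ o ∈ octads, Q ∪ t ⊆ o)}.ncard
      = 160 := by
  have h0 := ncard_inter_eq Q 2 0 (by norm_num)
  rw [hQ, card_golayPt] at h0
  have hsplit : {x : Finset GolayPt | x.card = 2 ∧ (Q ∩ x).card = 0}
      = {t : Finset GolayPt | t.card = 2 ∧ Disjoint Q t ∧ (∃ o ∈ octads, Q ∪ t ⊆ o)}
        ∪ {t : Finset GolayPt | t.card = 2 ∧ Disjoint Q t ∧ ¬ (∃ o ∈ octads, Q ∪ t ⊆ o)} := by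
    ext U
    simp only [Set.mem_ofPred_eq, Set.mem_union, Finset.card_eq_zero,
      ← Finset.disjoint_iff_inter_eq_empty]
    by_cases h : ∃ o ∈ octads, Q ∪ U ⊆ o
    · simp only [h, not_true_eq_false, and_false, or_false, and_true]
    · simp only [h, not_false_eq_true, and_false, false_or, and_true]
  have hdisj : Disjoint
      {t : Finset GolayPt | t.card = 2 ∧ Disjoint Q t ∧ (∃ o ∈ octads, Q ∪ t ⊆ o)}
      {t : Finset GolayPt | t.card = 2 ∧ Disjoint Q t ∧ ¬ (∃ o ∈ octads, Q ∪ t ⊆ o)} := by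
    rw [Set.disjoint_left]
    rintro U ⟨_, _, h1⟩ ⟨_, _, h2⟩
    exact h2 h1
  rw [hsplit, Set.ncard_union_eq hdisj (Set.toFinite _) (Set.toFinite _),
    quad_octad_count Q hQ] at h0
  have h190 : Nat.choose 4 0 * Nat.choose (24 - 4) (2 - 0) = 190 := by decide
  omega

theorem duad22_counts (p q : GolayPt) (hpq : p ≠ q) (s : Finset GolayPt) (hs : s.card = 2)
    (hps : p ∉ s) (hqs : q ∉ s) :
    {t : Finset GolayPt | (t.card = 2 ∧ p ∉ t ∧ q ∉ t) ∧ Disjoint s t
      ∧ (∃ o ∈ octads, p ∈ o ∧ q ∈ o ∧ s ∪ t ⊆ o)}.ncard = 30 ∧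
    {t : Finset GolayPt | (t.card = 2 ∧ p ∉ t ∧ q ∉ t) ∧ Disjoint s t
      ∧ ¬ (∃ o ∈ octads, p ∈ o ∧ q ∈ o ∧ s ∪ t ⊆ o)}.ncard = 160 := by
  have hQ := duad22_Q_card p q hpq s hs hps hqs
  have e1 : {t : Finset GolayPt | (t.card = 2 ∧ p ∉ t ∧ q ∉ t) ∧ Disjoint s t
      ∧ (∃ o ∈ octads, p ∈ o ∧ q ∈ o ∧ s ∪ t ⊆ o)}
      = {t : Finset GolayPt | t.card = 2 ∧ Disjoint (insert p (insert q s)) t
        ∧ (∃ o ∈ octads, insert p (insert q s) ∪ t ⊆ o)} := by
    ext t
    simp only [Set.mem_ofPred_eq, ← duad22_cond, ← duad22_oct]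
    tauto
  have e2 : {t : Finset GolayPt | (t.card = 2 ∧ p ∉ t ∧ q ∉ t) ∧ Disjoint s t
      ∧ ¬ (∃ o ∈ octads, p ∈ o ∧ q ∈ o ∧ s ∪ t ⊆ o)}
      = {t : Finset GolayPt | t.card = 2 ∧ Disjoint (insert p (insert q s)) t
        ∧ ¬ (∃ o ∈ octads, insert p (insert q s) ∪ t ⊆ o)} := by
    ext t
    simp only [Set.mem_ofPred_eq, ← duad22_cond, ← duad22_oct]
    tauto
  rw [e1, e2]
  exact ⟨quad_octad_count _ hQ, quad_nonoctad_count _ hQ⟩

end Cfsg.Agent.Helper1.Golay
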