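import Mathlib
import Cfsg.Agent.Helper1.FamFinal

set_option autoImplicit false

namespace Cfsg.Agent.Helper1.Golay

open Cfsg
open scoped Pointwise

theorem stabilizer_singleton (o : Finset GolayPt) :
    MulAction.stabilizer M24 ({o} : Finset (Finset GolayPt)) = MulAction.stabilizer M24 o := by
  ext g
  constructor
  · intro h
    have h1 : g • ({o} : Finset (Finset GolayPt)) = {o} := MulAction.mem_stabilizer_iff.mp h
    have h2 : g • o ∈ g • ({o} : Finset (Finset GolayPt)) :=
      Finset.smul_mem_smul_finset (Finset.mem_singleton_self o)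
    rw [h1, Finset.mem_singleton] at h2
    exact MulAction.mem_stabilizer_iff.mpr h2
  · intro h
    have h1 : g • o = o := MulAction.mem_stabilizer_iff.mp h
    refine MulAction.mem_stabilizer_iff.mpr ?_
    rw [Finset.smul_finset_singleton, h1]

/-- Transport of orbit data from the base octad to any octad. -/
theorem orbData_octad {la : List ℕ} (hla : famOf la = {support₂ (ofBits (comb 15))})
    {𝔛 : Set (Finset (Finset GolayPt))} {n : ℕ → ℕ} {Ts : Finset ℕ}
    (h : OrbData (famOf la) 𝔛 n Ts) (hinv : FamInv 𝔛) (o : Finset GolayPt) (ho : o ∈ octads) :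
    OrbData ({o} : Finset (Finset GolayPt)) 𝔛 n Ts := by
  obtain ⟨g, hg⟩ := octads_transitive _ o baseOctad_mem ho
  have hg' : (g : Equiv.Perm GolayPt) • support₂ (ofBits (comb 15)) = o := hg
  have e : ({o} : Finset (Finset GolayPt)) = (g : Equiv.Perm GolayPt) • famOf la := by
    rw [hla, Finset.smul_finset_singleton, hg']
  rw [e]
  exact h.smul hinv g.2

theorem famOf_singleton_base (l : List ℕ) (h : l = [comb 15]) :
    famOf l = {support₂ (ofBits (comb 15))} := by
  rw [h]
  simp [famOf]

theorem compl_support_base : support₂ (ofBits 16436384)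
    = Finset.univ \ support₂ (ofBits (comb 1)) := by
  rw [comb_one]
  ext p
  rw [Finset.mem_sdiff, mem_support₂_ofBits, mem_support₂_ofBits]
  have h : ∀ p : GolayPt, (16436384 : ℕ).testBit (pos p) = !(340831 : ℕ).testBit (pos p) := by
    decide +kernel
  rw [h p]
  simp

/-- Transport of orbit data from the base dodecad pair to any dodecad pair. -/
theorem orbData_dodpair {la : List ℕ} (hla : la = [340831, 16436384])
    {𝔛 : Set (Finset (Finset GolayPt))} {n : ℕ → ℕ} {Ts : Finset ℕ}
    (h : OrbData (famOf la) 𝔛 n Ts) (hinv : FamInv 𝔛) (d : Finset GolayPt)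
    (hd : d ∈ dodecads) :
    OrbData ({d, Finset.univ \ d} : Finset (Finset GolayPt)) 𝔛 n Ts := by
  obtain ⟨g, hg⟩ := dodecads_transitive _ d baseDodecad_mem hd
  have hg' : (g : Equiv.Perm GolayPt) • support₂ (ofBits (comb 1)) = d := hg
  have hbase : famOf la
      = {support₂ (ofBits (comb 1)), Finset.univ \ support₂ (ofBits (comb 1))} := by
    rw [hla, ← compl_support_base, comb_one]
    simp [famOf]
  have e : ({d, Finset.univ \ d} : Finset (Finset GolayPt))
      = (g : Equiv.Perm GolayPt) • famOf la := by
    rw [hbase, Finset.smul_finset_insert, Finset.smul_finset_singleton,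
      Finset.smul_finset_sdiff, Finset.smul_finset_univ, hg']
  rw [e]
  exact h.smul hinv g.2

end Cfsg.Agent.Helper1.Golay
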