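import Mathlib
import Cfsg.Agent.Helper1.FamFinal2
import Cfsg.Agent.Helper1.FamTrio

set_option autoImplicit false

namespace Cfsg.Agent.Helper1.Golay

open Cfsg
open scoped Pointwise

theorem trio_cover {T : Finset (Finset GolayPt)} (hT : T ∈ trios) :
    T.biUnion id = Finset.univ := by
  apply Finset.eq_univ_of_card
  rw [Finset.card_biUnion (t := id) (fun t ht u hu hne => hT.2.2 t ht u hu hne)]
  have h8 : ∀ t ∈ T, (id t).card = 8 := fun t ht => (hT.2.1 t ht).2
  rw [Finset.sum_congr rfl h8, Finset.sum_const, hT.1, card_golayPt]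
  rfl

theorem trio_sum_inter {T : Finset (Finset GolayPt)} (hT : T ∈ trios) (Y : Finset GolayPt) :
    ∑ t ∈ T, (t ∩ Y).card = Y.card := by
  have e : T.biUnion (fun t => t ∩ Y) = Y := by
    ext p
    simp only [Finset.mem_biUnion, Finset.mem_inter]
    constructor
    · rintro ⟨t, _, _, hp⟩
      exact hp
    · intro hp
      have hmem : p ∈ T.biUnion id := by
        rw [trio_cover hT]
        exact Finset.mem_univ p
      obtain ⟨t, ht, hpt⟩ := Finset.mem_biUnion.mp hmem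
      exact ⟨t, ht, hpt, hp⟩
  rw [← Finset.card_biUnion, e]
  intro t ht u hu hne
  exact (hT.2.2 t ht u hu hne).mono Finset.inter_subset_left Finset.inter_subset_left

theorem sum_three {α : Type*} [DecidableEq α] (f : α → ℕ) {x y z : α} (hxy : x ≠ y)
    (hxz : x ≠ z) (hyz : y ≠ z) : ∑ u ∈ ({x, y, z} : Finset α), f u = f x + f y + f z := by
  have hnot : x ∉ ({y, z} : Finset α) := by simp [hxy, hxz]
  rw [Finset.sum_insert hnot, Finset.sum_pair hyz, Nat.add_assoc]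

/-- A trio through an octad, written out. -/
theorem trio_through {T : Finset (Finset GolayPt)} (hT : T ∈ trios) {o : Finset GolayPt}
    (ho : o ∈ T) : ∃ a, a ∈ T ∧ a ∈ octads ∧ o ≠ a ∧ Disjoint o a ∧ T = {o, a, (o ∪ a)ᶜ}
      ∧ (o ∪ a)ᶜ ∈ octads ∧ o ≠ (o ∪ a)ᶜ ∧ a ≠ (o ∪ a)ᶜ ∧ (o ∪ a)ᶜ ∈ T := by
  obtain ⟨a, ha, hne⟩ := Finset.exists_mem_ne (by rw [hT.1]; norm_num) o
  have hoa : o ≠ a := Ne.symm hne
  have hd : Disjoint o a := hT.2.2 o ho a ha hoa
  have e := trio_eq_of_pair hT ho ha hoa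
  have hoo := hT.2.1 o ho
  have hao := hT.2.1 a ha
  obtain ⟨d1, d2⟩ := third_octad_disjoint o a
  have hb : (o ∪ a)ᶜ ∈ T := by
    rw [e]
    simp
  exact ⟨a, ha, hao, hoa, hd, e, third_octad hoo hao hd, octad_ne_of_disjoint hoo d1,
    octad_ne_of_disjoint hao d2, hb⟩

theorem mem_trio_iff_type {o : Finset GolayPt} (ho : o ∈ octads) {T : Finset (Finset GolayPt)}
    (hT : T ∈ trios) : o ∈ T ↔ famType {o} T = 64 := by
  rw [famType, Finset.sum_singleton]
  constructor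
  · intro hoT
    obtain ⟨a, -, -, hoa, hd, e, -, hob, hab, -⟩ := trio_through hT hoT
    obtain ⟨d1, -⟩ := third_octad_disjoint o a
    rw [e, sum_three _ hoa hob hab, Finset.inter_self, ho.2,
      Finset.disjoint_iff_inter_eq_empty.mp hd, Finset.disjoint_iff_inter_eq_empty.mp d1]
    rfl
  · intro h
    by_contra hoT
    obtain ⟨x, y, z, hxy, hxz, hyz, e⟩ := Finset.card_eq_three.mp hT.1
    have hs := trio_sum_inter hT o
    rw [e, sum_three _ hxy hxz hyz, ho.2] at hs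
    rw [e, sum_three _ hxy hxz hyz] at h
    have hx : x ∈ T := by rw [e]; simp
    have hy : y ∈ T := by rw [e]; simp
    have hz : z ∈ T := by rw [e]; simp
    have key : ∀ u ∈ T, (o ∩ u).card ^ 2 ≤ 4 * (u ∩ o).card := by
      intro u hu
      rw [Finset.inter_comm u o]
      rcases octad_meet_cases ho (hT.2.1 u hu) with h0 | h0 | h0 | h0
      · rw [h0]; norm_num
      · rw [h0]; norm_num
      · rw [h0]; norm_num
      · exact absurd (octad_meet_eight ho (hT.2.1 u hu) h0 ▸ hu) hoT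
    have k1 := key x hx
    have k2 := key y hy
    have k3 := key z hz
    omega

/-- Two distinct trios with a common octad have type 128. -/
theorem trio_type_share {U T : Finset (Finset GolayPt)} (hU : U ∈ trios) (hT : T ∈ trios)
    {o : Finset GolayPt} (hoU : o ∈ U) (hoT : o ∈ T) (hne : T ≠ U) : famType U T = 128 := by
  obtain ⟨c, hcU, hc, hoc, hdc, eU, hd, hod, hcd, hdU⟩ := trio_through hU hoU
  obtain ⟨a, haT, ha, hoa, hda, eT, hb, hob, hab, hbT⟩ := trio_through hT hoT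
  have ho : o ∈ octads := hU.2.1 o hoU
  obtain ⟨dd1, dd2⟩ := third_octad_disjoint o c
  obtain ⟨db1, db2⟩ := third_octad_disjoint o a
  have hcT : c ∉ T := by
    intro h
    exact hne ((trio_eq_of_pair hT hoT h hoc).trans eU.symm)
  have hac : a ≠ c := fun h => hcT (h ▸ haT)
  have hbc : (o ∪ a)ᶜ ≠ c := fun h => hcT (h ▸ hbT)
  -- sums over `T` against `c` and `(o ∪ c)ᶜ`, and over `U` against `a`
  have s1 := trio_sum_inter hT c
  have s2 := trio_sum_inter hT (o ∪ c)ᶜ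
  have s3 := trio_sum_inter hU a
  rw [eT, sum_three _ hoa hob hab, hc.2, Finset.disjoint_iff_inter_eq_empty.mp hdc,
    Finset.card_empty] at s1
  rw [eT, sum_three _ hoa hob hab, hd.2, Finset.disjoint_iff_inter_eq_empty.mp dd1,
    Finset.card_empty] at s2
  rw [eU, sum_three _ hoc hod hcd, ha.2, Finset.disjoint_iff_inter_eq_empty.mp hda,
    Finset.card_empty] at s3
  have m1 := octad_meet_cases ha hc
  have m2 := octad_meet_cases hb hc
  have n1 : (a ∩ c).card ≠ 8 := fun h => hac (octad_meet_eight ha hc h).symm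
  have n2 : ((o ∪ a)ᶜ ∩ c).card ≠ 8 := fun h => hbc (octad_meet_eight hb hc h).symm
  have p1 : (a ∩ c).card = 4 := by omega
  have p2 : ((o ∪ a)ᶜ ∩ c).card = 4 := by omega
  have e3 : (c ∩ a).card = 4 := by rw [Finset.inter_comm]; exact p1
  have p3 : ((o ∪ c)ᶜ ∩ a).card = 4 := by omega
  have e4 : (a ∩ (o ∪ c)ᶜ).card = 4 := by rw [Finset.inter_comm]; exact p3
  have p4 : ((o ∪ a)ᶜ ∩ (o ∪ c)ᶜ).card = 4 := by omega
  rw [famType, eU, sum_three _ hoc hod hcd, eT, sum_three _ hoa hob hab,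
    sum_three _ hoa hob hab, sum_three _ hoa hob hab, Finset.inter_self, ho.2,
    Finset.disjoint_iff_inter_eq_empty.mp hda, Finset.disjoint_iff_inter_eq_empty.mp db1,
    Finset.inter_comm c o, Finset.disjoint_iff_inter_eq_empty.mp hdc, e3,
    Finset.inter_comm c (o ∪ a)ᶜ, p2, Finset.inter_comm (o ∪ c)ᶜ o,
    Finset.disjoint_iff_inter_eq_empty.mp dd1, p3, Finset.inter_comm (o ∪ c)ᶜ (o ∪ a)ᶜ, p4]
  rfl

theorem trio_common_unique {U T : Finset (Finset GolayPt)} (hU : U ∈ trios) (hT : T ∈ trios)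
    (hne : U ≠ T) {o o' : Finset GolayPt} (h1 : o ∈ U) (h2 : o ∈ T) (h3 : o' ∈ U)
    (h4 : o' ∈ T) : o = o' := by
  by_contra h
  exact hne ((trio_eq_of_pair hU h1 h3 h).trans (trio_eq_of_pair hT h2 h4 h).symm)

theorem smul_singleton_fix {g : Equiv.Perm GolayPt} {o : Finset GolayPt}
    (h : g • ({o} : Finset (Finset GolayPt)) = {o}) : g • o = o := by
  have hm : g • o ∈ g • ({o} : Finset (Finset GolayPt)) :=
    Finset.smul_mem_smul_finset (Finset.mem_singleton_self o)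
  rw [h, Finset.mem_singleton] at hm
  exact hm

/-- The stabiliser of an octad is two-transitive on the trios through it. -/
theorem octad_trios_two_trans {o : Finset GolayPt} (ho : o ∈ octads) {n n' : ℕ → ℕ}
    {Ts Ts' : Finset ℕ} (hO : OrbData ({o} : Finset (Finset GolayPt)) trios n Ts)
    (T₁ T₂ T₁' T₂' : Finset (Finset GolayPt)) (hT₁ : T₁ ∈ trios) (hT₂ : T₂ ∈ trios)
    (hT₁' : T₁' ∈ trios) (hT₂' : T₂' ∈ trios) (hTT : OrbData T₁' trios n' Ts')
    (h1 : o ∈ T₁) (h2 : o ∈ T₂) (h1' : o ∈ T₁') (h2' : o ∈ T₂') (hne : T₁ ≠ T₂)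
    (hne' : T₁' ≠ T₂') : ∃ g ∈ M24, g • o = o ∧ g • T₁ = T₁' ∧ g • T₂ = T₂' := by
  have t1 := (mem_trio_iff_type ho hT₁).mp h1
  have t1' := (mem_trio_iff_type ho hT₁').mp h1'
  obtain ⟨g₁, hg₁, hgo, hg1⟩ := hO.trans T₁ hT₁ T₁' hT₁' (t1.trans t1'.symm)
  have hgo' : g₁ • o = o := smul_singleton_fix hgo
  have hT₂s : g₁ • T₂ ∈ trios := trios_inv g₁ hg₁ T₂ hT₂
  have h2s : o ∈ g₁ • T₂ := by
    have hm : g₁ • o ∈ g₁ • T₂ := Finset.smul_mem_smul_finset h2
    rwa [hgo'] at hm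
  have hnes : g₁ • T₂ ≠ T₁' := by
    intro h
    rw [← hg1] at h
    exact hne (smul_left_cancel g₁ h).symm
  have s1 := trio_type_share hT₁' hT₂s h1' h2s hnes
  have s2 := trio_type_share hT₁' hT₂' h1' h2' (Ne.symm hne')
  obtain ⟨h, hh, hhT, hh2⟩ := hTT.trans _ hT₂s _ hT₂' (s1.trans s2.symm)
  have m1 : h • o ∈ T₁' := by
    have hm : h • o ∈ h • T₁' := Finset.smul_mem_smul_finset h1'
    rwa [hhT] at hm
  have m2 : h • o ∈ T₂' := by
    have hm : h • o ∈ h • (g₁ • T₂) := Finset.smul_mem_smul_finset h2s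
    rwa [hh2] at hm
  have hho : h • o = o := trio_common_unique hT₁' hT₂' hne' m1 m2 h1' h2'
  refine ⟨h * g₁, mul_mem hh hg₁, ?_, ?_, ?_⟩
  · rw [mul_smul, hgo', hho]
  · rw [mul_smul, hg1, hhT]
  · rw [mul_smul, hh2]

end Cfsg.Agent.Helper1.Golay
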