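import Mathlib
import Cfsg.Agent.Helper1.FamTrio

set_option autoImplicit false
set_option maxRecDepth 1000000

namespace Cfsg.Agent.Helper1.Golay

open Cfsg
open scoped Pointwise

/-- The position tables of the sixteen elements fixing the base octad pointwise. -/
def t16L : List ℕ := [
  0, 984818244535754528103549039458486304, 0, 596693691629046116550990400692717664,
  508424969373168542556093275671365760, 0, 0, 795299560221415236466409126362581216,
  678472409264293303287953917401762048, 0, 634337570286184956276663633019767104,
  544770645056983089000684988242004320, 191695004616971959853057081215289728,
  475973014991519506389066485154253216, 142367912111873843507961813910915520,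
  437030715517254051630524240244214240, 352655854403259834831166494259415552, 0,
  944577328618388165348211102297000512, 307222774108673090500586596964043360, 0, 0,
  749866540577012691608350087877855936, 65781230148001738752434987086580448]

theorem chk5615 : (List.range 24).all (fun q => cond (Nat.beq (bitAt 13499802 q) 1)
    (chkTbl (t16L.getD q 0) (slot lvlW7 q) && (List.range 3795).all (fun j =>
      !((trioTb j).any (fun m => Nat.beq m 3277413))
        || famEq (pullFam (t16L.getD q 0) (trioTb j)) (trioTb j))) true) = true := by
  decide +kernel

end Cfsg.Agent.Helper1.Golay
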