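import Mathlib
import Cfsg.Agent.Helper1.GolayFlag2

set_option autoImplicit false

namespace Cfsg.Agent.Helper1.Golay

open Cfsg Cfsg.Agent.Helper1
open scoped Pointwise

/-- The stabiliser of a set in the group of the code, as a subgroup of all permutations. -/
abbrev setStab (o : Finset GolayPt) : Subgroup (Equiv.Perm GolayPt) :=
  M24 ⊓ MulAction.stabilizer (Equiv.Perm GolayPt) o

theorem mem_setStab (o : Finset GolayPt) (g : Equiv.Perm GolayPt) :
    g ∈ setStab o ↔ g ∈ M24 ∧ g • o = o := by
  rw [Subgroup.mem_inf]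
  exact Iff.rfl

theorem card_setStab_octad (o : Finset GolayPt) (ho : o ∈ octads) :
    Nat.card (setStab o) = 322560 := by
  have h := card_eq_orbit_mul' M24 o
  have e : {x | ∃ h ∈ M24, h • o = x} = octads := by
    ext x
    constructor
    · rintro ⟨h, hh, rfl⟩
      exact smul_mem_wordsOfWeight hh ho
    · intro hx
      obtain ⟨g, hg⟩ := octads_transitive o x ho hx
      exact ⟨g, g.2, hg⟩
  have hn : octads.ncard = 759 := by
    rw [octads, ncard_wordsOfWeight]
    exact count8
  rw [e, hn, card_M24] at h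
  have h' : Nat.card (setStab o) = Nat.card ↥(M24 ⊓ MulAction.stabilizer (Equiv.Perm GolayPt) o) :=
    rfl
  omega

theorem setStab_mem_iff {o : Finset GolayPt} {g : Equiv.Perm GolayPt} (hg : g • o = o)
    (x : GolayPt) : g x ∈ o ↔ x ∈ o := by
  constructor
  · intro h
    have h1 : g • x ∈ g • o := by
      rw [hg]
      exact h
    exact (Finset.smul_mem_smul_finset_iff g).mp h1
  · intro h
    have h1 : g • x ∈ g • o := Finset.smul_mem_smul_finset h
    rw [hg] at h1
    exact h1

theorem smul_eq_of_mem_iff {o : Finset GolayPt} {g : Equiv.Perm GolayPt}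
    (h : ∀ x, g x ∈ o ↔ x ∈ o) : g • o = o := by
  ext x
  rw [← Finset.inv_smul_mem_iff, ← h]
  have e : g (g⁻¹ • x) = x := Equiv.apply_symm_apply g x
  rw [e]

/-- The restriction of the set stabiliser to the set. -/
noncomputable def resHom (o : Finset GolayPt) : setStab o →* Equiv.Perm ↥o where
  toFun g := (g : Equiv.Perm GolayPt).subtypePerm
    (setStab_mem_iff ((mem_setStab o g).mp g.2).2)
  map_one' := Equiv.ext (fun _ => Subtype.ext rfl)
  map_mul' := fun _ _ => Equiv.ext (fun _ => Subtype.ext rfl)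

theorem fixGrp_le_setStab (o : Finset GolayPt) : fixGrp o ≤ setStab o := by
  intro g hg
  rw [mem_fixGrp] at hg
  rw [mem_setStab]
  exact ⟨hg.1, smul_eq_self_of_fix g o hg.2⟩

theorem resHom_ker (o : Finset GolayPt) :
    (resHom o).ker = (fixGrp o).subgroupOf (setStab o) := by
  ext g
  rw [MonoidHom.mem_ker, Subgroup.mem_subgroupOf, mem_fixGrp]
  constructor
  · intro h
    refine ⟨((mem_setStab o g).mp g.2).1, fun x hx => ?_⟩
    have h1 := congrArg (fun e : Equiv.Perm ↥o => (e ⟨x, hx⟩ : GolayPt)) h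
    exact h1
  · rintro ⟨-, h⟩
    exact Equiv.ext (fun x => Subtype.ext (h x x.2))

theorem card_resHom_range (o : Finset GolayPt) (ho : o ∈ octads) :
    Nat.card (resHom o).range = 20160 := by
  have h1 := Subgroup.card_mul_index (resHom o).ker
  rw [Subgroup.index_ker, resHom_ker,
    Nat.card_congr (Subgroup.subgroupOfEquivOfLe (fixGrp_le_setStab o)).toEquiv,
    (octad_fixGrp o ho).1, card_setStab_octad o ho] at h1
  omega

theorem resHom_range (o : Finset GolayPt) (ho : o ∈ octads) :
    (resHom o).range = alternatingGroup ↥o := by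
  apply Equiv.Perm.eq_alternatingGroup_of_index_eq_two
  have h1 := Subgroup.card_mul_index (resHom o).range
  rw [card_resHom_range o ho, Nat.card_eq_fintype_card, Fintype.card_perm, Fintype.card_coe,
    ho.2] at h1
  have h8 : Nat.factorial 8 = 40320 := by decide
  rw [h8] at h1
  omega

/-- The stabiliser of an octad induces the alternating group on it. -/
theorem octad_induces_alt (o : Finset GolayPt) (ho : o ∈ octads) :
    {e : Equiv.Perm ↥o | ∃ g : Equiv.Perm GolayPt, g ∈ M24 ∧
      ∃ h : (∀ x, g x ∈ o ↔ x ∈ o), g.subtypePerm h = e}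
      = (alternatingGroup ↥o : Set (Equiv.Perm ↥o)) := by
  rw [← resHom_range o ho]
  ext e
  simp only [Set.mem_ofPred_eq, SetLike.mem_coe, MonoidHom.mem_range]
  constructor
  · rintro ⟨g, hg, h, rfl⟩
    exact ⟨⟨g, (mem_setStab o g).mpr ⟨hg, smul_eq_of_mem_iff h⟩⟩, rfl⟩
  · rintro ⟨g, rfl⟩
    exact ⟨g, ((mem_setStab o g).mp g.2).1, setStab_mem_iff ((mem_setStab o g).mp g.2).2, rfl⟩

end Cfsg.Agent.Helper1.Golay
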