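import Mathlib
import Cfsg.Agent.Helper1.Fam5615
import Cfsg.Agent.Helper1.Fam5615Tab
import Cfsg.Agent.Helper1.OctadA8

set_option autoImplicit false

namespace Cfsg.Agent.Helper1.Golay

open Cfsg
open scoped Pointwise

/-- An element fixing the base octad pointwise fixes every trio through it. -/
theorem fix_trios_base {g : Equiv.Perm GolayPt}
    (hg : g ∈ fixGrp (support₂ (ofBits (comb 15)))) {T : Finset (Finset GolayPt)}
    (hT : T ∈ trios) (hoT : support₂ (ofBits (comb 15)) ∈ T) : g • T = T := by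
  have hgm := (mem_fixGrp _ g).mp hg
  have hq : g (unpos 1) ∉ support₂ (ofBits (comb 15)) := by
    intro hmem
    have h1 := hgm.2 _ hmem
    have h3 : g (unpos 1) = unpos 1 := g.injective h1
    rw [h3] at hmem
    exact bp6_not_mem hmem
  have hq' : (comb 15).testBit (pos (g (unpos 1))) = false := by
    cases h : (comb 15).testBit (pos (g (unpos 1)))
    · rfl
    · exact absurd ((mem_support₂_ofBits _ _).mpr h) hq
  have h1 := List.all_eq_true.mp chk5615 (pos (g (unpos 1)))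
    (List.mem_range.mpr (pos_lt _))
  rw [(bitAt_eq_one_iff _ _).mpr (outside_bit _ hq'), Nat.beq_refl, cond_true,
    Bool.and_eq_true] at h1
  obtain ⟨c1, c2⟩ := h1
  have h2 := List.all_eq_true.mp oct_check (pos (g (unpos 1)))
    (List.mem_range.mpr (pos_lt _))
  rw [(bitAt_eq_one_iff _ _).mpr (outside_bit _ hq'), Nat.beq_refl, cond_true,
    Bool.and_eq_true, Bool.and_eq_true] at h2
  obtain ⟨a1, -, a3⟩ := h2
  have heq : elemW 32 (slot lvlW7 (pos (g (unpos 1)))) (g (unpos 1)) = unpos 1 := by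
    apply pos_injective
    rw [pos_elemW, pos_unpos 1 (by norm_num)]
    exact Nat.eq_of_beq_eq_true a1
  have hefix : ∀ p ∈ support₂ (ofBits (comb 15)),
      elemW 32 (slot lvlW7 (pos (g (unpos 1)))) p = p := by
    intro p hp
    rw [mem_support₂_ofBits] at hp
    apply pos_injective
    rw [pos_elemW]
    have a4 := List.all_eq_true.mp a3
    rcases baseOctad_cases p hp with e | e | e | e | e | e | e | e <;> rw [e] <;>
      exact Nat.eq_of_beq_eq_true (a4 _ (by simp))
  have hemem : elemW 32 (slot lvlW7 (pos (g (unpos 1))))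
      ∈ fixGrp (support₂ (ofBits (comb 15))) :=
    (mem_fixGrp _ _).mpr ⟨genGroup_le (elemW_mem _ _), hefix⟩
  have hprod : elemW 32 (slot lvlW7 (pos (g (unpos 1)))) * g = 1 :=
    fixGrp_rigid (mul_mem hemem hg) (by rw [Equiv.Perm.mul_apply]; exact heq)
  have hginv : g = (elemW 32 (slot lvlW7 (pos (g (unpos 1)))))⁻¹ :=
    eq_inv_of_mul_eq_one_right hprod
  obtain ⟨j, hj, rfl⟩ := trio_isTable.surj T hT
  have hany : (trioTb j).any (fun m => Nat.beq m 3277413) = true := by
    rw [mem_famOf] at hoT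
    obtain ⟨m, hm, hS⟩ := hoT
    have hm24 := goodList_lt (trio_isTable.good j hj) m hm
    have hc : comb 15 = 3277413 := by decide +kernel
    have hmc : m = comb 15 := mask_inj hm24 (by rw [hc]; norm_num) hS
    exact List.any_eq_true.mpr ⟨m, hm, by rw [hmc, hc]; exact Nat.beq_refl _⟩
  have h3 := List.all_eq_true.mp c2 j (List.mem_range.mpr hj)
  rw [hany, Bool.not_true, Bool.false_or] at h3
  have hpull := famOf_pullFam (elemW 32 (slot lvlW7 (pos (g (unpos 1))))) _
    (pos_of_chkTbl _ _ c1) (trioTb j)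
  rw [← hginv] at hpull
  rw [← hpull, famOf_eq_of_famEq h3]

theorem fix_trios {o : Finset GolayPt} (ho : o ∈ octads) {g : Equiv.Perm GolayPt} (hg : g ∈ M24)
    (hfix : ∀ p ∈ o, g p = p) {T : Finset (Finset GolayPt)} (hT : T ∈ trios) (hoT : o ∈ T) :
    g • T = T := by
  obtain ⟨s, hs⟩ := octads_transitive _ o baseOctad_mem ho
  have hs' : (s : Equiv.Perm GolayPt) • support₂ (ofBits (comb 15)) = o := hs
  have hg' : g ∈ fixGrp ((s : Equiv.Perm GolayPt) • support₂ (ofBits (comb 15))) := by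
    rw [hs']
    exact (mem_fixGrp o g).mpr ⟨hg, hfix⟩
  have hc := conj_mem_fixGrp s.2 hg'
  have hT' : (s : Equiv.Perm GolayPt)⁻¹ • T ∈ trios := trios_inv _ (inv_mem s.2) T hT
  have hoT' : support₂ (ofBits (comb 15)) ∈ (s : Equiv.Perm GolayPt)⁻¹ • T := by
    rw [← hs'] at hoT
    have h := Finset.smul_mem_smul_finset (a := (s : Equiv.Perm GolayPt)⁻¹) hoT
    rwa [inv_smul_smul] at h
  have h := fix_trios_base hc hT' hoT'
  rw [mul_smul, mul_smul, smul_inv_smul] at h
  exact smul_left_cancel _ h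

/-- The elements of the stabiliser of an octad fixing every trio through it. -/
def trioKer (o : Finset GolayPt) : Subgroup ↥(setStab o) where
  carrier := {k | ∀ T ∈ trios, o ∈ T → (k : Equiv.Perm GolayPt) • T = T}
  mul_mem' := by
    intro a b ha hb T hT hoT
    show ((a : Equiv.Perm GolayPt) * (b : Equiv.Perm GolayPt)) • T = T
    rw [mul_smul, hb T hT hoT, ha T hT hoT]
  one_mem' := fun T _ _ => one_smul _ T
  inv_mem' := by
    intro a ha T hT hoT
    show (a : Equiv.Perm GolayPt)⁻¹ • T = T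
    rw [inv_smul_eq_iff, ha T hT hoT]

theorem trioKer_normal (o : Finset GolayPt) : (trioKer o).Normal := by
  constructor
  intro k hk h T hT hoT
  have hh := ((mem_setStab o h).mp h.2)
  have hT' : (h : Equiv.Perm GolayPt)⁻¹ • T ∈ trios := trios_inv _ (inv_mem hh.1) T hT
  have hoT' : o ∈ (h : Equiv.Perm GolayPt)⁻¹ • T := by
    have h1 := Finset.smul_mem_smul_finset (a := (h : Equiv.Perm GolayPt)⁻¹) hoT
    have h2 : (h : Equiv.Perm GolayPt)⁻¹ • o = o := by rw [inv_smul_eq_iff, hh.2]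
    rwa [h2] at h1
  show ((h : Equiv.Perm GolayPt) * (k : Equiv.Perm GolayPt) * (h : Equiv.Perm GolayPt)⁻¹) • T = T
  rw [mul_smul, mul_smul, hk _ hT' hoT', smul_inv_smul]

theorem fix_of_fix_trios {o : Finset GolayPt} (ho : o ∈ octads) {n : ℕ → ℕ} {Ts : Finset ℕ}
    (hO : OrbData ({o} : Finset (Finset GolayPt)) trios n Ts)
    (h15 : 1 < {T | T ∈ trios ∧ o ∈ T}.ncard) {g : Equiv.Perm GolayPt} (hg : g ∈ M24)
    (hgo : g • o = o) (hfix : ∀ T ∈ trios, o ∈ T → g • T = T) : ∀ p ∈ o, g p = p := by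
  haveI : IsSimpleGroup (alternatingGroup ↥o) := alternatingGroup.isSimpleGroup (by
    rw [Nat.card_eq_fintype_card, Fintype.card_coe, ho.2]
    norm_num)
  have hcod : ∀ x : ↥(setStab o), resHom o x ∈ alternatingGroup ↥o := by
    intro x
    rw [← resHom_range o ho]
    exact ⟨x, rfl⟩
  have hsurj : Function.Surjective ((resHom o).codRestrict (alternatingGroup ↥o) hcod) := by
    intro y
    have hy : (y : Equiv.Perm ↥o) ∈ (resHom o).range := by
      rw [resHom_range o ho]
      exact y.2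
    obtain ⟨x, hx⟩ := hy
    exact ⟨x, Subtype.ext hx⟩
  have hN := Subgroup.Normal.map (trioKer_normal o)
    ((resHom o).codRestrict (alternatingGroup ↥o) hcod) hsurj
  have hker : ∀ a b : ↥(setStab o), (resHom o).codRestrict (alternatingGroup ↥o) hcod a
      = (resHom o).codRestrict (alternatingGroup ↥o) hcod b →
      ((b⁻¹ * a : ↥(setStab o)) : Equiv.Perm GolayPt) ∈ fixGrp o := by
    intro a b hab
    have h1 : resHom o a = resHom o b := congrArg Subtype.val hab
    have h2 : b⁻¹ * a ∈ (resHom o).ker := by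
      rw [MonoidHom.mem_ker, map_mul, map_inv, h1, inv_mul_cancel]
    rw [resHom_ker, Subgroup.mem_subgroupOf] at h2
    exact h2
  rcases hN.eq_bot_or_eq_top with hb | ht
  · have hgK : (⟨g, (mem_setStab o g).mpr ⟨hg, hgo⟩⟩ : ↥(setStab o)) ∈ trioKer o := hfix
    have h1 : (resHom o).codRestrict (alternatingGroup ↥o) hcod
        ⟨g, (mem_setStab o g).mpr ⟨hg, hgo⟩⟩ ∈ (trioKer o).map
          ((resHom o).codRestrict (alternatingGroup ↥o) hcod) := Subgroup.mem_map_of_mem _ hgK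
    rw [hb, Subgroup.mem_bot] at h1
    have h2 := hker ⟨g, (mem_setStab o g).mpr ⟨hg, hgo⟩⟩ 1 (by rw [h1, map_one])
    rw [inv_one, one_mul] at h2
    exact ((mem_fixGrp o g).mp h2).2
  · exfalso
    obtain ⟨T₁, ⟨hT₁, h1⟩, T₂, ⟨hT₂, h2⟩, hne⟩ := (Set.one_lt_ncard (Set.toFinite _)).mp h15
    have t1 := (mem_trio_iff_type ho hT₁).mp h1
    have t2 := (mem_trio_iff_type ho hT₂).mp h2
    obtain ⟨g₁, hg₁, hg₁o, hg₁T⟩ := hO.trans T₁ hT₁ T₂ hT₂ (t1.trans t2.symm)
    have hg₁o' : g₁ • o = o := smul_singleton_fix hg₁o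
    have hx : (resHom o).codRestrict (alternatingGroup ↥o) hcod
        ⟨g₁, (mem_setStab o g₁).mpr ⟨hg₁, hg₁o'⟩⟩ ∈ (trioKer o).map
          ((resHom o).codRestrict (alternatingGroup ↥o) hcod) := by
      rw [ht]
      exact Subgroup.mem_top _
    obtain ⟨k, hk, hkx⟩ := Subgroup.mem_map.mp hx
    have h3 := hker ⟨g₁, (mem_setStab o g₁).mpr ⟨hg₁, hg₁o'⟩⟩ k hkx.symm
    have h4 := fix_trios ho ((mem_fixGrp o _).mp h3).1 ((mem_fixGrp o _).mp h3).2 hT₁ h1
    have h5 : ((k⁻¹ * ⟨g₁, (mem_setStab o g₁).mpr ⟨hg₁, hg₁o'⟩⟩ : ↥(setStab o)) :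
        Equiv.Perm GolayPt) = (k : Equiv.Perm GolayPt)⁻¹ * g₁ := rfl
    rw [h5, mul_smul, hg₁T, inv_smul_eq_iff, hk T₁ hT₁ h1] at h4
    exact hne h4.symm

end Cfsg.Agent.Helper1.Golay
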