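import Mathlib
import Cfsg.Agent.Helper1.FamFinal2
import Cfsg.Agent.Helper1.Sextet
import Cfsg.Agent.Helper1.Triad

set_option autoImplicit false

namespace Cfsg.Agent.Helper1.Golay

open Cfsg
open scoped Pointwise

theorem sextet_disjoint {S : Finset (Finset GolayPt)} (hS : S ∈ sextets) {t u : Finset GolayPt}
    (ht : t ∈ S) (hu : u ∈ S) (hne : t ≠ u) : Disjoint t u := by
  have hu8 := hS.2.2 t ht u hu hne
  have hci := Finset.card_union_add_card_inter t u
  rw [hu8.2, hS.2.1 t ht, hS.2.1 u hu] at hci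
  rw [Finset.disjoint_iff_inter_eq_empty, ← Finset.card_eq_zero]
  omega

theorem sextet_cover {S : Finset (Finset GolayPt)} (hS : S ∈ sextets) :
    S.biUnion id = Finset.univ := by
  apply Finset.eq_univ_of_card
  rw [Finset.card_biUnion (t := id) (fun t ht u hu hne => sextet_disjoint hS ht hu hne)]
  have h4 : ∀ t ∈ S, (id t).card = 4 := fun t ht => hS.2.1 t ht
  rw [Finset.sum_congr rfl h4, Finset.sum_const, hS.1, card_golayPt]
  rfl

theorem sextet_sum_inter {S : Finset (Finset GolayPt)} (hS : S ∈ sextets) (Y : Finset GolayPt) :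
    ∑ t ∈ S, (t ∩ Y).card = Y.card := by
  have e : S.biUnion (fun t => t ∩ Y) = Y := by
    ext p
    simp only [Finset.mem_biUnion, Finset.mem_inter]
    constructor
    · rintro ⟨t, _, _, hp⟩
      exact hp
    · intro hp
      have hmem : p ∈ S.biUnion id := by
        rw [sextet_cover hS]
        exact Finset.mem_univ p
      obtain ⟨t, ht, hpt⟩ := Finset.mem_biUnion.mp hmem
      exact ⟨t, ht, hpt, hp⟩
  rw [← Finset.card_biUnion, e]
  intro t ht u hu hne
  exact (sextet_disjoint hS ht hu hne).mono Finset.inter_subset_left Finset.inter_subset_left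

/-- The number of tetrads of a sextet met by a triple determines its type. -/
theorem sextet_triple_type {S : Finset (Finset GolayPt)} (hS : S ∈ sextets) (Y : Finset GolayPt)
    (hY : Y.card = 3) :
    ((S.filter fun t => (t ∩ Y).Nonempty).card = 1 ∧ famType {Y} S = 9)
    ∨ ((S.filter fun t => (t ∩ Y).Nonempty).card = 2 ∧ famType {Y} S = 5)
    ∨ ((S.filter fun t => (t ∩ Y).Nonempty).card = 3 ∧ famType {Y} S = 3) := by
  have hτ : famType {Y} S = ∑ t ∈ S.filter (fun t => (t ∩ Y).Nonempty), (t ∩ Y).card ^ 2 := by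
    rw [famType, Finset.sum_singleton, Finset.sum_filter_of_ne]
    · refine Finset.sum_congr rfl fun t _ => ?_
      rw [Finset.inter_comm]
    · intro t _ h
      apply Finset.card_pos.mp
      by_contra h0
      apply h
      have : (t ∩ Y).card = 0 := by omega
      rw [this]
      rfl
  have hsum : ∑ t ∈ S.filter (fun t => (t ∩ Y).Nonempty), (t ∩ Y).card = 3 := by
    rw [Finset.sum_filter_of_ne, sextet_sum_inter hS, hY]
    intro t _ h
    exact Finset.card_pos.mp (Nat.pos_of_ne_zero h)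
  have hpos : ∀ t ∈ S.filter (fun t => (t ∩ Y).Nonempty), 1 ≤ (t ∩ Y).card := fun t ht =>
    Finset.card_pos.mpr (Finset.mem_filter.mp ht).2
  have hle : (S.filter fun t => (t ∩ Y).Nonempty).card ≤ 3 := by
    have h := Finset.card_nsmul_le_sum _ (fun t => (t ∩ Y).card) 1 hpos
    rw [hsum] at h
    simpa using h
  have hge : 1 ≤ (S.filter fun t => (t ∩ Y).Nonempty).card := by
    by_contra h
    have h0 : S.filter (fun t => (t ∩ Y).Nonempty) = ∅ := Finset.card_eq_zero.mp (by omega)
    rw [h0, Finset.sum_empty] at hsum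
    exact absurd hsum (by decide)
  have hcases : (S.filter fun t => (t ∩ Y).Nonempty).card = 1
      ∨ (S.filter fun t => (t ∩ Y).Nonempty).card = 2
      ∨ (S.filter fun t => (t ∩ Y).Nonempty).card = 3 := by omega
  rcases hcases with h | h | h
  · obtain ⟨a, ha⟩ := Finset.card_eq_one.mp h
    rw [ha, Finset.sum_singleton] at hsum
    left
    refine ⟨h, ?_⟩
    rw [hτ, ha, Finset.sum_singleton, hsum]
    rfl
  · obtain ⟨a, b, hab, he⟩ := Finset.card_eq_two.mp h
    have ha := hpos a (by rw [he]; simp)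
    have hb := hpos b (by rw [he]; simp)
    rw [he, Finset.sum_pair hab] at hsum
    right
    left
    refine ⟨h, ?_⟩
    rw [hτ, he, Finset.sum_pair hab]
    have h12 : ((a ∩ Y).card = 1 ∧ (b ∩ Y).card = 2) ∨ ((a ∩ Y).card = 2 ∧ (b ∩ Y).card = 1) := by
      omega
    rcases h12 with ⟨h1, h2⟩ | ⟨h1, h2⟩ <;> rw [h1, h2] <;> rfl
  · obtain ⟨a, b, c, hab, hac, hbc, he⟩ := Finset.card_eq_three.mp h
    have ha := hpos a (by rw [he]; simp)
    have hb := hpos b (by rw [he]; simp)
    have hc := hpos c (by rw [he]; simp)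
    have hnot : a ∉ ({b, c} : Finset (Finset GolayPt)) := by simp [hab, hac]
    rw [he, Finset.sum_insert hnot, Finset.sum_pair hbc] at hsum
    right
    right
    refine ⟨h, ?_⟩
    rw [hτ, he, Finset.sum_insert hnot, Finset.sum_pair hbc]
    have h1 : (a ∩ Y).card = 1 := by omega
    have h2 : (b ∩ Y).card = 1 := by omega
    have h3 : (c ∩ Y).card = 1 := by omega
    rw [h1, h2, h3]
    rfl

/-- Transport of orbit data from a base set of at most five points to any set of its size. -/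
theorem orbData_single {la : List ℕ} {m : ℕ} (hla : la = [m])
    {𝔛 : Set (Finset (Finset GolayPt))} {n : ℕ → ℕ} {Ts : Finset ℕ}
    (h : OrbData (famOf la) 𝔛 n Ts) (hinv : FamInv 𝔛) (Y : Finset GolayPt)
    (hY : Y.card = popc m) (h5 : popc m ≤ 5) :
    OrbData ({Y} : Finset (Finset GolayPt)) 𝔛 n Ts := by
  have hc : (support₂ (ofBits m)).card = popc m := by rw [card_support₂, hammingNorm_ofBits]
  obtain ⟨g, hg, -, hgY⟩ := m24_pair_trans' ∅ (support₂ (ofBits m)) Y
    (by rw [Finset.empty_union, hc]; exact h5) (by rw [hc, hY]) (by simp)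
  have e : ({Y} : Finset (Finset GolayPt)) = g • famOf la := by
    rw [hla]
    have e1 : famOf [m] = {support₂ (ofBits m)} := by simp [famOf]
    rw [e1, Finset.smul_finset_singleton, hgY]
  rw [e]
  exact h.smul hinv hg

theorem triple_sextets (Y : Finset GolayPt) (hY : Y.card = 3) {n : ℕ → ℕ}
    (h : OrbData ({Y} : Finset (Finset GolayPt)) sextets n {3, 5, 9}) :
    {S | S ∈ sextets ∧ (S.filter fun t => (t ∩ Y).Nonempty).card = 1}.ncard = n 9
    ∧ {S | S ∈ sextets ∧ (S.filter fun t => (t ∩ Y).Nonempty).card = 2}.ncard = n 5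
    ∧ {S | S ∈ sextets ∧ (S.filter fun t => (t ∩ Y).Nonempty).card = 3}.ncard = n 3
    ∧ ∀ S S' : Finset (Finset GolayPt), S ∈ sextets → S' ∈ sextets →
      (S.filter fun t => (t ∩ Y).Nonempty).card = (S'.filter fun t => (t ∩ Y).Nonempty).card →
      ∃ g ∈ M24, g • Y = Y ∧ g • S = S' := by
  have e1 : {S | S ∈ sextets ∧ (S.filter fun t => (t ∩ Y).Nonempty).card = 1}
      = {S | S ∈ sextets ∧ famType {Y} S = 9} := by
    ext S
    simp only [Set.mem_ofPred_eq]
    constructor
    · rintro ⟨hS, hk⟩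
      rcases sextet_triple_type hS Y hY with ⟨_, h2⟩ | ⟨h1, _⟩ | ⟨h1, _⟩
      · exact ⟨hS, h2⟩
      · omega
      · omega
    · rintro ⟨hS, hk⟩
      rcases sextet_triple_type hS Y hY with ⟨h1, _⟩ | ⟨_, h2⟩ | ⟨_, h2⟩
      · exact ⟨hS, h1⟩
      · omega
      · omega
  have e2 : {S | S ∈ sextets ∧ (S.filter fun t => (t ∩ Y).Nonempty).card = 2}
      = {S | S ∈ sextets ∧ famType {Y} S = 5} := by
    ext S
    simp only [Set.mem_ofPred_eq]
    constructor
    · rintro ⟨hS, hk⟩
      rcases sextet_triple_type hS Y hY with ⟨h1, _⟩ | ⟨_, h2⟩ | ⟨h1, _⟩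
      · omega
      · exact ⟨hS, h2⟩
      · omega
    · rintro ⟨hS, hk⟩
      rcases sextet_triple_type hS Y hY with ⟨_, h2⟩ | ⟨h1, _⟩ | ⟨_, h2⟩
      · omega
      · exact ⟨hS, h1⟩
      · omega
  have e3 : {S | S ∈ sextets ∧ (S.filter fun t => (t ∩ Y).Nonempty).card = 3}
      = {S | S ∈ sextets ∧ famType {Y} S = 3} := by
    ext S
    simp only [Set.mem_ofPred_eq]
    constructor
    · rintro ⟨hS, hk⟩
      rcases sextet_triple_type hS Y hY with ⟨h1, _⟩ | ⟨h1, _⟩ | ⟨_, h2⟩
      · omega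
      · omega
      · exact ⟨hS, h2⟩
    · rintro ⟨hS, hk⟩
      rcases sextet_triple_type hS Y hY with ⟨_, h2⟩ | ⟨_, h2⟩ | ⟨h1, _⟩
      · omega
      · omega
      · exact ⟨hS, h1⟩
  refine ⟨by rw [e1]; exact h.count 9 (by simp), by rw [e2]; exact h.count 5 (by simp),
    by rw [e3]; exact h.count 3 (by simp), ?_⟩
  intro S S' hS hS' hk
  have hty : famType {Y} S = famType {Y} S' := by
    rcases sextet_triple_type hS Y hY with ⟨h1, h2⟩ | ⟨h1, h2⟩ | ⟨h1, h2⟩ <;>
      rcases sextet_triple_type hS' Y hY with ⟨h1', h2'⟩ | ⟨h1', h2'⟩ | ⟨h1', h2'⟩ <;>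
      omega
  obtain ⟨g, hg, hgY, hgS⟩ := h.trans S hS S' hS' hty
  refine ⟨g, hg, ?_, hgS⟩
  have hm : g • Y ∈ g • ({Y} : Finset (Finset GolayPt)) :=
    Finset.smul_mem_smul_finset (Finset.mem_singleton_self Y)
  rw [hgY, Finset.mem_singleton] at hm
  exact hm

end Cfsg.Agent.Helper1.Golay
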