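import Mathlib
import Cfsg.Agent.Helper1.Golay3

set_option autoImplicit false

namespace Cfsg.Agent.Helper1.Golay

open Cfsg

theorem supports_empty : (∅ : Finset GolayPt) ∈ supports (golayCode : Set (GolayPt → ZMod 2)) := by
  refine ⟨0, Submodule.zero_mem _, ?_⟩
  ext a
  rw [mem_support₂]
  simp

theorem supports_univ :
    (Finset.univ : Finset GolayPt) ∈ supports (golayCode : Set (GolayPt → ZMod 2)) := by
  refine ⟨1, Submodule.subset_span (Or.inr rfl), ?_⟩
  ext a
  rw [mem_support₂]
  simp

theorem supports_compl {s : Finset GolayPt}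
    (hs : s ∈ supports (golayCode : Set (GolayPt → ZMod 2))) :
    sᶜ ∈ supports (golayCode : Set (GolayPt → ZMod 2)) := by
  have h := symmDiff_mem_supports hs supports_univ
  have e : symmDiff s Finset.univ = sᶜ := by
    ext a
    simp [Finset.mem_symmDiff]
  rw [e] at h
  exact h

theorem leech_zero : (0 : GolayPt → ℤ) ∈ leechSet := by
  refine ⟨0, fun i => Int.ModEq.refl _, by simp [Int.ModEq], ?_⟩
  intro k
  by_cases hk : (0 : ℤ) ≡ k [ZMOD 4]
  · have e : (Finset.univ.filter fun i : GolayPt => (0 : GolayPt → ℤ) i ≡ k [ZMOD 4])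
        = Finset.univ := by
      ext i
      simp only [Finset.mem_filter, Finset.mem_univ, true_and, Pi.zero_apply]
      exact iff_of_true hk trivial
    rw [e]
    exact supports_univ
  · have e : (Finset.univ.filter fun i : GolayPt => (0 : GolayPt → ℤ) i ≡ k [ZMOD 4]) = ∅ := by
      ext i
      simp only [Finset.mem_filter, Finset.mem_univ, true_and, Pi.zero_apply]
      exact iff_of_false hk (Finset.notMem_empty i)
    rw [e]
    exact supports_empty

theorem leech_neg {x : GolayPt → ℤ} (hx : x ∈ leechSet) : -x ∈ leechSet := by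
  obtain ⟨m, ha, hb, hc⟩ := hx
  refine ⟨m, ?_, ?_, ?_⟩
  · intro i
    have h := ha i
    simp only [Pi.neg_apply]
    unfold Int.ModEq at h ⊢
    omega
  · have e : ∑ i, (-x) i = -∑ i, x i := by
      simp only [Pi.neg_apply, Finset.sum_neg_distrib]
    rw [e]
    unfold Int.ModEq at hb ⊢
    omega
  · intro k
    have e : (Finset.univ.filter fun i : GolayPt => (-x) i ≡ k [ZMOD 4])
        = Finset.univ.filter fun i : GolayPt => x i ≡ -k [ZMOD 4] := by
      ext i
      simp only [Finset.mem_filter, Finset.mem_univ, true_and, Pi.neg_apply]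
      unfold Int.ModEq
      omega
    rw [e]
    exact hc (-k)

theorem leech_add {x y : GolayPt → ℤ} (hx : x ∈ leechSet) (hy : y ∈ leechSet) :
    x + y ∈ leechSet := by
  obtain ⟨m, ha, hb, hc⟩ := hx
  obtain ⟨m', ha', hb', hc'⟩ := hy
  refine ⟨m + m', ?_, ?_, ?_⟩
  · intro i
    exact Int.ModEq.add (ha i) (ha' i)
  · have e : ∑ i, (x + y) i = ∑ i, x i + ∑ i, y i := by
      simp only [Pi.add_apply, Finset.sum_add_distrib]
    rw [e]
    unfold Int.ModEq at hb hb' ⊢
    omega
  · intro k
    by_cases hk : k ≡ m + m' [ZMOD 2]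
    · have e : (Finset.univ.filter fun i : GolayPt => (x + y) i ≡ k [ZMOD 4])
          = (symmDiff (Finset.univ.filter fun i : GolayPt => x i ≡ m [ZMOD 4])
              (Finset.univ.filter fun i : GolayPt => y i ≡ k - m [ZMOD 4]))ᶜ := by
        ext i
        have h1 := ha i
        have h2 := ha' i
        simp only [Finset.mem_filter, Finset.mem_univ, true_and, Pi.add_apply, Finset.mem_compl,
          Finset.mem_symmDiff]
        unfold Int.ModEq at h1 h2 hk ⊢
        omega
      rw [e]
      exact supports_compl (symmDiff_mem_supports (hc m) (hc' (k - m)))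
    · have e : (Finset.univ.filter fun i : GolayPt => (x + y) i ≡ k [ZMOD 4]) = ∅ := by
        ext i
        have h1 := ha i
        have h2 := ha' i
        simp only [Finset.mem_filter, Finset.mem_univ, true_and, Pi.add_apply,
          Finset.notMem_empty, iff_false]
        unfold Int.ModEq at h1 h2 hk ⊢
        omega
      rw [e]
      exact supports_empty

/-- `leechSet` as an additive subgroup. -/
def leechSubgroup : AddSubgroup (GolayPt → ℤ) where
  carrier := leechSet
  add_mem' := leech_add
  zero_mem' := leech_zero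
  neg_mem' := leech_neg

theorem leechLattice_eq : (leechLattice : Set (GolayPt → ℤ)) = leechSet := by
  have h : leechLattice = leechSubgroup := by
    apply le_antisymm
    · rw [leechLattice, AddSubgroup.closure_le]
      exact fun x hx => hx
    · intro x hx
      exact AddSubgroup.subset_closure hx
  rw [h]
  rfl

theorem mem_leechLattice_iff (x : GolayPt → ℤ) : x ∈ leechLattice ↔ x ∈ leechSet := by
  rw [← leechLattice_eq]
  rfl

end Cfsg.Agent.Helper1.Golay
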