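import Mathlib
import Cfsg.Agent.Helper1.Leech

set_option autoImplicit false

namespace Cfsg.Agent.Helper1.Golay

open Cfsg

theorem card_supports {c : Finset GolayPt}
    (hc : c ∈ supports (golayCode : Set (GolayPt → ZMod 2))) :
    c.card = 0 ∨ c.card = 8 ∨ c.card = 12 ∨ c.card = 16 ∨ c.card = 24 := by
  obtain ⟨v, hv, rfl⟩ := hc
  rw [card_support₂]
  exact hammingNorm_eq v hv

theorem card_inter_supports_even {a b : Finset GolayPt}
    (ha : a ∈ supports (golayCode : Set (GolayPt → ZMod 2)))
    (hb : b ∈ supports (golayCode : Set (GolayPt → ZMod 2))) :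
    2 ∣ (a ∩ b).card := by
  have h1 := card_supports ha
  have h2 := card_supports hb
  have h3 := card_supports (symmDiff_mem_supports ha hb)
  obtain ⟨v, hv, rfl⟩ := ha
  obtain ⟨w, hw, rfl⟩ := hb
  have h := hammingNorm_add_supports v w
  rw [← support₂_add, card_support₂] at h3
  omega

/-- The sum of a vector with all coordinates congruent to `m` mod 2 over a codeword support,
when the set of coordinates congruent to `m + 2` mod 4 is a codeword support. -/
theorem sum_supports_modEq {x : GolayPt → ℤ} {m : ℤ} (ha : ∀ i, x i ≡ m [ZMOD 2])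
    (hT : (Finset.univ.filter fun i => x i ≡ m + 2 [ZMOD 4]) ∈
      supports (golayCode : Set (GolayPt → ZMod 2)))
    {c : Finset GolayPt} (hc : c ∈ supports (golayCode : Set (GolayPt → ZMod 2))) :
    ∑ i ∈ c, x i ≡ 0 [ZMOD 4] := by
  have h1 : ∑ i ∈ c, x i ≡ ∑ i ∈ c, (m + 2 * (if i ∈ (Finset.univ.filter fun i => x i ≡ m + 2 [ZMOD 4])
      then (1 : ℤ) else 0)) [ZMOD 4] := by
    apply Int.ModEq.sum
    intro i _
    have h := ha i
    by_cases hi : x i ≡ m + 2 [ZMOD 4]
    · rw [if_pos (by simpa using hi)]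
      simpa using hi
    · rw [if_neg (by simpa using hi)]
      unfold Int.ModEq at *
      omega
  have h2 : ∑ i ∈ c, (m + 2 * (if i ∈ (Finset.univ.filter fun i => x i ≡ m + 2 [ZMOD 4])
      then (1 : ℤ) else 0)) = c.card * m
        + 2 * ((c ∩ (Finset.univ.filter fun i => x i ≡ m + 2 [ZMOD 4])).card : ℤ) := by
    rw [Finset.sum_add_distrib, ← Finset.mul_sum, Finset.sum_const, Finset.sum_boole,
      Finset.filter_mem_eq_inter]
    simp
  rw [h2] at h1
  have h3 := card_inter_supports_even hc hT
  have h4 := card_supports hc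
  obtain ⟨t, ht⟩ := h3
  rw [ht] at h1
  push_cast at h1
  rcases h4 with h4 | h4 | h4 | h4 | h4 <;> rw [h4] at h1 <;> push_cast at h1 <;>
    unfold Int.ModEq at * <;> omega

end Cfsg.Agent.Helper1.Golay
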