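import Mathlib
import Cfsg.Agent.Helper1.Leech2
import Cfsg.Agent.S0386
import Cfsg.Agent.S0361

set_option autoImplicit false

namespace Cfsg.Agent.Helper1.Golay

open Cfsg

theorem card_symmDiff_add {α : Type*} [DecidableEq α] (a b : Finset α) :
    (symmDiff a b).card + 2 * (a ∩ b).card = a.card + b.card := by
  have h : (symmDiff a b).card = (a \ b).card + (b \ a).card := by
    rw [symmDiff_def]
    exact Finset.card_union_of_disjoint disjoint_sdiff_sdiff
  have e1 := Finset.card_sdiff_add_card_inter a b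
  have e2 := Finset.card_sdiff_add_card_inter b a
  rw [Finset.inter_comm b a] at e2
  omega

theorem dodecad_compl {d : Finset GolayPt} (hd : d ∈ dodecads) : dᶜ ∈ dodecads := by
  refine ⟨supports_compl hd.1, ?_⟩
  rw [Finset.card_compl, hd.2, card_golayPt]

theorem dodecad_meet_cases {d d' : Finset GolayPt} (hd : d ∈ dodecads) (hd' : d' ∈ dodecads) :
    (d ∩ d').card = 0 ∨ (d ∩ d').card = 4 ∨ (d ∩ d').card = 6 ∨ (d ∩ d').card = 8
      ∨ (d ∩ d').card = 12 := by
  have h1 := card_supports (symmDiff_mem_supports hd.1 hd'.1)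
  have h2 := card_symmDiff_add d d'
  rw [hd.2, hd'.2] at h2
  omega

theorem dodecad_meet_twelve {d d' : Finset GolayPt} (hd : d ∈ dodecads) (hd' : d' ∈ dodecads)
    (h : (d ∩ d').card = 12) : d' = d := by
  have hsub : d ∩ d' = d :=
    Finset.eq_of_subset_of_card_le Finset.inter_subset_left (by rw [h, hd.2])
  have hsub' : d ⊆ d' := by
    rw [← hsub]
    exact Finset.inter_subset_right
  exact (Finset.eq_of_subset_of_card_le hsub' (by rw [hd.2, hd'.2])).symm

theorem dodecad_meet_zero {d d' : Finset GolayPt} (hd : d ∈ dodecads) (hd' : d' ∈ dodecads)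
    (h : (d ∩ d').card = 0) : d' = dᶜ := by
  have hdisj : Disjoint d d' :=
    Finset.disjoint_iff_inter_eq_empty.mpr (Finset.card_eq_zero.mp h)
  have hsub : d' ⊆ dᶜ := fun x hx =>
    Finset.mem_compl.mpr (fun hxd => Finset.disjoint_left.mp hdisj hxd hx)
  exact Finset.eq_of_subset_of_card_le hsub (by rw [Finset.card_compl, hd.2, hd'.2, card_golayPt])

theorem dodecad_meet_four_count (d : Finset GolayPt) (hd : d ∈ dodecads) :
    {d' : Finset GolayPt | d' ∈ dodecads ∧ (d ∩ d').card = 4}.ncard = 495 := by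
  have e : {d' : Finset GolayPt | d' ∈ dodecads ∧ (d ∩ d').card = 4}
      = (fun o => symmDiff d oᶜ) '' {o : Finset GolayPt | o ∈ octads ∧ (o ∩ d).card = 4} := by
    ext d'
    constructor
    · rintro ⟨hd', h4⟩
      refine ⟨(symmDiff d d')ᶜ, ⟨⟨supports_compl (symmDiff_mem_supports hd.1 hd'.1), ?_⟩, ?_⟩, ?_⟩
      · have h2 := card_symmDiff_add d d'
        rw [hd.2, hd'.2, h4] at h2
        rw [Finset.card_compl, card_golayPt]
        omega
      · have e1 : (symmDiff d d')ᶜ ∩ d = d ∩ d' := by
          ext x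
          simp only [Finset.mem_inter, Finset.mem_compl, Finset.mem_symmDiff]
          tauto
        rw [e1, h4]
      · show symmDiff d (symmDiff d d')ᶜᶜ = d'
        rw [compl_compl, symmDiff_symmDiff_cancel_left]
    · rintro ⟨o, ⟨ho, h4⟩, rfl⟩
      have e1 : d ∩ symmDiff d oᶜ = o ∩ d := by
        ext x
        simp only [Finset.mem_inter, Finset.mem_compl, Finset.mem_symmDiff]
        tauto
      have e2 : d ∩ oᶜ = d \ (o ∩ d) := by
        ext x
        simp only [Finset.mem_inter, Finset.mem_compl, Finset.mem_sdiff]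
        tauto
      refine ⟨⟨symmDiff_mem_supports hd.1 (supports_compl ho.1), ?_⟩, ?_⟩
      · show (symmDiff d oᶜ).card = 12
        have h2 := card_symmDiff_add d oᶜ
        have h3 : (d ∩ oᶜ).card = 8 := by
          rw [e2, Finset.card_sdiff_of_subset Finset.inter_subset_right, hd.2, h4]
        rw [hd.2, Finset.card_compl, card_golayPt, ho.2, h3] at h2
        omega
      · show (d ∩ symmDiff d oᶜ).card = 4
        rw [e1, h4]
  have hinj : Function.Injective (fun o : Finset GolayPt => symmDiff d oᶜ) :=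
    fun a b hab => compl_injective (symmDiff_right_injective d hab)
  rw [e, Set.ncard_image_of_injective _ hinj]
  exact (Cfsg.Agent.S0386.result d hd).2.2

theorem dodecad_meet_eight_count (d : Finset GolayPt) (hd : d ∈ dodecads) :
    {d' : Finset GolayPt | d' ∈ dodecads ∧ (d ∩ d').card = 8}.ncard = 495 := by
  have e : {d' : Finset GolayPt | d' ∈ dodecads ∧ (d ∩ d').card = 8}
      = (fun o => symmDiff d o) '' {o : Finset GolayPt | o ∈ octads ∧ (o ∩ d).card = 4} := by
    ext d'
    constructor
    · rintro ⟨hd', h8⟩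
      refine ⟨symmDiff d d', ⟨⟨symmDiff_mem_supports hd.1 hd'.1, ?_⟩, ?_⟩, ?_⟩
      · have h2 := card_symmDiff_add d d'
        rw [hd.2, hd'.2, h8] at h2
        omega
      · have e1 : symmDiff d d' ∩ d = d \ (d ∩ d') := by
          ext x
          simp only [Finset.mem_inter, Finset.mem_sdiff, Finset.mem_symmDiff]
          tauto
        rw [e1, Finset.card_sdiff_of_subset Finset.inter_subset_left, hd.2, h8]
      · show symmDiff d (symmDiff d d') = d'
        rw [symmDiff_symmDiff_cancel_left]
    · rintro ⟨o, ⟨ho, h4⟩, rfl⟩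
      have e1 : d ∩ symmDiff d o = d \ (o ∩ d) := by
        ext x
        simp only [Finset.mem_inter, Finset.mem_sdiff, Finset.mem_symmDiff]
        tauto
      have e2 : d ∩ o = o ∩ d := Finset.inter_comm _ _
      refine ⟨⟨symmDiff_mem_supports hd.1 ho.1, ?_⟩, ?_⟩
      · show (symmDiff d o).card = 12
        have h2 := card_symmDiff_add d o
        rw [hd.2, ho.2, e2, h4] at h2
        omega
      · show (d ∩ symmDiff d o).card = 8
        rw [e1, Finset.card_sdiff_of_subset Finset.inter_subset_right, hd.2, h4]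
  rw [e, Set.ncard_image_of_injective _ (symmDiff_right_injective d)]
  exact (Cfsg.Agent.S0386.result d hd).2.2

theorem dodecad_meet_six_count (d : Finset GolayPt) (hd : d ∈ dodecads) :
    {d' : Finset GolayPt | d' ∈ dodecads ∧ (d ∩ d').card = 6}.ncard = 1584 := by
  have hA : dodecads = {d' : Finset GolayPt | d' ∈ dodecads ∧ (d ∩ d').card = 6}
      ∪ ({d' : Finset GolayPt | d' ∈ dodecads ∧ (d ∩ d').card = 4}
        ∪ ({d' : Finset GolayPt | d' ∈ dodecads ∧ (d ∩ d').card = 8} ∪ {d, dᶜ})) := by
    ext d'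
    constructor
    · intro hd'
      rcases dodecad_meet_cases hd hd' with h | h | h | h | h
      · right; right; right; right
        exact dodecad_meet_zero hd hd' h
      · right; left
        exact ⟨hd', h⟩
      · left
        exact ⟨hd', h⟩
      · right; right; left
        exact ⟨hd', h⟩
      · right; right; right; left
        exact dodecad_meet_twelve hd hd' h
    · rintro (⟨h, _⟩ | ⟨h, _⟩ | ⟨h, _⟩ | h | h)
      · exact h
      · exact h
      · exact h
      · rw [h]
        exact hd
      · rw [Set.mem_singleton_iff] at h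
        rw [h]
        exact dodecad_compl hd
  have hself : (d ∩ d).card = 12 := by rw [Finset.inter_self, hd.2]
  have hcompl : (d ∩ dᶜ).card = 0 := by rw [Finset.inter_compl, Finset.card_empty]
  have hd1 : Disjoint {d' : Finset GolayPt | d' ∈ dodecads ∧ (d ∩ d').card = 8}
      ({d, dᶜ} : Set (Finset GolayPt)) := by
    rw [Set.disjoint_left]
    rintro d' ⟨_, h8⟩ (rfl | h)
    · omega
    · rw [Set.mem_singleton_iff] at h
      rw [h] at h8
      omega
  have hd2 : Disjoint {d' : Finset GolayPt | d' ∈ dodecads ∧ (d ∩ d').card = 4}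
      ({d' : Finset GolayPt | d' ∈ dodecads ∧ (d ∩ d').card = 8} ∪ {d, dᶜ}) := by
    rw [Set.disjoint_left]
    rintro d' ⟨_, h4⟩ (⟨_, h8⟩ | rfl | h)
    · omega
    · omega
    · rw [Set.mem_singleton_iff] at h
      rw [h] at h4
      omega
  have hd3 : Disjoint {d' : Finset GolayPt | d' ∈ dodecads ∧ (d ∩ d').card = 6}
      ({d' : Finset GolayPt | d' ∈ dodecads ∧ (d ∩ d').card = 4}
        ∪ ({d' : Finset GolayPt | d' ∈ dodecads ∧ (d ∩ d').card = 8} ∪ {d, dᶜ})) := by
    rw [Set.disjoint_left]
    rintro d' ⟨_, h6⟩ (⟨_, h4⟩ | ⟨_, h8⟩ | rfl | h)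
    · omega
    · omega
    · omega
    · rw [Set.mem_singleton_iff] at h
      rw [h] at h6
      omega
  have hne : d ≠ dᶜ := by
    intro h
    rw [← h, hself] at hcompl
    omega
  have hcount := congrArg Set.ncard hA
  rw [Set.ncard_union_eq hd3 (Set.toFinite _) (Set.toFinite _),
    Set.ncard_union_eq hd2 (Set.toFinite _) (Set.toFinite _),
    Set.ncard_union_eq hd1 (Set.toFinite _) (Set.toFinite _),
    Set.ncard_pair hne, dodecad_meet_four_count d hd, dodecad_meet_eight_count d hd,
    Cfsg.Agent.S0361.result] at hcount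
  omega

end Cfsg.Agent.Helper1.Golay
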