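import Mathlib
import Cfsg.Agent.Helper1.GolayOrb

set_option autoImplicit false

namespace Cfsg.Agent.Helper1.Golay

open Cfsg
open scoped Pointwise

/-- One step of a point-orbit walk: entry `e` encodes a parent position and a word number. -/
def ptStep (Ws mask e : ℕ) : ℕ :=
  cond (mask.testBit (e / 16)) (mask ||| (1 <<< actW 32 (slot Ws (e % 16)) (e / 16))) mask

/-- The point-orbit walk. -/
def ptWalk (Ws : ℕ) : List ℕ → ℕ → ℕ
  | [], m => m
  | e :: es, m => ptWalk Ws es (ptStep Ws m e)

/-- Reachability of positions under a subgroup. -/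
def PtReach (K : Subgroup (Equiv.Perm GolayPt)) (r j : ℕ) : Prop :=
  j < 24 ∧ ∃ g ∈ K, g (unpos r) = unpos j

theorem ptWalk_sound (K : Subgroup (Equiv.Perm GolayPt)) (Ws : ℕ)
    (hW : ∀ s < 16, (elemW 32 (slot Ws s))⁻¹ ∈ K) (r : ℕ) :
    ∀ (es : List ℕ) (m : ℕ), (∀ j, m.testBit j = true → PtReach K r j) →
      ∀ j, (ptWalk Ws es m).testBit j = true → PtReach K r j := by
  intro es
  induction es with
  | nil =>
    intro m hm j h
    exact hm j h
  | cons e es ih =>
    intro m hm j h
    change (ptWalk Ws es (ptStep Ws m e)).testBit j = true at h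
    refine ih (ptStep Ws m e) ?_ j h
    intro j' hj'
    unfold ptStep at hj'
    cases hp : m.testBit (e / 16)
    · rw [hp, cond_false] at hj'
      exact hm j' hj'
    · rw [hp, cond_true, Nat.testBit_or, Bool.or_eq_true] at hj'
      rcases hj' with h1 | h1
      · exact hm j' h1
      · rw [Nat.one_shiftLeft, Nat.testBit_two_pow] at h1
        have h2 : actW 32 (slot Ws (e % 16)) (e / 16) = j' := of_decide_eq_true h1
        obtain ⟨hi, g, hg, hgi⟩ := hm _ hp
        have h3 : pos (elemW 32 (slot Ws (e % 16)) (unpos (e / 16))) = j' := by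
          rw [pos_elemW, pos_unpos _ hi, h2]
        have h4 := unpos_pos (elemW 32 (slot Ws (e % 16)) (unpos (e / 16)))
        rw [h3] at h4
        refine ⟨?_, elemW 32 (slot Ws (e % 16)) * g, ?_, ?_⟩
        · rw [← h3]
          exact pos_lt _
        · have hinv := hW (e % 16) (Nat.mod_lt _ (by norm_num))
          have hmem : elemW 32 (slot Ws (e % 16)) ∈ K := by
            have := K.inv_mem hinv
            rwa [inv_inv] at this
          exact K.mul_mem hmem hg
        · rw [Equiv.Perm.mul_apply, hgi]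
          exact h4.symm

theorem pt_reach (cs ps : List ℕ) (hps : ∀ i ∈ ps, i < 24) (Ws : ℕ)
    (hg : chkGens Ws cs ps = true) (r : ℕ) (hr : r < 24) (es : List ℕ) (j : ℕ)
    (h : (ptWalk Ws es (1 <<< r)).testBit j = true) : PtReach (cfgStab cs ps) r j := by
  refine ptWalk_sound (cfgStab cs ps) Ws (gens_mem Ws cs ps hps hg) r es (1 <<< r) ?_ j h
  intro j' hj'
  rw [Nat.one_shiftLeft, Nat.testBit_two_pow] at hj'
  have h2 : r = j' := of_decide_eq_true hj'
  rw [← h2]
  exact ⟨hr, 1, one_mem _, rfl⟩

end Cfsg.Agent.Helper1.Golay
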