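import Mathlib
import Cfsg.Agent.Helper1.Leech2

set_option autoImplicit false

namespace Cfsg.Agent.Helper1.Golay

open Cfsg

theorem sq_modEq_odd (x : ℤ) (hx : x % 2 = 1) :
    x ^ 2 ≡ 2 * x - 1 + 4 * (if x ≡ 3 [ZMOD 4] then 1 else 0) [ZMOD 16] := by
  by_cases h : x ≡ 3 [ZMOD 4]
  · rw [if_pos h]
    obtain ⟨t, ht⟩ : ∃ t, x = 4 * t + 3 := ⟨x / 4, by unfold Int.ModEq at h; omega⟩
    rw [Int.modEq_iff_dvd]
    exact ⟨-(t ^ 2 + t), by rw [ht]; ring⟩
  · rw [if_neg h]
    obtain ⟨t, ht⟩ : ∃ t, x = 4 * t + 1 := ⟨x / 4, by unfold Int.ModEq at h; omega⟩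
    rw [Int.modEq_iff_dvd]
    exact ⟨-t ^ 2, by rw [ht]; ring⟩

theorem sq_modEq_even (x : ℤ) (hx : x % 2 = 0) :
    x ^ 2 ≡ 4 * (if x ≡ 2 [ZMOD 4] then 1 else 0) [ZMOD 16] := by
  by_cases h : x ≡ 2 [ZMOD 4]
  · rw [if_pos h]
    obtain ⟨t, ht⟩ : ∃ t, x = 4 * t + 2 := ⟨x / 4, by unfold Int.ModEq at h; omega⟩
    rw [Int.modEq_iff_dvd]
    exact ⟨-(t ^ 2 + t), by rw [ht]; ring⟩
  · rw [if_neg h]
    obtain ⟨t, ht⟩ : ∃ t, x = 4 * t := ⟨x / 4, by unfold Int.ModEq at h; omega⟩
    rw [Int.modEq_iff_dvd]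
    exact ⟨-t ^ 2, by rw [ht]; ring⟩

theorem sixteen_dvd_sqNorm {x : GolayPt → ℤ} (hx : x ∈ leechSet) : (16 : ℤ) ∣ sqNorm x := by
  obtain ⟨m, ha, hb, hk⟩ := hx
  rw [sqNorm]
  apply Int.dvd_of_emod_eq_zero
  by_cases hm : m % 2 = 0
  · have h1 : ∑ i, x i ^ 2 ≡ ∑ i, 4 * (if x i ≡ 2 [ZMOD 4] then (1 : ℤ) else 0) [ZMOD 16] := by
      apply Int.ModEq.sum
      intro i _
      apply sq_modEq_even
      have h := ha i
      unfold Int.ModEq at h
      omega
    rw [← Finset.mul_sum, Finset.sum_boole] at h1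
    have h2 := card_supports (hk 2)
    rcases h2 with h2 | h2 | h2 | h2 | h2 <;> rw [h2] at h1 <;> push_cast at h1 <;>
      unfold Int.ModEq at h1 <;> omega
  · have h1 : ∑ i, x i ^ 2 ≡ ∑ i, (2 * x i - 1 + 4 * (if x i ≡ 3 [ZMOD 4] then (1 : ℤ) else 0))
        [ZMOD 16] := by
      apply Int.ModEq.sum
      intro i _
      apply sq_modEq_odd
      have h := ha i
      unfold Int.ModEq at h
      omega
    rw [Finset.sum_add_distrib, Finset.sum_sub_distrib, ← Finset.mul_sum, ← Finset.mul_sum,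
      Finset.sum_boole, Finset.sum_const, Finset.card_univ, card_golayPt] at h1
    simp only [nsmul_eq_mul, mul_one, Nat.cast_ofNat] at h1
    have h2 := card_supports (hk 3)
    rcases h2 with h2 | h2 | h2 | h2 | h2 <;> rw [h2] at h1 <;> push_cast at h1 <;>
      unfold Int.ModEq at h1 hb <;> omega

theorem sqNorm_ge_32 {x : GolayPt → ℤ} (hx : x ∈ leechSet) (h0 : x ≠ 0) : 32 ≤ sqNorm x := by
  have hdvd := sixteen_dvd_sqNorm hx
  obtain ⟨m, ha, hb, hk⟩ := hx
  by_contra hlt
  rw [not_le] at hlt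
  have hnn : ∀ i, 0 ≤ x i ^ 2 := fun i => sq_nonneg _
  obtain ⟨j, hj⟩ : ∃ j, x j ≠ 0 := by
    by_contra hne
    exact h0 (funext fun i => by_contra fun hi => hne ⟨i, hi⟩)
  have hsplit : sqNorm x = x j ^ 2 + ∑ i ∈ Finset.univ.erase j, x i ^ 2 := by
    rw [sqNorm]
    exact (Finset.add_sum_erase Finset.univ (fun i => x i ^ 2) (Finset.mem_univ j)).symm
  have hrest : 0 ≤ ∑ i ∈ Finset.univ.erase j, x i ^ 2 := Finset.sum_nonneg (fun i _ => hnn i)
  obtain ⟨q, hq⟩ := hdvd
  by_cases hm : m % 2 = 0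
  · by_cases hS : (Finset.univ.filter fun i => x i ≡ 2 [ZMOD 4]).card = 0
    · have h4 : ∀ i, x i % 4 = 0 := by
        intro i
        have hi : i ∉ Finset.univ.filter fun i => x i ≡ 2 [ZMOD 4] := by
          rw [Finset.card_eq_zero] at hS
          rw [hS]
          exact Finset.notMem_empty i
        have h := ha i
        simp only [Finset.mem_filter, Finset.mem_univ, true_and] at hi
        unfold Int.ModEq at h hi
        omega
      have hj16 : 16 ≤ x j ^ 2 := by
        have h := h4 j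
        have h' : x j ≤ -4 ∨ 4 ≤ x j := by omega
        rcases h' with h' | h' <;> nlinarith
      have hrest0 : ∑ i ∈ Finset.univ.erase j, x i ^ 2 = 0 := by omega
      have hxj : x j ^ 2 = 16 := by omega
      have hz : ∀ i ∈ Finset.univ.erase j, x i = 0 := by
        intro i hi
        have h := (Finset.sum_eq_zero_iff_of_nonneg (fun i _ => hnn i)).mp hrest0 i hi
        exact (pow_eq_zero_iff two_ne_zero).mp h
      have hsum : ∑ i, x i = x j := by
        rw [← Finset.add_sum_erase _ _ (Finset.mem_univ j), Finset.sum_eq_zero hz, add_zero]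
      have hxj' : x j = 4 ∨ x j = -4 := by
        have h : (x j - 4) * (x j + 4) = 0 := by
          have e : (x j - 4) * (x j + 4) = x j ^ 2 - 16 := by ring
          rw [e, hxj]
          norm_num
        rcases mul_eq_zero.mp h with h | h
        · left
          omega
        · right
          omega
      rw [hsum] at hb
      unfold Int.ModEq at hb
      rcases hxj' with h | h <;> rw [h] at hb <;> omega
    · have h2 := card_supports (hk 2)
      have hge : (4 : ℤ) * ((Finset.univ.filter fun i => x i ≡ 2 [ZMOD 4]).card : ℤ)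
          ≤ sqNorm x := by
        rw [sqNorm]
        have e : (4 : ℤ) * ((Finset.univ.filter fun i => x i ≡ 2 [ZMOD 4]).card : ℤ)
            = ∑ i, (if x i ≡ 2 [ZMOD 4] then (4 : ℤ) else 0) := by
          rw [Finset.sum_ite, Finset.sum_const, Finset.sum_const_zero, add_zero, nsmul_eq_mul,
            mul_comm]
        rw [e]
        apply Finset.sum_le_sum
        intro i _
        split_ifs with h
        · unfold Int.ModEq at h
          have h' : x i ≤ -2 ∨ 2 ≤ x i := by omega
          rcases h' with h' | h' <;> nlinarith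
        · exact hnn i
      omega
  · have hge : (24 : ℤ) ≤ sqNorm x := by
      rw [sqNorm]
      have e : (24 : ℤ) = ∑ i : GolayPt, (1 : ℤ) := by
        rw [Finset.sum_const, Finset.card_univ, card_golayPt]
        simp
      rw [e]
      apply Finset.sum_le_sum
      intro i _
      have h := ha i
      unfold Int.ModEq at h
      have h' : x i ≤ -1 ∨ 1 ≤ x i := by omega
      rcases h' with h' | h' <;> nlinarith
    omega

end Cfsg.Agent.Helper1.Golay
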