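import Mathlib
import Cfsg.Agent.Helper1.GolayFlag2
import Cfsg.Agent.Helper1.Orb1604

set_option autoImplicit false

namespace Cfsg.Agent.Helper1.Golay

open Cfsg Cfsg.Agent.Helper1
open scoped Pointwise

theorem rank1604 (p q : GolayPt) (hpq : p ≠ q) (o : Finset GolayPt) (ho : o ∈ octads)
    (hp : p ∈ o) (hq : q ∈ o) :
    {x : Finset GolayPt | x ∈ octads ∧ p ∈ x ∧ q ∈ x ∧ (o ∩ x).card = 2}.ncard = 16 ∧
    {x : Finset GolayPt | x ∈ octads ∧ p ∈ x ∧ q ∈ x ∧ (o ∩ x).card = 4}.ncard = 60 ∧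
    ∀ o' o'' : Finset GolayPt, o' ∈ octads → o'' ∈ octads → p ∈ o' → p ∈ o'' → q ∈ o' →
      q ∈ o'' → (o ∩ o').card = (o ∩ o'').card →
      ∃ g : Equiv.Perm GolayPt, g ∈ M24 ∧ g p = p ∧ g q = q ∧ g • o = o ∧ g • o' = o'' := by
  obtain ⟨t, ht, hto, htp, htq⟩ := flag_in2 o ho p q hp hq hpq
  have hmemp : ∀ s : Finset GolayPt, unpos 0 ∈ t • s ↔ p ∈ s := by
    intro s
    rw [← htp]
    exact Finset.smul_mem_smul_finset_iff t
  have hmemq : ∀ s : Finset GolayPt, unpos 2 ∈ t • s ↔ q ∈ s := by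
    intro s
    rw [← htq]
    exact Finset.smul_mem_smul_finset_iff t
  have hftyp : ∀ (a : ℕ) (s : Finset GolayPt), ftyp [0, 2] a (t • s)
      = 2 * (2 * a + (if p ∈ s then 1 else 0)) + (if q ∈ s then 1 else 0) := by
    intro a s
    simp only [ftyp, List.foldl_cons, List.foldl_nil, hmemp, hmemq]
  have hcount : ∀ k : ℕ,
      {x : Finset GolayPt | x ∈ octads ∧ p ∈ x ∧ q ∈ x ∧ (o ∩ x).card = k}.ncard
        = ((Finset.range 4096).filter
            (fun c => popc (comb c) = 8 ∧ typB 15 [0, 2] c = 4 * k + 3)).card := by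
    intro k
    rw [← count_of_base 8 15 [0, 2] (by decide) o t ht hto (4 * k + 3)]
    congr 1
    ext o'
    simp only [Set.mem_ofPred_eq, hftyp, typ11_iff]
    rfl
  refine ⟨by rw [hcount 2]; exact count1604_11, by rw [hcount 4]; exact count1604_19, ?_⟩
  intro o' o'' ho' ho'' hp' hp'' hq' hq'' h
  have hpos : 0 < (o ∩ o').card := Finset.card_pos.mpr ⟨p, Finset.mem_inter.mpr ⟨hp, hp'⟩⟩
  have hfix : ∀ g : Equiv.Perm GolayPt, (∀ i ∈ [0, 2], g (t⁻¹ (unpos i)) = t⁻¹ (unpos i)) →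
      g p = p ∧ g q = q := by
    intro g hg
    have h0 := hg 0 (by simp)
    have h2 := hg 2 (by simp)
    rw [perm_eq_inv_of_apply t htp] at h0
    rw [perm_eq_inv_of_apply t htq] at h2
    exact ⟨h0, h2⟩
  rcases octad_meet_cases ho ho' with h0 | h2 | h4 | h8
  · omega
  · obtain ⟨g, hg, hgo, hgp, hgo'⟩ := stab_trans_of_base' 8 15 [0, 2] (by decide) o t ht hto
      o' o'' ho' ho''
      (fun c' c'' hc' hc'' hw' hw'' h1 h2' => base1604 c' c'' hc' hc'' hw' hw''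
        (by rw [h1, h2', hftyp, hftyp, ← h, if_pos hp', if_pos hp'', if_pos hq', if_pos hq''])
        (by rw [h1, hftyp, h2, if_pos hp', if_pos hq']; exact any1604_11))
    exact ⟨g, hg, (hfix g hgp).1, (hfix g hgp).2, hgo, hgo'⟩
  · obtain ⟨g, hg, hgo, hgp, hgo'⟩ := stab_trans_of_base' 8 15 [0, 2] (by decide) o t ht hto
      o' o'' ho' ho''
      (fun c' c'' hc' hc'' hw' hw'' h1 h2' => base1604 c' c'' hc' hc'' hw' hw''
        (by rw [h1, h2', hftyp, hftyp, ← h, if_pos hp', if_pos hp'', if_pos hq', if_pos hq''])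
        (by rw [h1, hftyp, h4, if_pos hp', if_pos hq']; exact any1604_19))
    exact ⟨g, hg, (hfix g hgp).1, (hfix g hgp).2, hgo, hgo'⟩
  · have e1 := octad_meet_eight ho ho' h8
    have e2 := octad_meet_eight ho ho'' (by rw [← h, h8])
    exact ⟨1, M24.one_mem, rfl, rfl, one_smul _ _, by rw [e1, e2, one_smul]⟩

end Cfsg.Agent.Helper1.Golay
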