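import Mathlib
import Cfsg.Agent.Helper1.Rank1604

set_option autoImplicit false

namespace Cfsg.Agent.Helper1.Golay

open Cfsg Cfsg.Agent.Helper1
open scoped Pointwise

theorem leech_triangle_bottom (o : Finset GolayPt) (ho : o ∈ octads) (s : Finset GolayPt)
    (hs : s ⊆ o) :
    (s.card = 2 → {o' : Finset GolayPt | o' ∈ octads ∧ o ∩ o' = s}.ncard = 16) ∧
    (s.card = 4 → {o' : Finset GolayPt | o' ∈ octads ∧ o ∩ o' = s}.ncard = 4) := by
  constructor
  · intro h2
    obtain ⟨p, q, hpq, rfl⟩ := Finset.card_eq_two.mp h2
    have hp : p ∈ o := hs (by simp)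
    have hq : q ∈ o := hs (by simp)
    have e : {o' : Finset GolayPt | o' ∈ octads ∧ o ∩ o' = {p, q}}
        = {x : Finset GolayPt | x ∈ octads ∧ p ∈ x ∧ q ∈ x ∧ (o ∩ x).card = 2} := by
      ext o'
      simp only [Set.mem_ofPred_eq]
      constructor
      · rintro ⟨ho', hint⟩
        have hp' : p ∈ o ∩ o' := by rw [hint]; simp
        have hq' : q ∈ o ∩ o' := by rw [hint]; simp
        exact ⟨ho', (Finset.mem_inter.mp hp').2, (Finset.mem_inter.mp hq').2,
          by rw [hint, Finset.card_pair hpq]⟩
      · rintro ⟨ho', hp', hq', hc⟩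
        refine ⟨ho', ?_⟩
        symm
        apply Finset.eq_of_subset_of_card_le
        · intro x hx
          rw [Finset.mem_insert, Finset.mem_singleton] at hx
          rcases hx with rfl | rfl
          · exact Finset.mem_inter.mpr ⟨hp, hp'⟩
          · exact Finset.mem_inter.mpr ⟨hq, hq'⟩
        · rw [hc, Finset.card_pair hpq]
    rw [e]
    exact (rank1604 p q hpq o ho hp hq).1
  · intro h4
    classical
    have hlam := steiner_lam octads_steiner s (by rw [h4]; norm_num)
    rw [h4, card_golayPt] at hlam
    have c1 : (8 - 4).choose (5 - 4) = 4 := by decide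
    have c2 : (24 - 4).choose (5 - 4) = 20 := by decide
    rw [c1, c2] at hlam
    have h5 : ((blocks octads).filter (fun b => s ⊆ b)).card = 5 := by omega
    have e : {o' : Finset GolayPt | o' ∈ octads ∧ o ∩ o' = s}
        = ↑(((blocks octads).filter (fun b => s ⊆ b)).erase o) := by
      ext o'
      rw [Set.mem_ofPred_eq, Finset.mem_coe, Finset.mem_erase, Finset.mem_filter, mem_blocks]
      constructor
      · rintro ⟨ho', hint⟩
        refine ⟨?_, ho', by rw [← hint]; exact Finset.inter_subset_right⟩
        rintro rfl
        rw [Finset.inter_self] at hint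
        rw [← hint, ho.2] at h4
        omega
      · rintro ⟨hne, ho', hsub⟩
        refine ⟨ho', ?_⟩
        have hsub2 : s ⊆ o ∩ o' := Finset.subset_inter hs hsub
        have hc4 : 4 ≤ (o ∩ o').card := by
          rw [← h4]
          exact Finset.card_le_card hsub2
        rcases octad_meet_cases ho ho' with h | h | h | h
        · omega
        · omega
        · exact (Finset.eq_of_subset_of_card_le hsub2 (by rw [h, h4])).symm
        · exact absurd (octad_meet_eight ho ho' h) hne
    have hmem : o ∈ (blocks octads).filter (fun b => s ⊆ b) := by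
      rw [Finset.mem_filter, mem_blocks]
      exact ⟨ho, hs⟩
    rw [e, Set.ncard_coe_finset, Finset.card_erase_of_mem hmem, h5]

end Cfsg.Agent.Helper1.Golay
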