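import Mathlib
import Cfsg.Agent.Helper1.GolayPtOrb

set_option autoImplicit false

namespace Cfsg.Agent.Helper1.Golay

open Cfsg
open scoped Pointwise

def ws1600 : ℕ := 3593407870182604958778432769475886418141444431206

theorem gens1600 : chkGens ws1600 [1] [0, 1, 2] = true := by decide +kernel

def cert1600 : List ℕ := [
  80, 81, 82, 305, 306, 369, 370, 113, 352, 354, 242]

theorem walk1600 : ptWalk ws1600 cert1600 (1 <<< 5) = 16436384 := by
  decide +kernel

end Cfsg.Agent.Helper1.Golay
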