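import Mathlib
import Cfsg.Agent.Helper1.GolayFlag2
import Cfsg.Agent.Helper1.Golay12
import Cfsg.Agent.Helper1.Orb1600
import Cfsg.Agent.Helper1.OctadA8

set_option autoImplicit false

namespace Cfsg.Agent.Helper1.Golay

open Cfsg Cfsg.Agent.Helper1
open scoped Pointwise

theorem dodecad_card_ge {d : Finset GolayPt} (hd : d ∈ dodecads) : 5 ≤ d.card := by
  rw [hd.2]
  norm_num

theorem m12_two (d : Finset GolayPt) (hd : d ∈ dodecads) (p q p' q' : GolayPt) (hp : p ∈ d)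
    (hq : q ∈ d) (hp' : p' ∈ d) (hq' : q' ∈ d) (hpq : p ≠ q) (hpq' : p' ≠ q') :
    ∃ g ∈ M24, g • d = d ∧ g p = p' ∧ g q = q' := by
  obtain ⟨X, hX, X0, X1⟩ := exists_emb2 d (dodecad_card_ge hd) p q hp hq hpq
  obtain ⟨Y, hY, Y0, Y1⟩ := exists_emb2 d (dodecad_card_ge hd) p' q' hp' hq' hpq'
  obtain ⟨g, hg, hgd, hgX⟩ := m12_exists d hd X Y hX hY
  refine ⟨g, hg, hgd, ?_, ?_⟩
  · rw [← X0, hgX 0, Y0]
  · rw [← X1, hgX 1, Y1]

theorem m12_three (d : Finset GolayPt) (hd : d ∈ dodecads) (p q r p' q' r' : GolayPt)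
    (hp : p ∈ d) (hq : q ∈ d) (hr : r ∈ d) (hp' : p' ∈ d) (hq' : q' ∈ d) (hr' : r' ∈ d)
    (hpq : p ≠ q) (hpr : p ≠ r) (hqr : q ≠ r) (hpq' : p' ≠ q') (hpr' : p' ≠ r')
    (hqr' : q' ≠ r') :
    ∃ g ∈ M24, g • d = d ∧ g p = p' ∧ g q = q' ∧ g r = r' := by
  obtain ⟨X, hX, X0, X1, X2⟩ := exists_embedding_five d (dodecad_card_ge hd) p q r hp hq hr
    hpq hpr hqr
  obtain ⟨Y, hY, Y0, Y1, Y2⟩ := exists_embedding_five d (dodecad_card_ge hd) p' q' r' hp' hq'
    hr' hpq' hpr' hqr'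
  obtain ⟨g, hg, hgd, hgX⟩ := m12_exists d hd X Y hX hY
  refine ⟨g, hg, hgd, ?_, ?_, ?_⟩
  · rw [← X0, hgX 0, Y0]
  · rw [← X1, hgX 1, Y1]
  · rw [← X2, hgX 2, Y2]

/-- The pointwise stabiliser of three points of a dodecad in the dodecad stabiliser has
order 72. -/
theorem card_m12_three_stab (d : Finset GolayPt) (hd : d ∈ dodecads) (p q r : GolayPt)
    (hp : p ∈ d) (hq : q ∈ d) (hr : r ∈ d) (hpq : p ≠ q) (hpr : p ≠ r) (hqr : q ≠ r) :
    Nat.card ↥(MulAction.stabilizer M24 d ⊓ MulAction.stabilizer M24 p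
      ⊓ MulAction.stabilizer M24 q ⊓ MulAction.stabilizer M24 r) = 72 := by
  have h1 := card_stabilizer_dodecad_point d hd p hp
  have h2 := card_eq_ncard_mul (MulAction.stabilizer M24 d ⊓ MulAction.stabilizer M24 p) q
    {x | x ∈ d ∧ x ≠ p} (by
      intro x
      constructor
      · rintro ⟨hx, hxp⟩
        obtain ⟨g, hg, hgd, hgp, hgq⟩ := m12_two d hd p q p x hp hq hp hx hpq (Ne.symm hxp)
        exact ⟨⟨g, hg⟩, Subgroup.mem_inf.mpr ⟨MulAction.mem_stabilizer_iff.mpr hgd,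
          MulAction.mem_stabilizer_iff.mpr hgp⟩, hgq⟩
      · rintro ⟨n, hn, rfl⟩
        rw [Subgroup.mem_inf, MulAction.mem_stabilizer_iff, MulAction.mem_stabilizer_iff] at hn
        have hnd : (n : Equiv.Perm GolayPt) • d = d := hn.1
        have hnp : (n : Equiv.Perm GolayPt) p = p := hn.2
        refine ⟨(setStab_mem_iff hnd q).mpr hq, ?_⟩
        intro h
        have h' : (n : Equiv.Perm GolayPt) q = (n : Equiv.Perm GolayPt) p := by
          rw [hnp]
          exact h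
        exact hpq ((n : Equiv.Perm GolayPt).injective h').symm)
  have e2 : {x | x ∈ d ∧ x ≠ p} = ↑(d.erase p) := by
    ext x
    simp only [Set.mem_ofPred_eq, Finset.coe_erase, Set.mem_sdiff, Finset.mem_coe,
      Set.mem_singleton_iff]
  rw [e2, Set.ncard_coe_finset, Finset.card_erase_of_mem hp, hd.2, h1] at h2
  have h3 := card_eq_ncard_mul (MulAction.stabilizer M24 d ⊓ MulAction.stabilizer M24 p
      ⊓ MulAction.stabilizer M24 q) r {x | x ∈ d ∧ x ≠ p ∧ x ≠ q} (by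
      intro x
      constructor
      · rintro ⟨hx, hxp, hxq⟩
        obtain ⟨g, hg, hgd, hgp, hgq, hgr⟩ := m12_three d hd p q r p q x hp hq hr hp hq hx
          hpq hpr hqr hpq (Ne.symm hxp) (Ne.symm hxq)
        exact ⟨⟨g, hg⟩, Subgroup.mem_inf.mpr ⟨Subgroup.mem_inf.mpr
          ⟨MulAction.mem_stabilizer_iff.mpr hgd, MulAction.mem_stabilizer_iff.mpr hgp⟩,
          MulAction.mem_stabilizer_iff.mpr hgq⟩, hgr⟩
      · rintro ⟨n, hn, rfl⟩
        rw [Subgroup.mem_inf, Subgroup.mem_inf, MulAction.mem_stabilizer_iff,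
          MulAction.mem_stabilizer_iff, MulAction.mem_stabilizer_iff] at hn
        have hnd : (n : Equiv.Perm GolayPt) • d = d := hn.1.1
        have hnp : (n : Equiv.Perm GolayPt) p = p := hn.1.2
        have hnq : (n : Equiv.Perm GolayPt) q = q := hn.2
        refine ⟨(setStab_mem_iff hnd r).mpr hr, ?_, ?_⟩
        · intro h
          have h' : (n : Equiv.Perm GolayPt) r = (n : Equiv.Perm GolayPt) p := by
            rw [hnp]
            exact h
          exact hpr ((n : Equiv.Perm GolayPt).injective h').symm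
        · intro h
          have h' : (n : Equiv.Perm GolayPt) r = (n : Equiv.Perm GolayPt) q := by
            rw [hnq]
            exact h
          exact hqr ((n : Equiv.Perm GolayPt).injective h').symm)
  have e3 : {x | x ∈ d ∧ x ≠ p ∧ x ≠ q} = ↑((d.erase p).erase q) := by
    ext x
    simp only [Set.mem_ofPred_eq, Finset.coe_erase, Set.mem_sdiff, Finset.mem_coe,
      Set.mem_singleton_iff]
    tauto
  have hq' : q ∈ d.erase p := Finset.mem_erase.mpr ⟨Ne.symm hpq, hq⟩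
  rw [e3, Set.ncard_coe_finset, Finset.card_erase_of_mem hq', Finset.card_erase_of_mem hp,
    hd.2] at h3
  omega

theorem base1_mem012 : unpos 0 ∈ support₂ (ofBits (comb 1)) ∧ unpos 1 ∈ support₂ (ofBits (comb 1))
    ∧ unpos 2 ∈ support₂ (ofBits (comb 1)) := by
  rw [mem_support₂_ofBits, mem_support₂_ofBits, mem_support₂_ofBits]
  decide +kernel

theorem out_mask1600 : ∀ q : GolayPt, (comb 1).testBit (pos q) = false →
    (16436384 : ℕ).testBit (pos q) = true := by
  decide +kernel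

/-- The pointwise stabiliser of three points of a dodecad in the dodecad stabiliser is
transitive on the complementary dodecad. -/
theorem m12_three_stab_trans (d : Finset GolayPt) (hd : d ∈ dodecads) (p q r : GolayPt)
    (hp : p ∈ d) (hq : q ∈ d) (hr : r ∈ d) (hpq : p ≠ q) (hpr : p ≠ r) (hqr : q ≠ r)
    (x y : GolayPt) (hx : x ∉ d) (hy : y ∉ d) :
    ∃ g : Equiv.Perm GolayPt, g ∈ M24 ∧ g • d = d ∧ g p = p ∧ g q = q ∧ g r = r ∧ g x = y := by
  obtain ⟨t1, ht1⟩ := dodecads_transitive d _ hd baseDodecad_mem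
  have ht1' : (t1 : Equiv.Perm GolayPt) • d = support₂ (ofBits (comb 1)) := ht1
  have hm : ∀ z ∈ d, (t1 : Equiv.Perm GolayPt) z ∈ support₂ (ofBits (comb 1)) := by
    intro z hz
    rw [← ht1']
    exact Finset.smul_mem_smul_finset hz
  obtain ⟨h, hh, hhd, hhp, hhq, hhr⟩ := m12_three _ baseDodecad_mem
    ((t1 : Equiv.Perm GolayPt) p) ((t1 : Equiv.Perm GolayPt) q) ((t1 : Equiv.Perm GolayPt) r)
    (unpos 0) (unpos 1) (unpos 2) (hm p hp) (hm q hq) (hm r hr) base1_mem012.1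
    base1_mem012.2.1 base1_mem012.2.2
    (fun e => hpq ((t1 : Equiv.Perm GolayPt).injective e))
    (fun e => hpr ((t1 : Equiv.Perm GolayPt).injective e))
    (fun e => hqr ((t1 : Equiv.Perm GolayPt).injective e)) (by decide) (by decide) (by decide)
  have htM : h * (t1 : Equiv.Perm GolayPt) ∈ M24 := M24.mul_mem hh t1.2
  have htd : (h * (t1 : Equiv.Perm GolayPt)) • d = support₂ (ofBits (comb 1)) := by
    rw [mul_smul, ht1', hhd]
  have htp : (h * (t1 : Equiv.Perm GolayPt)) p = unpos 0 := hhp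
  have htq : (h * (t1 : Equiv.Perm GolayPt)) q = unpos 1 := hhq
  have htr : (h * (t1 : Equiv.Perm GolayPt)) r = unpos 2 := hhr
  generalize h * (t1 : Equiv.Perm GolayPt) = t at htM htd htp htq htr
  have key : ∀ z : GolayPt, z ∉ d → ∃ g ∈ cfgStab [1] [0, 1, 2], g (unpos 5) = t z := by
    intro z hz
    have hnot : t z ∉ support₂ (ofBits (comb 1)) := by
      rw [← htd]
      intro hmem
      exact hz ((Finset.smul_mem_smul_finset_iff t).mp hmem)
    rw [mem_support₂_ofBits] at hnot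
    have hbit : (16436384 : ℕ).testBit (pos (t z)) = true :=
      out_mask1600 (t z) (by simpa using hnot)
    rw [← walk1600] at hbit
    obtain ⟨-, g, hg, hgz⟩ := pt_reach [1] [0, 1, 2] (by decide) ws1600 gens1600 5
      (by norm_num) cert1600 (pos (t z)) hbit
    rw [unpos_pos] at hgz
    exact ⟨g, hg, hgz⟩
  obtain ⟨g1, hg1, e1⟩ := key x hx
  obtain ⟨g2, hg2, e2⟩ := key y hy
  have hk : g2 * g1⁻¹ ∈ cfgStab [1] [0, 1, 2] :=
    (cfgStab [1] [0, 1, 2]).mul_mem hg2 ((cfgStab [1] [0, 1, 2]).inv_mem hg1)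
  rw [mem_cfgStab] at hk
  obtain ⟨hkM, hkc, hkp⟩ := hk
  have hk1 := hkc 1 (by simp)
  refine ⟨t⁻¹ * (g2 * g1⁻¹) * t, M24.mul_mem (M24.mul_mem (M24.inv_mem htM) hkM) htM,
    ?_, ?_, ?_, ?_, ?_⟩
  · rw [mul_smul, mul_smul, htd, hk1, ← htd, inv_smul_smul]
  · rw [Equiv.Perm.mul_apply, Equiv.Perm.mul_apply, htp, hkp 0 (by simp)]
    exact perm_eq_inv_of_apply t htp
  · rw [Equiv.Perm.mul_apply, Equiv.Perm.mul_apply, htq, hkp 1 (by simp)]
    exact perm_eq_inv_of_apply t htq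
  · rw [Equiv.Perm.mul_apply, Equiv.Perm.mul_apply, htr, hkp 2 (by simp)]
    exact perm_eq_inv_of_apply t htr
  · rw [Equiv.Perm.mul_apply, Equiv.Perm.mul_apply, Equiv.Perm.mul_apply, ← e1,
      perm_inv_apply_self, e2]
    exact perm_inv_apply_self t y

end Cfsg.Agent.Helper1.Golay
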