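import Mathlib
import Cfsg.Agent.Helper1.MathieuSimple

set_option autoImplicit false
open scoped Pointwise

namespace Cfsg.Agent.Helper1.Golay

open Cfsg

/-- The stabiliser of a point in a subgroup, as an intersection. -/
def stabEquiv {G α : Type*} [Group G] [MulAction G α] (H : Subgroup G) (p : α) :
    MulAction.stabilizer ↥H p ≃* ↥(H ⊓ MulAction.stabilizer G p) where
  toFun x := ⟨((x : H) : G), Subgroup.mem_inf.mpr ⟨x.1.2, x.2⟩⟩
  invFun y := ⟨⟨y.1, (Subgroup.mem_inf.mp y.2).1⟩, (Subgroup.mem_inf.mp y.2).2⟩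
  left_inv _ := rfl
  right_inv _ := rfl
  map_mul' _ _ := rfl

theorem m12_simple (d : Finset GolayPt) (hd : d ∈ dodecads) :
    IsSimpleGroup (MulAction.stabilizer M24 d) := by
  have hdcard : d.card = 12 := hd.2
  have h5 : 5 ≤ d.card := by
    rw [hdcard]
    norm_num
  obtain ⟨p, hp⟩ : ∃ p, p ∈ d := Finset.card_pos.mp (by rw [hdcard]; norm_num)
  have h11 := m11_simple d hd p hp
  have hsimple : IsSimpleGroup (MulAction.stabilizer ↥(MulAction.stabilizer M24 d) p) :=
    (stabEquiv (MulAction.stabilizer M24 d) p).isSimpleGroup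
  refine simple_of_three_trans (G := ↥(MulAction.stabilizer M24 d)) (α := GolayPt)
    (d : Set GolayPt) ?_ ?_ ?_ 3 (by norm_num) (by norm_num) ?_ ?_ p hp hsimple
  · intro g x hx
    have hg := g.2
    rw [MulAction.mem_stabilizer_iff] at hg
    have h : (g : M24) • x ∈ (g : M24) • d := Finset.smul_mem_smul_finset hx
    rw [hg] at h
    exact h
  · intro g hg
    have hgm := g.2
    have hx : ∀ i, ((Fin.castLEEmb h5).trans
        (d.equivFin.symm.toEmbedding.trans (Function.Embedding.subtype _))) i ∈ d :=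
      fun i => (d.equivFin.symm _).2
    have hbot := m12_stab_trivial d hd _ hx
    have hmem : (g : M24) ∈ MulAction.stabilizer M24 d ⊓ MulAction.stabilizer M24
        ((Fin.castLEEmb h5).trans
          (d.equivFin.symm.toEmbedding.trans (Function.Embedding.subtype _))) := by
      rw [Subgroup.mem_inf]
      refine ⟨hgm, ?_⟩
      rw [MulAction.mem_stabilizer_iff]
      refine Function.Embedding.ext (fun i => ?_)
      exact hg _ (hx i)
    rw [hbot, Subgroup.mem_bot] at hmem
    exact Subtype.ext hmem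
  · intro a ha b hb c hc hab hac hbc a' ha' b' hb' c' hc' hab' hac' hbc'
    obtain ⟨x, hx, hx0, hx1, hx2⟩ := exists_embedding_five d h5 a b c ha hb hc hab hac hbc
    obtain ⟨y, hy, hy0, hy1, hy2⟩ := exists_embedding_five d h5 a' b' c' ha' hb' hc' hab' hac' hbc'
    obtain ⟨g, hgM, hgd, hg⟩ := m12_exists d hd x y hx hy
    have h0 := hg 0
    rw [hx0, hy0] at h0
    have h1 := hg 1
    rw [hx1, hy1] at h1
    have h2 := hg 2
    rw [hx2, hy2] at h2
    exact ⟨⟨⟨g, hgM⟩, MulAction.mem_stabilizer_iff.mpr hgd⟩, h0, h1, h2⟩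
  · rw [Set.ncard_coe_finset, hdcard]
    norm_num
  · rw [Set.ncard_coe_finset, hdcard]
    norm_num

theorem m24_three_trans (a b c a' b' c' : GolayPt) (hab : a ≠ b) (hac : a ≠ c) (hbc : b ≠ c)
    (hab' : a' ≠ b') (hac' : a' ≠ c') (hbc' : b' ≠ c') :
    ∃ g : M24, g • a = a' ∧ g • b = b' ∧ g • c = c' := by
  have h5 : 5 ≤ (Finset.univ : Finset GolayPt).card := by
    rw [Finset.card_univ, card_golayPt]
    norm_num
  obtain ⟨x, -, hx0, hx1, hx2⟩ := exists_embedding_five Finset.univ h5 a b c (Finset.mem_univ _)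
    (Finset.mem_univ _) (Finset.mem_univ _) hab hac hbc
  obtain ⟨y, -, hy0, hy1, hy2⟩ := exists_embedding_five Finset.univ h5 a' b' c' (Finset.mem_univ _)
    (Finset.mem_univ _) (Finset.mem_univ _) hab' hac' hbc'
  obtain ⟨g, hg⟩ := (MulAction.isMultiplyPretransitive_iff.mp M24_five_transitive) x y
  have h : ∀ i, g • x i = y i := fun i => by
    rw [← hg]
    rfl
  refine ⟨g, ?_, ?_, ?_⟩
  · rw [← hx0, ← hy0]
    exact h 0
  · rw [← hx1, ← hy1]
    exact h 1
  · rw [← hx2, ← hy2]
    exact h 2

theorem m23_simple (p : GolayPt) : IsSimpleGroup (MulAction.stabilizer M24 p) := by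
  have hfact : Fact (Nat.Prime 23) := ⟨by norm_num⟩
  have hcardG := card_stabilizer_point p
  refine simple_of_prime_degree (G := ↥(MulAction.stabilizer M24 p)) (α := GolayPt)
    {x | x ≠ p} 23 ?_ ?_ ?_ ?_ 443520 ?_ ?_ ?_ ?_
  · have e : {x : GolayPt | x ≠ p} = ((Finset.univ.erase p : Finset GolayPt) : Set GolayPt) := by
      ext x
      simp
    rw [e, Set.ncard_coe_finset, Finset.card_erase_of_mem (Finset.mem_univ p), Finset.card_univ,
      card_golayPt]
  · intro g x hx h
    have hg := g.2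
    rw [MulAction.mem_stabilizer_iff] at hg
    apply hx
    have h' : (g : M24) • x = (g : M24) • p := by
      rw [hg]
      exact h
    exact smul_left_cancel _ h'
  · intro g hg
    have hgp := g.2
    rw [MulAction.mem_stabilizer_iff] at hgp
    apply Subtype.ext
    apply Subtype.ext
    apply Equiv.ext
    intro x
    show ((g : M24) : Equiv.Perm GolayPt) x = x
    by_cases hx : x = p
    · rw [hx]
      exact hgp
    · exact hg x hx
  · intro a ha b hb hab a' ha' b' hb' hab'
    obtain ⟨g, h0, h1, h2⟩ := m24_three_trans p a b p a' b' (Ne.symm ha) (Ne.symm hb) hab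
      (Ne.symm ha') (Ne.symm hb') hab'
    exact ⟨⟨g, MulAction.mem_stabilizer_iff.mpr h0⟩, h1, h2⟩
  · rw [hcardG]
  · norm_num
  · intro k hk hmod
    have hk' : k ≤ 22 := Nat.le_of_dvd (by norm_num) hk
    interval_cases k <;> revert hk hmod <;> decide
  · rw [hcardG]
    norm_num

theorem m24_simple : IsSimpleGroup M24 := by
  have hsimple := m23_simple (none : GolayPt)
  refine simple_of_three_trans (G := ↥M24) (α := GolayPt) Set.univ ?_ ?_ ?_ 3 (by norm_num)
    (by norm_num) ?_ ?_ none (Set.mem_univ _) hsimple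
  · intro g x _
    exact Set.mem_univ _
  · intro g hg
    apply Subtype.ext
    apply Equiv.ext
    intro x
    exact hg x (Set.mem_univ _)
  · intro a _ b _ c _ hab hac hbc a' _ b' _ c' _ hab' hac' hbc'
    exact m24_three_trans a b c a' b' c' hab hac hbc hab' hac' hbc'
  · rw [Set.ncard_univ, Nat.card_eq_fintype_card, card_golayPt]
    norm_num
  · rw [Set.ncard_univ, Nat.card_eq_fintype_card, card_golayPt]
    norm_num

end Cfsg.Agent.Helper1.Golay
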