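import Mathlib
import Cfsg.Agent.Helper1.Simple2

set_option autoImplicit false

namespace Cfsg.Agent.Helper1

open Subgroup

section
variable {G α : Type*} [Group G] [MulAction G α]

theorem prime_order_orbit_inj (p : ℕ) (hp : p.Prime) (σ : G) (hσ : orderOf σ = p) (x₀ : α)
    (hmove : σ • x₀ ≠ x₀) : ∀ i j : ℕ, i < j → j < p → σ ^ i • x₀ ≠ σ ^ j • x₀ := by
  intro i j hij hj h
  apply hmove
  have h1 : σ ^ (j - i) • x₀ = x₀ := by
    have e : σ ^ j = σ ^ i * σ ^ (j - i) := by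
      rw [← pow_add]
      congr 1
      omega
    rw [e, mul_smul] at h
    exact (smul_left_cancel _ h).symm
  have hcop : Nat.Coprime (j - i) p := by
    rw [Nat.coprime_comm, Nat.Prime.coprime_iff_not_dvd hp]
    intro hdvd
    have := Nat.le_of_dvd (by omega) hdvd
    omega
  obtain ⟨t, -, ht⟩ := Nat.exists_mul_mod_eq_one_of_coprime hcop hp.one_lt
  have h2 : σ ^ ((j - i) * t) ∈ MulAction.stabilizer G x₀ := by
    rw [pow_mul]
    exact Subgroup.pow_mem _ (MulAction.mem_stabilizer_iff.mpr h1) t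
  rw [← pow_mod_orderOf, hσ, ht, pow_one] at h2
  exact MulAction.mem_stabilizer_iff.mp h2

/-- The orbit of a point under an element of prime order `p` not fixing it has `p` points. -/
theorem prime_order_orbit_ncard [Finite α] (p : ℕ) (hp : p.Prime) (σ : G) (hσ : orderOf σ = p)
    (x₀ : α) (hmove : σ • x₀ ≠ x₀) : {y : α | ∃ k : ℕ, σ ^ k • x₀ = y}.ncard = p := by
  classical
  have hinj : Set.InjOn (fun i : ℕ => σ ^ i • x₀) (Finset.range p : Set ℕ) := by
    intro i hi j hj h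
    rw [Finset.coe_range, Set.mem_Iio] at hi hj
    rcases Nat.lt_trichotomy i j with hlt | heq | hgt
    · exact absurd h (prime_order_orbit_inj p hp σ hσ x₀ hmove i j hlt hj)
    · exact heq
    · exact absurd h.symm (prime_order_orbit_inj p hp σ hσ x₀ hmove j i hgt hi)
  have e : {y : α | ∃ k : ℕ, σ ^ k • x₀ = y}
      = (((Finset.range p).image (fun i : ℕ => σ ^ i • x₀) : Finset α) : Set α) := by
    ext y
    rw [Finset.mem_coe, Finset.mem_image]
    constructor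
    · rintro ⟨k, rfl⟩
      refine ⟨k % p, Finset.mem_range.mpr (Nat.mod_lt _ hp.pos), ?_⟩
      show σ ^ (k % p) • x₀ = σ ^ k • x₀
      rw [← hσ, pow_mod_orderOf]
    · rintro ⟨i, _, rfl⟩
      exact ⟨i, rfl⟩
  rw [e, Set.ncard_coe_finset, Finset.card_image_of_injOn hinj, Finset.card_range]

/-- Centraliser of an element of prime order `p` acting with two regular orbits. -/
theorem card_centralizer_dvd_of_two_orbits [Finite G] [Finite α] (s : Set α) (p : ℕ)
    (hp : p.Prime) (hs : s.ncard = 2 * p)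
    (hinv : ∀ g : G, ∀ x ∈ s, g • x ∈ s)
    (hfaith : ∀ g : G, (∀ x ∈ s, g • x = x) → g = 1)
    (hH : ∀ g : G, g ^ p = 1 → (∃ x ∈ s, g • x = x) → g = 1)
    (σ : G) (hσ : orderOf σ = p) :
    Nat.card (Subgroup.centralizer ({σ} : Set G)) ∣ p * 2 := by
  classical
  have hσp : σ ^ p = 1 := by
    rw [← hσ]
    exact pow_orderOf_eq_one σ
  have hσ1 : σ ≠ 1 := fun h => by
    rw [h, orderOf_one] at hσ
    have := hp.two_le
    omega
  have hmove : ∀ x ∈ s, σ • x ≠ x := fun x hx h => hσ1 (hH σ hσp ⟨x, hx, h⟩)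
  have hinvpow : ∀ b : ℕ, (σ ^ b)⁻¹ = σ ^ ((p - 1) * b) := by
    intro b
    rw [inv_eq_iff_mul_eq_one, ← pow_add]
    have e : b + (p - 1) * b = p * b := by
      have := hp.pos
      obtain ⟨r, hr⟩ : ∃ r, p = r + 1 := ⟨p - 1, by omega⟩
      rw [hr]
      simp only [Nat.add_sub_cancel]
      ring
    rw [e, pow_mul, hσp, one_pow]
  obtain ⟨x₀, hx₀⟩ : s.Nonempty := by
    rw [← Set.ncard_pos (Set.toFinite s), hs]
    have := hp.pos
    omega
  have hO1card := prime_order_orbit_ncard p hp σ hσ x₀ (hmove x₀ hx₀)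
  have hO1s : {y : α | ∃ k : ℕ, σ ^ k • x₀ = y} ⊆ s := by
    rintro y ⟨k, rfl⟩
    exact hinv _ _ hx₀
  have hdiffcard : (s \ {y : α | ∃ k : ℕ, σ ^ k • x₀ = y}).ncard = p := by
    rw [Set.ncard_sdiff hO1s (Set.toFinite _), hs, hO1card]
    omega
  obtain ⟨y₀, hy₀⟩ : (s \ {y : α | ∃ k : ℕ, σ ^ k • x₀ = y}).Nonempty := by
    rw [← Set.ncard_pos (Set.toFinite _), hdiffcard]
    exact hp.pos
  have hO2card := prime_order_orbit_ncard p hp σ hσ y₀ (hmove y₀ hy₀.1)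
  have hO2sub : {y : α | ∃ k : ℕ, σ ^ k • y₀ = y} ⊆ s \ {y : α | ∃ k : ℕ, σ ^ k • x₀ = y} := by
    rintro y ⟨k, rfl⟩
    refine ⟨hinv _ _ hy₀.1, ?_⟩
    rintro ⟨j, hj⟩
    apply hy₀.2
    refine ⟨j + (p - 1) * k, ?_⟩
    have e : σ ^ (j + (p - 1) * k) = (σ ^ k)⁻¹ * σ ^ j := by
      rw [hinvpow, ← pow_add, add_comm]
    rw [e, mul_smul, hj, inv_smul_smul]
  have hO2 : {y : α | ∃ k : ℕ, σ ^ k • y₀ = y} = s \ {y : α | ∃ k : ℕ, σ ^ k • x₀ = y} :=
    Set.eq_of_subset_of_ncard_le hO2sub (by rw [hdiffcard, hO2card]) (Set.toFinite _)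
  have hcover : ∀ y ∈ s, (∃ k : ℕ, σ ^ k • x₀ = y) ∨ (∃ k : ℕ, σ ^ k • y₀ = y) := by
    intro y hy
    by_cases h1 : ∃ k : ℕ, σ ^ k • x₀ = y
    · exact Or.inl h1
    · right
      have h2 : y ∈ s \ {y : α | ∃ k : ℕ, σ ^ k • x₀ = y} := ⟨hy, h1⟩
      rw [← hO2] at h2
      exact h2
  have hclaim : ∀ g : G, Commute σ g → (∃ j : ℕ, g • x₀ = σ ^ j • x₀) → g ∈ zpowers σ := by
    rintro g hcomm ⟨j, hj⟩
    have hcommh : Commute σ ((σ ^ j)⁻¹ * g) :=
      Commute.mul_right ((Commute.refl σ).pow_right j).inv_right hcomm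
    have hx : ((σ ^ j)⁻¹ * g) • x₀ = x₀ := by
      rw [mul_smul, hj, inv_smul_smul]
    have hfix1 : ∀ k : ℕ, ((σ ^ j)⁻¹ * g) • (σ ^ k • x₀) = σ ^ k • x₀ := by
      intro k
      rw [← mul_smul, ← (hcommh.pow_left k).eq, mul_smul, hx]
    have hy : ∃ b : ℕ, ((σ ^ j)⁻¹ * g) • y₀ = σ ^ b • y₀ := by
      rcases hcover _ (hinv ((σ ^ j)⁻¹ * g) y₀ hy₀.1) with ⟨k, hk⟩ | ⟨k, hk⟩
      · exfalso
        apply hy₀.2
        refine ⟨k, ?_⟩
        rw [← hfix1 k] at hk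
        exact smul_left_cancel _ hk
      · exact ⟨k, hk.symm⟩
    obtain ⟨b, hb⟩ := hy
    have hone : ((σ ^ j)⁻¹ * g) ^ p = 1 := by
      apply hfaith
      intro y hys
      have hcommu : Commute (σ ^ b) ((σ ^ b)⁻¹ * ((σ ^ j)⁻¹ * g)) :=
        Commute.mul_right (Commute.refl (σ ^ b)).inv_right (hcommh.pow_left b)
      have hdecomp : ((σ ^ j)⁻¹ * g) ^ p = ((σ ^ b)⁻¹ * ((σ ^ j)⁻¹ * g)) ^ p := by
        have e : (σ ^ j)⁻¹ * g = σ ^ b * ((σ ^ b)⁻¹ * ((σ ^ j)⁻¹ * g)) := by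
          rw [mul_inv_cancel_left]
        conv_lhs => rw [e]
        rw [hcommu.mul_pow, ← pow_mul, mul_comm b p, pow_mul, hσp, one_pow, one_mul]
      rcases hcover y hys with ⟨k, rfl⟩ | ⟨k, rfl⟩
      · exact MulAction.mem_stabilizer_iff.mp
          (Subgroup.pow_mem _ (MulAction.mem_stabilizer_iff.mpr (hfix1 k)) p)
      · rw [hdecomp]
        have h1 : ((σ ^ b)⁻¹ * ((σ ^ j)⁻¹ * g)) • (σ ^ k • y₀) = σ ^ k • y₀ := by
          have e1 : ((σ ^ j)⁻¹ * g) • (σ ^ k • y₀) = σ ^ k • (σ ^ b • y₀) := by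
            rw [← mul_smul, ← (hcommh.pow_left k).eq, mul_smul, hb]
          have e2 : (σ ^ b)⁻¹ * σ ^ k * σ ^ b = σ ^ k := by
            rw [mul_assoc, ← pow_add, add_comm, pow_add, inv_mul_cancel_left]
          rw [mul_smul, e1, ← mul_smul, ← mul_smul, e2]
        exact MulAction.mem_stabilizer_iff.mp
          (Subgroup.pow_mem _ (MulAction.mem_stabilizer_iff.mpr h1) p)
    have h1 := hH _ hone ⟨x₀, hx₀, hx⟩
    rw [inv_mul_eq_one] at h1
    rw [← h1]
    exact Subgroup.pow_mem _ (mem_zpowers σ) j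
  have hZC : zpowers σ ≤ centralizer ({σ} : Set G) := by
    rintro x ⟨i, rfl⟩
    rw [mem_centralizer_iff]
    intro h hh
    rw [Set.mem_singleton_iff] at hh
    subst hh
    exact ((Commute.refl h).zpow_right i).eq
  have hZcard : Nat.card (zpowers σ) = p := by
    rw [Nat.card_zpowers, hσ]
  obtain ⟨c, hc⟩ : p ∣ Nat.card (centralizer ({σ} : Set G)) := by
    have h := card_dvd_of_le hZC
    rwa [hZcard] at h
  by_cases hCZ : ∀ g ∈ centralizer ({σ} : Set G), g ∈ zpowers σ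
  · have e : centralizer ({σ} : Set G) = zpowers σ := le_antisymm hCZ hZC
    rw [e, hZcard]
    exact dvd_mul_right _ _
  · obtain ⟨g₀, hg₀⟩ : ∃ g₀, ¬ (g₀ ∈ centralizer ({σ} : Set G) → g₀ ∈ zpowers σ) :=
      not_forall.mp hCZ
    obtain ⟨hg₀C, hg₀Z⟩ := Classical.not_imp.mp hg₀
    have hcomm₀ : Commute σ g₀ := (mem_centralizer_iff.mp hg₀C) σ rfl
    have hsub : ((centralizer ({σ} : Set G) : Subgroup G) : Set G)
        ⊆ ((zpowers σ : Subgroup G) : Set G)
          ∪ (fun z => g₀ * z) '' ((zpowers σ : Subgroup G) : Set G) := by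
      intro g hg
      have hcomm : Commute σ g := (mem_centralizer_iff.mp hg) σ rfl
      by_cases hgZ : g ∈ zpowers σ
      · exact Or.inl hgZ
      · right
        refine ⟨g₀⁻¹ * g, ?_, mul_inv_cancel_left g₀ g⟩
        apply hclaim _ (Commute.mul_right hcomm₀.inv_right hcomm)
        have hg1 : ¬ ∃ j : ℕ, g • x₀ = σ ^ j • x₀ := fun h => hgZ (hclaim g hcomm h)
        have hg2 : ¬ ∃ j : ℕ, g₀ • x₀ = σ ^ j • x₀ := fun h => hg₀Z (hclaim g₀ hcomm₀ h)
        obtain ⟨a, ha⟩ : ∃ a : ℕ, σ ^ a • y₀ = g • x₀ := by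
          rcases hcover _ (hinv g x₀ hx₀) with ⟨k, hk⟩ | h
          · exact absurd ⟨k, hk.symm⟩ hg1
          · exact h
        obtain ⟨b, hb⟩ : ∃ b : ℕ, σ ^ b • y₀ = g₀ • x₀ := by
          rcases hcover _ (hinv g₀ x₀ hx₀) with ⟨k, hk⟩ | h
          · exact absurd ⟨k, hk.symm⟩ hg2
          · exact h
        refine ⟨a + (p - 1) * b, ?_⟩
        have hy : y₀ = (σ ^ b)⁻¹ • (g₀ • x₀) := by
          rw [← hb, inv_smul_smul]
        have hw : Commute (σ ^ a * (σ ^ b)⁻¹) g₀ :=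
          Commute.mul_left (hcomm₀.pow_left a) (hcomm₀.pow_left b).inv_left
        have e : g₀⁻¹ * σ ^ a * (σ ^ b)⁻¹ * g₀ = σ ^ (a + (p - 1) * b) := by
          calc g₀⁻¹ * σ ^ a * (σ ^ b)⁻¹ * g₀ = g₀⁻¹ * ((σ ^ a * (σ ^ b)⁻¹) * g₀) := by
                simp only [mul_assoc]
            _ = g₀⁻¹ * (g₀ * (σ ^ a * (σ ^ b)⁻¹)) := by rw [hw.eq]
            _ = σ ^ a * (σ ^ b)⁻¹ := by rw [inv_mul_cancel_left]
            _ = σ ^ (a + (p - 1) * b) := by rw [hinvpow, ← pow_add]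
        have e3 : (g₀⁻¹ * g) • x₀ = (g₀⁻¹ * σ ^ a * (σ ^ b)⁻¹ * g₀) • x₀ := by
          rw [mul_smul, ← ha, mul_smul, mul_smul, mul_smul, ← hy]
        rw [e3, e]
    have hle : Nat.card (centralizer ({σ} : Set G)) ≤ p + p := by
      have h1 := Set.ncard_le_ncard hsub (Set.toFinite _)
      have h2 := Set.ncard_union_le ((zpowers σ : Subgroup G) : Set G)
        ((fun z => g₀ * z) '' ((zpowers σ : Subgroup G) : Set G))
      have h3 := Set.ncard_image_le (f := fun z => g₀ * z)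
        (s := ((zpowers σ : Subgroup G) : Set G)) (Set.toFinite _)
      have h4 : ((zpowers σ : Subgroup G) : Set G).ncard = p := by
        rw [← hZcard]
        exact (Nat.card_coe_set_eq _)
      have h5 : ((centralizer ({σ} : Set G) : Subgroup G) : Set G).ncard
          = Nat.card (centralizer ({σ} : Set G)) := (Nat.card_coe_set_eq _)
      omega
    have hcpos : 0 < c := Nat.pos_of_ne_zero (fun h0 => by
      rw [h0, mul_zero] at hc
      exact (Nat.card_pos (α := centralizer ({σ} : Set G))).ne' hc)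
    rw [hc] at hle ⊢
    have hc2 : c ≤ 2 := by
      by_contra hcon
      have h3 : 3 ≤ c := by omega
      have : p * 3 ≤ p * c := Nat.mul_le_mul_left p h3
      have := hp.pos
      omega
    apply Nat.mul_dvd_mul_left
    interval_cases c <;> decide

end

end Cfsg.Agent.Helper1
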