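import Mathlib
import Cfsg.Agent.Helper1.Simple3
import Cfsg.Agent.Helper1.MathieuSimple2

set_option autoImplicit false
open scoped Pointwise

namespace Cfsg.Agent.Helper1.Golay

open Cfsg

theorem exists_embedding_five4 {α : Type*} [DecidableEq α] (d : Finset α) (hd : 5 ≤ d.card)
    (a₀ a₁ a₂ a₃ : α) (h₀ : a₀ ∈ d) (h₁ : a₁ ∈ d) (h₂ : a₂ ∈ d) (h₃ : a₃ ∈ d)
    (h01 : a₀ ≠ a₁) (h02 : a₀ ≠ a₂) (h03 : a₀ ≠ a₃) (h12 : a₁ ≠ a₂) (h13 : a₁ ≠ a₃)
    (h23 : a₂ ≠ a₃) :
    ∃ x : Fin 5 ↪ α, (∀ i, x i ∈ d) ∧ x 0 = a₀ ∧ x 1 = a₁ ∧ x 2 = a₂ ∧ x 3 = a₃ := by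
  have hcard : 0 < (d \ {a₀, a₁, a₂, a₃}).card := by
    have h3 : ({a₀, a₁, a₂, a₃} : Finset α).card ≤ 4 := Finset.card_le_four
    have h4 := Finset.le_card_sdiff {a₀, a₁, a₂, a₃} d
    omega
  obtain ⟨a₄, h4⟩ := Finset.card_pos.mp hcard
  simp only [Finset.mem_sdiff, Finset.mem_insert, Finset.mem_singleton, not_or] at h4
  obtain ⟨h4d, h40, h41, h42, h43⟩ := h4
  have hinj : Function.Injective ![a₀, a₁, a₂, a₃, a₄] := by
    rw [← List.nodup_ofFn]
    simp only [List.ofFn_succ, List.ofFn_zero]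
    simp [h01, h02, h03, h12, h13, h23, Ne.symm h40, Ne.symm h41, Ne.symm h42, Ne.symm h43]
  refine ⟨⟨![a₀, a₁, a₂, a₃, a₄], hinj⟩, ?_, rfl, rfl, rfl, rfl⟩
  intro i
  fin_cases i
  · exact h₀
  · exact h₁
  · exact h₂
  · exact h₃
  · exact h4d

theorem m24_four_trans (a b c e a' b' c' e' : GolayPt) (hab : a ≠ b) (hac : a ≠ c) (hae : a ≠ e)
    (hbc : b ≠ c) (hbe : b ≠ e) (hce : c ≠ e)
    (hab' : a' ≠ b') (hac' : a' ≠ c') (hae' : a' ≠ e') (hbc' : b' ≠ c') (hbe' : b' ≠ e')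
    (hce' : c' ≠ e') :
    ∃ g : M24, g • a = a' ∧ g • b = b' ∧ g • c = c' ∧ g • e = e' := by
  have h5 : 5 ≤ (Finset.univ : Finset GolayPt).card := by
    rw [Finset.card_univ, card_golayPt]
    norm_num
  obtain ⟨x, -, hx0, hx1, hx2, hx3⟩ := exists_embedding_five4 Finset.univ h5 a b c e
    (Finset.mem_univ _) (Finset.mem_univ _) (Finset.mem_univ _) (Finset.mem_univ _)
    hab hac hae hbc hbe hce
  obtain ⟨y, -, hy0, hy1, hy2, hy3⟩ := exists_embedding_five4 Finset.univ h5 a' b' c' e'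
    (Finset.mem_univ _) (Finset.mem_univ _) (Finset.mem_univ _) (Finset.mem_univ _)
    hab' hac' hae' hbc' hbe' hce'
  obtain ⟨g, hg⟩ := (MulAction.isMultiplyPretransitive_iff.mp M24_five_transitive) x y
  have h : ∀ i, g • x i = y i := fun i => by
    rw [← hg]
    rfl
  refine ⟨g, ?_, ?_, ?_, ?_⟩
  · rw [← hx0, ← hy0]
    exact h 0
  · rw [← hx1, ← hy1]
    exact h 1
  · rw [← hx2, ← hy2]
    exact h 2
  · rw [← hx3, ← hy3]
    exact h 3

theorem ncard_ne_two (p q : GolayPt) (hpq : p ≠ q) :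
    ({y : GolayPt | y ≠ p ∧ y ≠ q}).ncard = 22 := by
  have e : {y : GolayPt | y ≠ p ∧ y ≠ q}
      = ((((Finset.univ : Finset GolayPt).erase p).erase q : Finset GolayPt) : Set GolayPt) := by
    ext x
    simp only [Set.mem_ofPred_eq, Finset.coe_erase, Finset.coe_univ, Set.mem_sdiff, Set.mem_univ,
      Set.mem_singleton_iff, true_and]
  rw [e, Set.ncard_coe_finset, Finset.card_erase_of_mem (by simp [Ne.symm hpq]),
    Finset.card_erase_of_mem (Finset.mem_univ p), Finset.card_univ, card_golayPt]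

theorem card_stabilizer_three (p q x : GolayPt) (hpq : p ≠ q) (hxp : x ≠ p) (hxq : x ≠ q) :
    Nat.card ↥(MulAction.stabilizer M24 p ⊓ MulAction.stabilizer M24 q
      ⊓ MulAction.stabilizer M24 x) = 20160 := by
  have h := card_eq_ncard_mul (MulAction.stabilizer M24 p ⊓ MulAction.stabilizer M24 q) x
    {y | y ≠ p ∧ y ≠ q} (by
      intro y
      constructor
      · rintro ⟨hyp, hyq⟩
        obtain ⟨g, h0, h1, h2⟩ := m24_three_trans p q x p q y hpq (Ne.symm hxp) (Ne.symm hxq)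
          hpq (Ne.symm hyp) (Ne.symm hyq)
        exact ⟨g, Subgroup.mem_inf.mpr ⟨MulAction.mem_stabilizer_iff.mpr h0,
          MulAction.mem_stabilizer_iff.mpr h1⟩, h2⟩
      · rintro ⟨n, hn, rfl⟩
        rw [Subgroup.mem_inf, MulAction.mem_stabilizer_iff, MulAction.mem_stabilizer_iff] at hn
        constructor
        · intro h
          rw [← hn.1] at h
          exact hxp (smul_left_cancel _ h)
        · intro h
          rw [← hn.2] at h
          exact hxq (smul_left_cancel _ h))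
  rw [card_stabilizer_two p q hpq, ncard_ne_two p q hpq] at h
  omega

theorem m22_simple (p q : GolayPt) (hpq : p ≠ q) :
    IsSimpleGroup ↥(MulAction.stabilizer M24 p ⊓ MulAction.stabilizer M24 q) := by
  have hfact : Fact (Nat.Prime 11) := ⟨by norm_num⟩
  have hcardG := card_stabilizer_two p q hpq
  have hs := ncard_ne_two p q hpq
  have hinv : ∀ g : ↥(MulAction.stabilizer M24 p ⊓ MulAction.stabilizer M24 q),
      ∀ x ∈ {y : GolayPt | y ≠ p ∧ y ≠ q}, g • x ∈ {y : GolayPt | y ≠ p ∧ y ≠ q} := by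
    intro g x hx
    have hg := g.2
    rw [Subgroup.mem_inf, MulAction.mem_stabilizer_iff, MulAction.mem_stabilizer_iff] at hg
    constructor
    · intro h
      have h' : (g : M24) • x = (g : M24) • p := by
        rw [hg.1]
        exact h
      exact hx.1 (smul_left_cancel _ h')
    · intro h
      have h' : (g : M24) • x = (g : M24) • q := by
        rw [hg.2]
        exact h
      exact hx.2 (smul_left_cancel _ h')
  have hfaith : ∀ g : ↥(MulAction.stabilizer M24 p ⊓ MulAction.stabilizer M24 q),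
      (∀ x ∈ {y : GolayPt | y ≠ p ∧ y ≠ q}, g • x = x) → g = 1 := by
    intro g hg
    have hgp := g.2
    rw [Subgroup.mem_inf, MulAction.mem_stabilizer_iff, MulAction.mem_stabilizer_iff] at hgp
    apply Subtype.ext
    apply Subtype.ext
    apply Equiv.ext
    intro x
    show ((g : M24) : Equiv.Perm GolayPt) x = x
    by_cases hxp : x = p
    · rw [hxp]
      exact hgp.1
    · by_cases hxq : x = q
      · rw [hxq]
        exact hgp.2
      · exact hg x ⟨hxp, hxq⟩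
  have h2 : ∀ a ∈ {y : GolayPt | y ≠ p ∧ y ≠ q}, ∀ b ∈ {y : GolayPt | y ≠ p ∧ y ≠ q}, a ≠ b →
      ∀ a' ∈ {y : GolayPt | y ≠ p ∧ y ≠ q}, ∀ b' ∈ {y : GolayPt | y ≠ p ∧ y ≠ q}, a' ≠ b' →
      ∃ g : ↥(MulAction.stabilizer M24 p ⊓ MulAction.stabilizer M24 q), g • a = a' ∧ g • b = b' := by
    intro a ha b hb hab a' ha' b' hb' hab'
    obtain ⟨g, h0, h1, h2, h3⟩ := m24_four_trans p q a b p q a' b' hpq (Ne.symm ha.1)
      (Ne.symm hb.1) (Ne.symm ha.2) (Ne.symm hb.2) hab hpq (Ne.symm ha'.1) (Ne.symm hb'.1)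
      (Ne.symm ha'.2) (Ne.symm hb'.2) hab'
    exact ⟨⟨g, Subgroup.mem_inf.mpr ⟨MulAction.mem_stabilizer_iff.mpr h0,
      MulAction.mem_stabilizer_iff.mpr h1⟩⟩, h2, h3⟩
  obtain ⟨σ, hσ⟩ := exists_prime_orderOf_dvd_card'
    (G := ↥(MulAction.stabilizer M24 p ⊓ MulAction.stabilizer M24 q)) 11
    (by rw [hcardG]; norm_num)
  refine simple_of_sylow_prime 11 40320 2 (by rw [hcardG]) (by norm_num) σ hσ ?_ ?_ ?_ ?_
  · refine card_centralizer_dvd_of_two_orbits {y : GolayPt | y ≠ p ∧ y ≠ q} 11 (by norm_num) hs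
      hinv hfaith ?_ σ hσ
    rintro g hg ⟨x, hx, hgx⟩
    have h3 := card_stabilizer_three p q x hpq hx.1 hx.2
    have hmem : (g : M24) ∈ MulAction.stabilizer M24 p ⊓ MulAction.stabilizer M24 q
        ⊓ MulAction.stabilizer M24 x := Subgroup.mem_inf.mpr ⟨g.2, hgx⟩
    have ho1 : orderOf (g : M24) ∣ 20160 := by
      have h := orderOf_dvd_natCard (⟨(g : M24), hmem⟩ :
        ↥(MulAction.stabilizer M24 p ⊓ MulAction.stabilizer M24 q ⊓ MulAction.stabilizer M24 x))
      rwa [Subgroup.orderOf_mk, h3] at h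
    have ho2 : orderOf (g : M24) ∣ 11 := by
      rw [Subgroup.orderOf_coe]
      exact orderOf_dvd_of_pow_eq_one hg
    have ho3 : orderOf (g : M24) = 1 := by
      have h := Nat.dvd_gcd ho1 ho2
      have e : Nat.gcd 20160 11 = 1 := by norm_num
      rw [e] at h
      exact Nat.dvd_one.mp h
    exact Subtype.ext (orderOf_eq_one_iff.mp ho3)
  · intro N hN hbot
    have h := ncard_dvd_card_of_normal {y : GolayPt | y ≠ p ∧ y ≠ q} hinv hfaith h2 N hN hbot
    rw [hs] at h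
    exact dvd_trans (by norm_num) h
  · intro c k hc hk hmod
    have hc' : c ≤ 2 := Nat.le_of_dvd (by norm_num) hc
    have hk' : k ≤ 10 := Nat.le_of_dvd (by norm_num) hk
    interval_cases c <;> interval_cases k <;> revert hc hk hmod <;> decide
  · rw [hcardG]
    norm_num

end Cfsg.Agent.Helper1.Golay
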