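import Mathlib
import Cfsg.Agent.Helper1.Orb1561
import Cfsg.Agent.Helper1.GolayOrb2

set_option autoImplicit false

namespace Cfsg.Agent.Helper1.Golay

open Cfsg
open scoped Pointwise

theorem reach1561_4 (c : ℕ) (hc : c < 4096) (hp : popc (comb c) = 12)
    (hk : popc (comb c &&& comb 1) = 4) : ReachIn (cfgStab [1] []) 24 c := by
  have h1 := List.all_eq_true.mp cover1561_4 c (List.mem_range.mpr hc)
  rw [hp, hk] at h1
  simp only [Nat.beq_refl, Bool.and_self, cond_true] at h1
  rw [← walk1561_4] at h1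
  exact orbit_reach [1] [] (by simp) ws1561 gens1561 24 cert1561_4 c h1

theorem reach1561_6 (c : ℕ) (hc : c < 4096) (hp : popc (comb c) = 12)
    (hk : popc (comb c &&& comb 1) = 6) : ReachIn (cfgStab [1] []) 2 c := by
  have h1 := List.all_eq_true.mp cover1561_6 c (List.mem_range.mpr hc)
  rw [hp, hk] at h1
  simp only [Nat.beq_refl, Bool.and_self, cond_true] at h1
  rw [← walk1561_6] at h1
  exact orbit_reach [1] [] (by simp) ws1561 gens1561 2 cert1561_6 c h1

theorem reach1561_8 (c : ℕ) (hc : c < 4096) (hp : popc (comb c) = 12)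
    (hk : popc (comb c &&& comb 1) = 8) : ReachIn (cfgStab [1] []) 14 c := by
  have h1 := List.all_eq_true.mp cover1561_8 c (List.mem_range.mpr hc)
  rw [hp, hk] at h1
  simp only [Nat.beq_refl, Bool.and_self, cond_true] at h1
  rw [← walk1561_8] at h1
  exact orbit_reach [1] [] (by simp) ws1561 gens1561 14 cert1561_8 c h1

theorem base1561 (c' c'' : ℕ) (hc' : c' < 4096) (hc'' : c'' < 4096) (hp' : popc (comb c') = 12)
    (hp'' : popc (comb c'') = 12)
    (h : popc (comb 1 &&& comb c') = popc (comb 1 &&& comb c'')) :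
    ReachIn (cfgStab [1] []) c' c'' := by
  have ht' := List.all_eq_true.mp types1561 c' (List.mem_range.mpr hc')
  have ht'' := List.all_eq_true.mp types1561 c'' (List.mem_range.mpr hc'')
  rw [hp'] at ht'
  rw [hp''] at ht''
  rw [Nat.land_comm (comb 1) (comb c'), Nat.land_comm (comb 1) (comb c'')] at h
  simp only [Nat.beq_refl, cond_true, Bool.or_eq_true] at ht' ht''
  have h11 : popc (comb 1 &&& comb 1) = 12 := by decide
  have h21 : popc (comb 2049 &&& comb 1) = 0 := by decide
  rcases ht' with (((h4 | h6) | h8) | ha) | hb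
  · have e := Nat.eq_of_beq_eq_true h4
    exact reachIn_pair (reach1561_4 c' hc' hp' e) (reach1561_4 c'' hc'' hp'' (by rw [← h, e]))
  · have e := Nat.eq_of_beq_eq_true h6
    exact reachIn_pair (reach1561_6 c' hc' hp' e) (reach1561_6 c'' hc'' hp'' (by rw [← h, e]))
  · have e := Nat.eq_of_beq_eq_true h8
    exact reachIn_pair (reach1561_8 c' hc' hp' e) (reach1561_8 c'' hc'' hp'' (by rw [← h, e]))
  · have e := Nat.eq_of_beq_eq_true ha
    rw [e, h11] at h
    rcases ht'' with (((h4 | h6) | h8) | ha') | hb'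
    · have e2 := Nat.eq_of_beq_eq_true h4
      omega
    · have e2 := Nat.eq_of_beq_eq_true h6
      omega
    · have e2 := Nat.eq_of_beq_eq_true h8
      omega
    · have e2 := Nat.eq_of_beq_eq_true ha'
      rw [e, e2]
      exact reachIn_refl _ _
    · have e2 := Nat.eq_of_beq_eq_true hb'
      rw [e2, h21] at h
      omega
  · have e := Nat.eq_of_beq_eq_true hb
    rw [e, h21] at h
    rcases ht'' with (((h4 | h6) | h8) | ha') | hb'
    · have e2 := Nat.eq_of_beq_eq_true h4
      omega
    · have e2 := Nat.eq_of_beq_eq_true h6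
      omega
    · have e2 := Nat.eq_of_beq_eq_true h8
      omega
    · have e2 := Nat.eq_of_beq_eq_true ha'
      rw [e2, h11] at h
      omega
    · have e2 := Nat.eq_of_beq_eq_true hb'
      rw [e, e2]
      exact reachIn_refl _ _

theorem dodecad_stab_trans2 (d d' d'' : Finset GolayPt) (hd : d ∈ dodecads) (hd' : d' ∈ dodecads)
    (hd'' : d'' ∈ dodecads) (h : (d ∩ d').card = (d ∩ d'').card) :
    ∃ g : Equiv.Perm GolayPt, g ∈ M24 ∧ g • d = d ∧ g • d' = d'' :=
  stab_trans_of_base 12 12 1 base1561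
    (fun o ho => dodecads_transitive o _ ho baseDodecad_mem) d d' d'' hd hd' hd'' h

end Cfsg.Agent.Helper1.Golay
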