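import Mathlib
import Cfsg.Agent.Helper1.Maximal2
import Cfsg.Agent.Helper1.Orb1561b
import Cfsg.Agent.Helper1.GolayMeet

set_option autoImplicit false

namespace Cfsg.Agent.Helper1.Golay

open Cfsg Cfsg.Agent.Helper1
open scoped Pointwise

theorem smul_compl_finset {G α : Type*} [Group G] [Fintype α] [DecidableEq α] [MulAction G α]
    (g : G) (s : Finset α) : g • sᶜ = (g • s)ᶜ := by
  ext x
  rw [← Finset.inv_smul_mem_iff, Finset.mem_compl, Finset.mem_compl, ← Finset.inv_smul_mem_iff]

theorem dodecad_ne_compl (d : Finset GolayPt) (hd : d ∈ dodecads) : d ≠ dᶜ := by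
  intro h
  have h1 : (d ∩ dᶜ).card = 0 := by
    rw [Finset.inter_compl, Finset.card_empty]
  rw [← h, Finset.inter_self, hd.2] at h1
  omega

theorem mem_stab_pair_of_fix (d : Finset GolayPt) (g : M24) (h : g • d = d) :
    g ∈ MulAction.stabilizer M24 ({d, dᶜ} : Finset (Finset GolayPt)) := by
  rw [MulAction.mem_stabilizer_iff, Finset.smul_finset_insert, Finset.smul_finset_singleton,
    smul_compl_finset, h]

theorem mem_stab_pair_of_swap (d : Finset GolayPt) (g : M24) (h : g • d = dᶜ) :
    g ∈ MulAction.stabilizer M24 ({d, dᶜ} : Finset (Finset GolayPt)) := by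
  rw [MulAction.mem_stabilizer_iff, Finset.smul_finset_insert, Finset.smul_finset_singleton,
    smul_compl_finset, h, compl_compl, Finset.pair_comm]

theorem smul_eq_of_mem_stab_pair (d : Finset GolayPt) (g : M24)
    (h : g ∈ MulAction.stabilizer M24 ({d, dᶜ} : Finset (Finset GolayPt))) :
    g • d = d ∨ g • d = dᶜ := by
  rw [MulAction.mem_stabilizer_iff] at h
  have h1 : g • d ∈ g • ({d, dᶜ} : Finset (Finset GolayPt)) :=
    Finset.smul_mem_smul_finset (Finset.mem_insert_self _ _)
  rw [h, Finset.mem_insert, Finset.mem_singleton] at h1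
  exact h1

theorem card_inter_compl_dodecad {d x : Finset GolayPt} (hx : x ∈ dodecads) :
    (dᶜ ∩ x).card = 12 - (d ∩ x).card := by
  have h := Finset.card_inter_add_card_sdiff x d
  have e : x \ d = dᶜ ∩ x := by
    ext y
    simp only [Finset.mem_sdiff, Finset.mem_inter, Finset.mem_compl]
    tauto
  rw [e, hx.2, Finset.inter_comm] at h
  omega

/-- The stabiliser of a complementary pair of dodecads is maximal. -/
theorem dodecad_pair_stabilizer_isCoatom (d : Finset GolayPt) (hd : d ∈ dodecads) :
    IsCoatom (MulAction.stabilizer M24 ({d, dᶜ} : Finset (Finset GolayPt))) := by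
  have hc : (d ∩ d).card = 12 := by rw [Finset.inter_self]; exact hd.2
  have horb : ∀ i : ℕ, {x | x ∈ MulAction.orbit M24 d ∧ (d ∩ x).card = i}
      = {x | x ∈ dodecads ∧ (d ∩ x).card = i} := by
    intro i
    ext x
    simp only [Set.mem_ofPred_eq, orbit_dodecad d hd]
  have h2 : ∀ i ∈ ({0, 32, 36} : Finset ℕ),
      {x | x ∈ MulAction.orbit M24 d ∧ (d ∩ x).card * (12 - (d ∩ x).card) = i}.ncard
        = (fun i => if i = 0 then 2 else if i = 32 then 990 else 1584) i := by
    intro i hi
    simp only [Finset.mem_insert, Finset.mem_singleton] at hi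
    rcases hi with rfl | rfl | rfl
    · have e : {x | x ∈ MulAction.orbit M24 d ∧ (d ∩ x).card * (12 - (d ∩ x).card) = 0}
          = {d, dᶜ} := by
        ext x
        simp only [Set.mem_ofPred_eq, orbit_dodecad d hd, Set.mem_insert_iff,
          Set.mem_singleton_iff]
        constructor
        · rintro ⟨hx, h0⟩
          rcases dodecad_meet_cases hd hx with h | h | h | h | h
          · exact Or.inr (dodecad_meet_zero hd hx h)
          · rw [h] at h0; omega
          · rw [h] at h0; omega
          · rw [h] at h0; omega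
          · exact Or.inl (dodecad_meet_twelve hd hx h)
        · rintro (rfl | rfl)
          · exact ⟨hd, by rw [hc]⟩
          · exact ⟨dodecad_compl hd, by rw [Finset.inter_compl, Finset.card_empty, zero_mul]⟩
      rw [e, Set.ncard_pair (dodecad_ne_compl d hd)]
      simp
    · have e : {x | x ∈ MulAction.orbit M24 d ∧ (d ∩ x).card * (12 - (d ∩ x).card) = 32}
          = {x | x ∈ dodecads ∧ (d ∩ x).card = 4} ∪ {x | x ∈ dodecads ∧ (d ∩ x).card = 8} := by
        ext x
        simp only [Set.mem_ofPred_eq, orbit_dodecad d hd, Set.mem_union]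
        constructor
        · rintro ⟨hx, h0⟩
          rcases dodecad_meet_cases hd hx with h | h | h | h | h
          · rw [h] at h0; omega
          · exact Or.inl ⟨hx, h⟩
          · rw [h] at h0; omega
          · exact Or.inr ⟨hx, h⟩
          · rw [h] at h0; omega
        · rintro (⟨hx, h⟩ | ⟨hx, h⟩)
          · exact ⟨hx, by rw [h]⟩
          · exact ⟨hx, by rw [h]⟩
      have hdisj : Disjoint {x | x ∈ dodecads ∧ (d ∩ x).card = 4}
          {x | x ∈ dodecads ∧ (d ∩ x).card = 8} := by
        rw [Set.disjoint_left]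
        rintro x ⟨_, hx1⟩ ⟨_, hx2⟩
        omega
      rw [e, Set.ncard_union_eq hdisj (Set.toFinite _) (Set.toFinite _),
        dodecad_meet_four_count d hd, dodecad_meet_eight_count d hd]
      simp
    · have e : {x | x ∈ MulAction.orbit M24 d ∧ (d ∩ x).card * (12 - (d ∩ x).card) = 36}
          = {x | x ∈ dodecads ∧ (d ∩ x).card = 6} := by
        ext x
        simp only [Set.mem_ofPred_eq, orbit_dodecad d hd]
        constructor
        · rintro ⟨hx, h0⟩
          rcases dodecad_meet_cases hd hx with h | h | h | h | h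
          · rw [h] at h0; omega
          · rw [h] at h0; omega
          · exact ⟨hx, h⟩
          · rw [h] at h0; omega
          · rw [h] at h0; omega
        · rintro ⟨hx, h⟩
          exact ⟨hx, by rw [h]⟩
      rw [e, dodecad_meet_six_count d hd]
      simp
  refine isCoatom_of_orbit_sizes d (MulAction.stabilizer M24 ({d, dᶜ} : Finset (Finset GolayPt)))
    ?_ (fun x => (d ∩ x).card * (12 - (d ∩ x).card)) ({0, 32, 36} : Finset ℕ)
    (fun i => if i = 0 then 2 else if i = 32 then 990 else 1584)
    ?_ h2 ?_ ?_ ?_ ?_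
  · intro g hg
    exact mem_stab_pair_of_fix d g hg
  · intro g
    simp only [Finset.mem_insert, Finset.mem_singleton]
    rcases dodecad_meet_cases hd (smul_dodecad g hd) with h | h | h | h | h <;> rw [h] <;> omega
  · intro g hg
    simp only [hc] at hg
    rcases dodecad_meet_cases hd (smul_dodecad g hd) with h | h | h | h | h
    · exact mem_stab_pair_of_swap d g (dodecad_meet_zero hd (smul_dodecad g hd) h)
    · rw [h] at hg; omega
    · rw [h] at hg; omega
    · rw [h] at hg; omega
    · exact mem_stab_pair_of_fix d g (dodecad_meet_twelve hd (smul_dodecad g hd) h)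
  · intro g g' hgg
    have hgg' : (d ∩ g • d).card * (12 - (d ∩ g • d).card)
        = (d ∩ g' • d).card * (12 - (d ∩ g' • d).card) := hgg
    have hcases : (d ∩ g • d).card = (d ∩ g' • d).card
        ∨ (d ∩ g' • d).card = 12 - (d ∩ g • d).card := by
      rcases dodecad_meet_cases hd (smul_dodecad g hd) with h | h | h | h | h <;>
      rcases dodecad_meet_cases hd (smul_dodecad g' hd) with h' | h' | h' | h' | h' <;>
      rw [h, h'] at hgg' ⊢ <;> omega
    rcases hcases with he | he
    · obtain ⟨h, hh, h1, h2⟩ := dodecad_stab_trans2 d (g • d) (g' • d) hd (smul_dodecad g hd)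
        (smul_dodecad g' hd) he
      exact ⟨⟨h, hh⟩, mem_stab_pair_of_fix d ⟨h, hh⟩ h1, h2⟩
    · obtain ⟨τ, hτ⟩ := dodecads_transitive d dᶜ hd (dodecad_compl hd)
      have hτc : τ • dᶜ = d := by rw [smul_compl_finset, hτ, compl_compl]
      have e1 : (d ∩ τ • g • d).card = (d ∩ g' • d).card := by
        rw [he, ← card_inter_compl_dodecad (smul_dodecad g hd),
          ← Finset.card_smul_finset τ (dᶜ ∩ g • d), Finset.smul_finset_inter, hτc]
      obtain ⟨h, hh, h1, h2⟩ := dodecad_stab_trans2 d (τ • g • d) (g' • d) hd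
        (smul_dodecad τ (smul_dodecad g hd)) (smul_dodecad g' hd) e1
      refine ⟨⟨h, hh⟩ * τ, Subgroup.mul_mem _ (mem_stab_pair_of_fix d ⟨h, hh⟩ h1)
        (mem_stab_pair_of_swap d τ hτ), ?_⟩
      rw [mul_smul]
      exact h2
  · intro I hI h8 hdv
    simp only [hc] at h8 ⊢
    revert I
    decide
  · intro htop
    have h0 := h2 36 (by decide)
    have hne : {x | x ∈ MulAction.orbit M24 d
        ∧ (d ∩ x).card * (12 - (d ∩ x).card) = 36}.Nonempty := by
      rw [← Set.ncard_pos (Set.toFinite _), h0]
      norm_num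
    obtain ⟨x, ⟨g, rfl⟩, hx⟩ := hne
    have hg : g ∈ MulAction.stabilizer M24 ({d, dᶜ} : Finset (Finset GolayPt)) := by
      rw [htop]; exact Subgroup.mem_top g
    have hx' : (d ∩ g • d).card * (12 - (d ∩ g • d).card) = 36 := hx
    rcases smul_eq_of_mem_stab_pair d g hg with h | h
    · rw [h, hc] at hx'
      omega
    · rw [h, Finset.inter_compl, Finset.card_empty] at hx'
      omega

end Cfsg.Agent.Helper1.Golay
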