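import Mathlib
import Cfsg.Agent.Helper1.Triad

set_option autoImplicit false

namespace Cfsg.Agent.Helper1.Golay

open Cfsg Cfsg.Agent.Helper1
open scoped Pointwise

open Classical in
/-- The type of a triad `x` relative to a triad `s`: the size of the intersection if they
meet, `4` if they are disjoint and lie in a common octad, `0` otherwise. -/
noncomputable def triadType (s x : Finset GolayPt) : ℕ :=
  if (s ∩ x).card = 0 then (if ∃ o ∈ octads, s ∪ x ⊆ o then 4 else 0) else (s ∩ x).card

theorem triadType_eq_iff (s x : Finset GolayPt) (i : ℕ) (hi : i = 1 ∨ i = 2 ∨ i = 3) :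
    triadType s x = i ↔ (s ∩ x).card = i := by
  unfold triadType
  split_ifs with h1 h2
  · omega
  · omega
  · exact Iff.rfl

theorem triadType_eq_four (s x : Finset GolayPt) (hle : (s ∩ x).card ≤ 3) :
    triadType s x = 4 ↔ (s ∩ x).card = 0 ∧ ∃ o ∈ octads, s ∪ x ⊆ o := by
  unfold triadType
  split_ifs with h1 h2
  · exact iff_of_true rfl ⟨h1, h2⟩
  · exact iff_of_false (by decide) (fun h => h2 h.2)
  · exact iff_of_false (by omega) (fun h => h1 h.1)

theorem triadType_eq_zero (s x : Finset GolayPt) :
    triadType s x = 0 ↔ (s ∩ x).card = 0 ∧ ¬ ∃ o ∈ octads, s ∪ x ⊆ o := by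
  unfold triadType
  split_ifs with h1 h2
  · exact iff_of_false (by decide) (fun h => h.2 h2)
  · exact iff_of_true rfl ⟨h1, h2⟩
  · exact iff_of_false h1 (fun h => h1 h.1)

/-- The stabiliser of a set of three points is maximal. -/
theorem triad_stabilizer_isCoatom (s : Finset GolayPt) (hs : s.card = 3) :
    IsCoatom (MulAction.stabilizer M24 s) := by
  have hc : (s ∩ s).card = 3 := by rw [Finset.inter_self]; exact hs
  have hcs : triadType s s = 3 := (triadType_eq_iff s s 3 (by norm_num)).mpr hc
  have hle : ∀ x : Finset GolayPt, (s ∩ x).card ≤ 3 := fun x => by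
    rw [← hs]
    exact Finset.card_le_card Finset.inter_subset_left
  have horb : ∀ x : Finset GolayPt, x ∈ MulAction.orbit M24 s ↔ x.card = 3 := by
    intro x
    constructor
    · rintro ⟨g, rfl⟩
      show (g • s).card = 3
      rw [card_smul_m24, hs]
    · intro hx
      obtain ⟨g, -, hg⟩ := m24_pair_trans ∅ s x (by rw [Finset.empty_union, hs]; norm_num)
        (by rw [hs, hx]) (by simp)
      exact ⟨g, hg⟩
  have h2 : ∀ i ∈ ({3, 2, 1, 4, 0} : Finset ℕ),
      {x | x ∈ MulAction.orbit M24 s ∧ triadType s x = i}.ncard
        = (fun i => if i = 3 then 1 else if i = 2 then 63 else if i = 1 then 630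
            else if i = 4 then 210 else 1120) i := by
    intro i hi
    simp only [Finset.mem_insert, Finset.mem_singleton] at hi
    rcases hi with rfl | rfl | rfl | rfl | rfl
    · have e : {x | x ∈ MulAction.orbit M24 s ∧ triadType s x = 3}
          = {x : Finset GolayPt | x.card = 3 ∧ (s ∩ x).card = 3} := by
        ext x
        simp only [Set.mem_ofPred_eq, horb, triadType_eq_iff s x 3 (by norm_num)]
      rw [e, ncard_inter_eq s 3 3 le_rfl, hs, card_golayPt]
      decide
    · have e : {x | x ∈ MulAction.orbit M24 s ∧ triadType s x = 2}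
          = {x : Finset GolayPt | x.card = 3 ∧ (s ∩ x).card = 2} := by
        ext x
        simp only [Set.mem_ofPred_eq, horb, triadType_eq_iff s x 2 (by norm_num)]
      rw [e, ncard_inter_eq s 3 2 (by norm_num), hs, card_golayPt]
      decide
    · have e : {x | x ∈ MulAction.orbit M24 s ∧ triadType s x = 1}
          = {x : Finset GolayPt | x.card = 3 ∧ (s ∩ x).card = 1} := by
        ext x
        simp only [Set.mem_ofPred_eq, horb, triadType_eq_iff s x 1 (by norm_num)]
      rw [e, ncard_inter_eq s 3 1 (by norm_num), hs, card_golayPt]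
      decide
    · have e : {x | x ∈ MulAction.orbit M24 s ∧ triadType s x = 4}
          = {U : Finset GolayPt | U.card = 3 ∧ Disjoint s U ∧ (∃ o ∈ octads, s ∪ U ⊆ o)} := by
        ext x
        simp only [Set.mem_ofPred_eq, horb, triadType_eq_four s x (hle x), Finset.card_eq_zero,
          ← Finset.disjoint_iff_inter_eq_empty]
      rw [e, triad_octad_count s hs]
      rfl
    · have e : {x | x ∈ MulAction.orbit M24 s ∧ triadType s x = 0}
          = {U : Finset GolayPt | U.card = 3 ∧ Disjoint s U
              ∧ ¬ (∃ o ∈ octads, s ∪ U ⊆ o)} := by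
        ext x
        simp only [Set.mem_ofPred_eq, horb, triadType_eq_zero s x, Finset.card_eq_zero,
          ← Finset.disjoint_iff_inter_eq_empty]
      rw [e, triad_nonoctad_count s hs]
      rfl
  refine isCoatom_of_orbit_sizes s (MulAction.stabilizer M24 s) le_rfl
    (fun x => triadType s x) ({3, 2, 1, 4, 0} : Finset ℕ)
    (fun i => if i = 3 then 1 else if i = 2 then 63 else if i = 1 then 630
            else if i = 4 then 210 else 1120)
    ?_ h2 ?_ ?_ ?_ ?_
  · intro g
    have h := hle (g • s)
    simp only [Finset.mem_insert, Finset.mem_singleton]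
    unfold triadType
    split_ifs <;> omega
  · intro g hg
    have hg' : triadType s (g • s) = 3 := by rw [← hcs]; exact hg
    rw [triadType_eq_iff s _ 3 (by norm_num)] at hg'
    have h1 : s ∩ g • s = s :=
      Finset.eq_of_subset_of_card_le Finset.inter_subset_left (by rw [hg', hs])
    have h2 : s ∩ g • s = g • s :=
      Finset.eq_of_subset_of_card_le Finset.inter_subset_right (by rw [hg', card_smul_m24, hs])
    rw [MulAction.mem_stabilizer_iff, ← h2, h1]
  · intro g g' hgg
    have hgg' : triadType s (g • s) = triadType s (g' • s) := hgg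
    have hl := hle (g • s)
    have hl' := hle (g' • s)
    by_cases ha : (s ∩ g • s).card = 0
    · have ha' : (s ∩ g' • s).card = 0 := by
        by_contra hne
        unfold triadType at hgg'
        rw [if_pos ha, if_neg hne] at hgg'
        split_ifs at hgg' <;> omega
      have hiff : (∃ o ∈ octads, s ∪ g • s ⊆ o) ↔ (∃ o ∈ octads, s ∪ g' • s ⊆ o) := by
        unfold triadType at hgg'
        rw [if_pos ha, if_pos ha'] at hgg'
        by_cases h1 : ∃ o ∈ octads, s ∪ g • s ⊆ o <;>
          by_cases h2 : ∃ o ∈ octads, s ∪ g' • s ⊆ o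
        · exact iff_of_true h1 h2
        · rw [if_pos h1, if_neg h2] at hgg'
          omega
        · rw [if_neg h1, if_pos h2] at hgg'
          omega
        · exact iff_of_false h1 h2
      obtain ⟨h, hh, hhs, hhx⟩ := triad_trans s (g • s) (g' • s) hs
        (by rw [card_smul_m24, hs]) (by rw [card_smul_m24, hs])
        (Finset.disjoint_iff_inter_eq_empty.mpr (Finset.card_eq_zero.mp ha))
        (Finset.disjoint_iff_inter_eq_empty.mpr (Finset.card_eq_zero.mp ha')) hiff
      exact ⟨⟨h, hh⟩, hhs, hhx⟩
    · have ha' : (s ∩ g • s).card = (s ∩ g' • s).card := by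
        unfold triadType at hgg'
        rw [if_neg ha] at hgg'
        split_ifs at hgg' <;> omega
      have hu : (s ∪ g • s).card ≤ 5 := by
        have := Finset.card_union_add_card_inter s (g • s)
        rw [card_smul_m24, hs] at this
        omega
      obtain ⟨h, h1, h2⟩ := m24_pair_trans s (g • s) (g' • s) hu
        (by rw [card_smul_m24, card_smul_m24]) ha'
      exact ⟨h, h1, h2⟩
  · intro I hI h8 hd
    simp only [hcs] at h8 ⊢
    revert I
    decide
  · intro htop
    have h0 := h2 0 (by decide)
    have hne : {x | x ∈ MulAction.orbit M24 s ∧ triadType s x = 0}.Nonempty := by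
      rw [← Set.ncard_pos (Set.toFinite _), h0]
      norm_num
    obtain ⟨x, ⟨g, rfl⟩, hx⟩ := hne
    have hg : g ∈ MulAction.stabilizer M24 s := by rw [htop]; exact Subgroup.mem_top g
    rw [MulAction.mem_stabilizer_iff] at hg
    have hx' : triadType s (g • s) = 0 := hx
    rw [hg, hcs] at hx'
    omega

end Cfsg.Agent.Helper1.Golay
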