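import Mathlib
import Cfsg.Agent.Helper1.OctadA8

set_option autoImplicit false

namespace Cfsg.Agent.Helper1.Golay

open Cfsg Cfsg.Agent.Helper1
open scoped Pointwise

/-- An element fixing an octad pointwise and a further point is trivial. -/
theorem fixGrp_rigid' (o : Finset GolayPt) (ho : o ∈ octads) (p : GolayPt) (hp : p ∉ o)
    {g : Equiv.Perm GolayPt} (hg : g ∈ fixGrp o) (hgp : g p = p) : g = 1 := by
  obtain ⟨t, ht, hto, htp⟩ := flag_out o ho p hp
  have ho' : t⁻¹ • support₂ (ofBits (comb 15)) = o := by rw [← hto, inv_smul_smul]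
  have h1 : g ∈ fixGrp (t⁻¹ • support₂ (ofBits (comb 15))) := by rw [ho']; exact hg
  have h2 := conj_mem_fixGrp (M24.inv_mem ht) h1
  rw [inv_inv] at h2
  have h3 : (t * g * t⁻¹) (unpos 1) = unpos 1 := by
    rw [Equiv.Perm.mul_apply, Equiv.Perm.mul_apply, perm_eq_inv_of_apply t htp, hgp, htp]
  have h4 := fixGrp_rigid h2 h3
  have h5 : g = t⁻¹ * (t * g * t⁻¹) * t := by group
  rw [h5, h4]
  group

/-- The pointwise stabiliser of an octad is transitive on the points outside it. -/
theorem fixGrp_trans (o : Finset GolayPt) (ho : o ∈ octads) (p q : GolayPt) (hp : p ∉ o)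
    (hq : q ∉ o) : ∃ k ∈ fixGrp o, k p = q := by
  obtain ⟨t, ht, hto, htp⟩ := flag_out o ho p hp
  have htq : t q ∉ support₂ (ofBits (comb 15)) := by
    rw [← hto]
    intro hmem
    exact hq ((Finset.smul_mem_smul_finset_iff t).mp hmem)
  obtain ⟨k₀, hk₀, -, e2, e3⟩ := oct_sound (t q) htq
  have hk : k₀ ∈ fixGrp (t • o) := by
    rw [hto, mem_fixGrp]
    exact ⟨genGroup_le hk₀, e3⟩
  refine ⟨t⁻¹ * k₀ * t, conj_mem_fixGrp ht hk, ?_⟩
  rw [Equiv.Perm.mul_apply, Equiv.Perm.mul_apply, htp, e2]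
  exact perm_inv_apply_self t q

theorem octad_split (o : Finset GolayPt) (ho : o ∈ octads) (p : GolayPt) (hp : p ∉ o) :
    fixGrp o ⊓ (setStab o ⊓ MulAction.stabilizer (Equiv.Perm GolayPt) p) = ⊥ ∧
    fixGrp o ⊔ (setStab o ⊓ MulAction.stabilizer (Equiv.Perm GolayPt) p) = setStab o ∧
    Nonempty (↥(setStab o ⊓ MulAction.stabilizer (Equiv.Perm GolayPt) p)
      ≃* alternatingGroup (Fin 8)) := by
  have hkey : ∀ g ∈ setStab o, ∃ k ∈ fixGrp o,
      k * g ∈ setStab o ⊓ MulAction.stabilizer (Equiv.Perm GolayPt) p := by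
    intro g hg
    have hgo := ((mem_setStab o g).mp hg).2
    have hgp : g p ∉ o := fun h => hp ((setStab_mem_iff hgo p).mp h)
    obtain ⟨k, hk, hkp⟩ := fixGrp_trans o ho (g p) p hgp hp
    refine ⟨k, hk, Subgroup.mem_inf.mpr ⟨mul_mem (fixGrp_le_setStab o hk) hg, ?_⟩⟩
    rw [MulAction.mem_stabilizer_iff]
    exact hkp
  refine ⟨?_, ?_, ?_⟩
  · rw [eq_bot_iff]
    intro g hg
    rw [Subgroup.mem_inf, Subgroup.mem_inf] at hg
    rw [Subgroup.mem_bot]
    exact fixGrp_rigid' o ho p hp hg.1 (MulAction.mem_stabilizer_iff.mp hg.2.2)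
  · apply le_antisymm
    · exact sup_le (fixGrp_le_setStab o) inf_le_left
    · intro g hg
      obtain ⟨k, hk, hkg⟩ := hkey g hg
      have e : g = k⁻¹ * (k * g) := by group
      rw [e]
      exact Subgroup.mul_mem_sup (inv_mem hk) hkg
  · let ψ : ↥(setStab o ⊓ MulAction.stabilizer (Equiv.Perm GolayPt) p) →* Equiv.Perm ↥o :=
      (resHom o).comp (Subgroup.inclusion inf_le_left)
    have hinj : Function.Injective ψ := by
      rw [injective_iff_map_eq_one]
      intro a ha
      have hker : Subgroup.inclusion inf_le_left a ∈ (resHom o).ker := ha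
      rw [resHom_ker, Subgroup.mem_subgroupOf] at hker
      have hap : (a : Equiv.Perm GolayPt) p = p :=
        MulAction.mem_stabilizer_iff.mp (Subgroup.mem_inf.mp a.2).2
      exact Subtype.ext (fixGrp_rigid' o ho p hp hker hap)
    have hrange : ψ.range = alternatingGroup ↥o := by
      rw [← resHom_range o ho]
      apply le_antisymm
      · rintro e ⟨a, rfl⟩
        exact ⟨_, rfl⟩
      · rintro e ⟨g, rfl⟩
        obtain ⟨k, hk, hkg⟩ := hkey g g.2
        refine ⟨⟨k * g, hkg⟩, ?_⟩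
        refine Equiv.ext (fun x => Subtype.ext ?_)
        have hgx : (g : Equiv.Perm GolayPt) x ∈ o :=
          (setStab_mem_iff ((mem_setStab o g).mp g.2).2 x).mpr x.2
        exact ((mem_fixGrp o k).mp hk).2 _ hgx
    have hcard : Fintype.card ↥o = Fintype.card (Fin 8) := by
      rw [Fintype.card_coe, ho.2, Fintype.card_fin]
    exact ⟨(MonoidHom.ofInjective hinj).trans ((MulEquiv.subgroupCongr hrange).trans
      (Equiv.altCongrHom (Fintype.equivOfCardEq hcard)))⟩

end Cfsg.Agent.Helper1.Golay
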