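import Mathlib
import Cfsg.Agent.Helper1.Coset
import Cfsg.Agent.Helper1.Fam5616

set_option autoImplicit false

namespace Cfsg.Agent.Helper1.Golay

open Cfsg

/-- The code punctured at the point `none`. -/
def punct : Set (ZMod 23 → ZMod 2) := {u | ∃ w ∈ golayCode, ∀ x : ZMod 23, u x = w (some x)}

/-- The weight of a word splits into the coordinate `none` and the others. -/
theorem hammingNorm_option (v : GolayPt → ZMod 2) :
    hammingNorm v = (if v none ≠ 0 then 1 else 0)
      + (Finset.univ.filter (fun x : ZMod 23 => v (some x) ≠ 0)).card := by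
  rw [hammingNorm, Finset.card_filter, Finset.card_filter]
  exact Fintype.sum_option _

/-- In a coset without a word of weight at most three, the words of weight four cover every
point. -/
theorem coset_leaders_cover (w : GolayPt → ZMod 2)
    (h3 : ¬ ∃ v : GolayPt → ZMod 2, hammingNorm v ≤ 3 ∧ w - v ∈ golayCode) (p : GolayPt) :
    ∃ v : GolayPt → ZMod 2, hammingNorm v = 4 ∧ w - v ∈ golayCode ∧ v p ≠ 0 := by
  obtain ⟨v₀, hv₀, hC₀⟩ := exists_leader w
  have h4 : hammingNorm v₀ = 4 := by
    by_contra hne
    exact h3 ⟨v₀, by omega, hC₀⟩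
  have ht : (support₂ v₀).card = 4 := by
    rw [card_support₂]
    exact h4
  have hS := sextOf_mem ht
  have hp : p ∈ (sextOf (support₂ v₀)).biUnion id := by
    rw [sextet_cover hS]
    exact Finset.mem_univ p
  obtain ⟨u, hu, hpu⟩ := Finset.mem_biUnion.mp hp
  have hu4 : u.card = 4 := hS.2.1 u hu
  refine ⟨ind u, by rw [← card_support₂, support₂_ind, hu4], ?_, ?_⟩
  · by_cases hut : support₂ v₀ = u
    · rw [← hut, ind_support₂]
      exact hC₀
    · obtain ⟨hdis, hoct⟩ := sextOf_disjoint ht hu hut
      have hx : v₀ + ind u ∈ golayCode := mem_code_of_support (by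
        rw [support₂_add, support₂_ind, hdis.symmDiff_eq_sup]
        exact hoct.1)
      have e2 : w - ind u = (w - v₀) + (v₀ + ind u) := by
        funext q
        simp only [Pi.add_apply, Pi.sub_apply]
        exact (by decide : ∀ a b c : ZMod 2, a - c = (a - b) + (b + c)) _ _ _
      rw [e2]
      exact Submodule.add_mem _ hC₀ hx
  · rw [← mem_support₂, support₂_ind]
    exact hpu

theorem punct_exists (u : ZMod 23 → ZMod 2) : ∃ c ∈ punct, hammingDist u c ≤ 3 := by
  have key : ∀ v : GolayPt → ZMod 2,
      (fun p : GolayPt => Option.elim p 0 u) - v ∈ golayCode →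
      (Finset.univ.filter (fun x : ZMod 23 => v (some x) ≠ 0)).card ≤ 3 →
      ∃ c ∈ punct, hammingDist u c ≤ 3 := by
    intro v hC hle
    refine ⟨fun x => u x - v (some x), ⟨_, hC, fun x => rfl⟩, ?_⟩
    have e : hammingDist u (fun x => u x - v (some x))
        = (Finset.univ.filter (fun x : ZMod 23 => v (some x) ≠ 0)).card := by
      rw [hammingDist]
      congr 1
      ext x
      simp only [Finset.mem_filter, Finset.mem_univ, true_and]
      exact (by decide : ∀ a b : ZMod 2, a ≠ a - b ↔ b ≠ 0) _ _
    rw [e]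
    exact hle
  by_cases h3 : ∃ v : GolayPt → ZMod 2, hammingNorm v ≤ 3
      ∧ (fun p : GolayPt => Option.elim p 0 u) - v ∈ golayCode
  · obtain ⟨v, hv, hC⟩ := h3
    have h := hammingNorm_option v
    exact key v hC (by omega)
  · obtain ⟨v, hv, hC, hnone⟩ := coset_leaders_cover _ h3 none
    have h := hammingNorm_option v
    rw [if_pos hnone] at h
    exact key v hC (by omega)

theorem punct_unique (u c c' : ZMod 23 → ZMod 2) (hc : c ∈ punct) (hc' : c' ∈ punct)
    (hd : hammingDist u c ≤ 3) (hd' : hammingDist u c' ≤ 3) : c = c' := by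
  obtain ⟨W, hW, hcW⟩ := hc
  obtain ⟨W', hW', hcW'⟩ := hc'
  have htri := hammingDist_triangle c u c'
  rw [hammingDist_comm c u] at htri
  have hsub : W - W' ∈ golayCode := Submodule.sub_mem _ hW hW'
  have hn := hammingNorm_option (W - W')
  have e : (Finset.univ.filter (fun x : ZMod 23 => (W - W') (some x) ≠ 0)).card
      = hammingDist c c' := by
    rw [hammingDist]
    congr 1
    ext x
    simp only [Finset.mem_filter, Finset.mem_univ, true_and, Pi.sub_apply, hcW x, hcW' x]
    exact sub_ne_zero
  rw [e] at hn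
  have hle : hammingNorm (W - W') ≤ 7 := by
    split_ifs at hn <;> omega
  have h0 : hammingNorm (W - W') = 0 := by
    rcases hammingNorm_eq _ hsub with h | h | h | h | h <;> omega
  rw [hammingNorm_eq_zero, sub_eq_zero] at h0
  funext x
  rw [hcW x, hcW' x, h0]

theorem punct_perfect (u : ZMod 23 → ZMod 2) :
    ∃! c : ZMod 23 → ZMod 2, c ∈ punct ∧ hammingDist u c ≤ 3 := by
  obtain ⟨c, hc, hd⟩ := punct_exists u
  exact ⟨c, ⟨hc, hd⟩, fun c' h => punct_unique u c' c h.1 hc h.2 hd⟩

end Cfsg.Agent.Helper1.Golay
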