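import Mathlib
import Cfsg.Agent.Helper1.Punct

set_option autoImplicit false

namespace Cfsg.Agent.Helper1.Golay

open Cfsg

/-- The restriction of the word with coordinates `c` to the points of `ZMod 23`. -/
def pres (c : ℕ) : ZMod 23 → ZMod 2 := fun x => ofBits (comb c) (some x)

/-- The weight of the restricted word. -/
def pw (c : ℕ) : ℕ := popc (comb c) - bitAt (comb c) 23

theorem hammingNorm_pres (c : ℕ) : hammingNorm (pres c) = pw c := by
  have h := hammingNorm_option (ofBits (comb c))
  rw [hammingNorm_ofBits] at h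
  have e : (Finset.univ.filter (fun x : ZMod 23 => ofBits (comb c) (some x) ≠ 0)).card
      = hammingNorm (pres c) := rfl
  rw [e] at h
  rw [pw, bitAt_eq]
  have e2 : (ofBits (comb c) none ≠ 0) ↔ (comb c).testBit 23 = true := by
    have e3 : ofBits (comb c) none = if (comb c).testBit 23 then 1 else 0 := rfl
    rw [e3]
    by_cases hb : (comb c).testBit 23 = true
    · simp [hb]
    · simp [hb]
  by_cases hb : (comb c).testBit 23 = true
  · rw [if_pos (e2.mpr hb)] at h
    rw [if_pos hb]
    omega
  · rw [if_neg (fun h' => hb (e2.mp h'))] at h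
    rw [if_neg hb]
    omega

theorem mem_punct_iff (u : ZMod 23 → ZMod 2) : u ∈ punct ↔ ∃ c < 4096, u = pres c := by
  constructor
  · rintro ⟨w, hw, hu⟩
    obtain ⟨c, hc, rfl⟩ := exists_of_mem hw
    exact ⟨c, hc, funext hu⟩
  · rintro ⟨c, hc, rfl⟩
    exact ⟨_, ofBits_comb_mem c, fun x => rfl⟩

theorem pw_pos {c : ℕ} (hc : c < 4096) (h0 : c ≠ 0) : 7 ≤ pw c := by
  have hb : bitAt (comb c) 23 ≤ 1 := by
    rw [bitAt_eq]
    split_ifs <;> omega
  have hne : popc (comb c) ≠ 0 := fun h => h0 (comb_eq_zero c hc h)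
  rw [pw]
  rcases weights c hc with h | h | h | h | h <;> omega

theorem pres_inj {c c' : ℕ} (hc : c < 4096) (hc' : c' < 4096) (h : pres c = pres c') :
    c = c' := by
  have hd : c ^^^ c' < 4096 := Nat.xor_lt_two_pow (n := 12) hc hc'
  have h1 : pres (c ^^^ c') = 0 := by
    funext x
    have hx := congrFun h x
    simp only [pres] at hx ⊢
    rw [comb_xor, ofBits_xor, Pi.add_apply, hx]
    exact (by decide : ∀ x : ZMod 2, x + x = 0) _
  have h2 : pw (c ^^^ c') = 0 := by rw [← hammingNorm_pres, h1, hammingNorm_zero]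
  by_contra hne
  have h0 : c ^^^ c' ≠ 0 := fun h => hne (Nat.xor_eq_zero_iff.mp h)
  have := pw_pos hd h0
  omega

theorem punct_weight_eq (k : ℕ) :
    {u : ZMod 23 → ZMod 2 | u ∈ punct ∧ hammingNorm u = k}
      = pres '' ↑((Finset.range 4096).filter (fun c => pw c = k)) := by
  ext u
  simp only [Set.mem_ofPred_eq, Set.mem_image, Finset.coe_filter, Finset.mem_range]
  constructor
  · rintro ⟨hu, hk⟩
    obtain ⟨c, hc, rfl⟩ := (mem_punct_iff u).mp hu
    exact ⟨c, ⟨hc, by rw [← hammingNorm_pres, hk]⟩, rfl⟩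
  · rintro ⟨c, ⟨hc, hk⟩, rfl⟩
    exact ⟨(mem_punct_iff _).mpr ⟨c, hc, rfl⟩, by rw [hammingNorm_pres, hk]⟩

theorem punct_weight_ncard (k : ℕ) :
    {u : ZMod 23 → ZMod 2 | u ∈ punct ∧ hammingNorm u = k}.ncard
      = ((Finset.range 4096).filter (fun c => pw c = k)).card := by
  have hinj : Set.InjOn pres ↑((Finset.range 4096).filter (fun c => pw c = k)) := by
    intro c hc c' hc' h
    rw [Finset.mem_coe, Finset.mem_filter, Finset.mem_range] at hc hc'
    exact pres_inj hc.1 hc'.1 h
  rw [punct_weight_eq, hinj.ncard_image, Set.ncard_coe_finset]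

theorem punct_ncard : punct.ncard = 4096 := by
  have e : punct = pres '' ↑(Finset.range 4096) := by
    ext u
    rw [mem_punct_iff]
    simp only [Set.mem_image, Finset.coe_range, Set.mem_Iio]
    constructor
    · rintro ⟨c, hc, rfl⟩
      exact ⟨c, hc, rfl⟩
    · rintro ⟨c, hc, rfl⟩
      exact ⟨c, hc, rfl⟩
  have hinj : Set.InjOn pres ↑(Finset.range 4096) := by
    intro c hc c' hc' h
    rw [Finset.mem_coe, Finset.mem_range] at hc hc'
    exact pres_inj hc hc' h
  rw [e, hinj.ncard_image, Set.ncard_coe_finset, Finset.card_range]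

theorem pcount7 : ((Finset.range 4096).filter (fun c => pw c = 7)).card = 253 := by
  decide +kernel

theorem pcount8 : ((Finset.range 4096).filter (fun c => pw c = 8)).card = 506 := by
  decide +kernel

theorem pcount11 : ((Finset.range 4096).filter (fun c => pw c = 11)).card = 1288 := by
  decide +kernel

theorem pcount12 : ((Finset.range 4096).filter (fun c => pw c = 12)).card = 1288 := by
  decide +kernel

theorem pcount15 : ((Finset.range 4096).filter (fun c => pw c = 15)).card = 506 := by
  decide +kernel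

theorem pcount16 : ((Finset.range 4096).filter (fun c => pw c = 16)).card = 253 := by
  decide +kernel

theorem punct_min (u : ZMod 23 → ZMod 2) (hu : u ∈ punct) (h0 : u ≠ 0) : 7 ≤ hammingNorm u := by
  obtain ⟨c, hc, rfl⟩ := (mem_punct_iff u).mp hu
  rw [hammingNorm_pres]
  refine pw_pos hc ?_
  rintro rfl
  apply h0
  funext x
  simp only [pres, comb_zero, ofBits_zero, Pi.zero_apply]

end Cfsg.Agent.Helper1.Golay
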