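import Mathlib
import Cfsg.Agent.Helper1.QuartTab
import Cfsg.Agent.Helper1.Golay12
import Cfsg.Agent.Helper1.FamTrio
import Cfsg.Agent.Helper1.FamTab

set_option autoImplicit false

namespace Cfsg.Agent.Helper1.Golay

open Cfsg
open scoped Pointwise

/-! ### Masks of triples -/

theorem mem_of_any_beq {l : List ℕ} {a : ℕ} (h : l.any (Nat.beq a) = true) : a ∈ l := by
  obtain ⟨b, hb, e⟩ := List.any_eq_true.mp h
  rw [Nat.eq_of_beq_eq_true e]
  exact hb

theorem support_union' (m n : ℕ) :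
    support₂ (ofBits m) ∪ support₂ (ofBits n) = support₂ (ofBits (m ||| n)) := by
  ext p
  rw [Finset.mem_union, mem_support₂_ofBits, mem_support₂_ofBits, mem_support₂_ofBits,
    Nat.testBit_or, Bool.or_eq_true]

theorem support_single (i : ℕ) (hi : i < 24) : support₂ (ofBits (2 ^ i)) = {unpos i} := by
  ext p
  rw [mem_support₂_ofBits, Finset.mem_singleton, Nat.testBit_two_pow]
  constructor
  · intro h
    have h1 : i = pos p := of_decide_eq_true h
    rw [h1, unpos_pos]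
  · rintro rfl
    rw [pos_unpos i hi]
    exact decide_eq_true rfl

theorem triple_mask {t : Finset GolayPt} (ht : t.card = 3) :
    ∃ a b c, a ≠ b ∧ a ≠ c ∧ b ≠ c
      ∧ t = support₂ (ofBits (2 ^ pos a ||| 2 ^ pos b ||| 2 ^ pos c))
      ∧ a ∈ t ∧ b ∈ t ∧ c ∈ t := by
  obtain ⟨a, b, c, hab, hac, hbc, rfl⟩ := Finset.card_eq_three.mp ht
  refine ⟨a, b, c, hab, hac, hbc, ?_, by simp, by simp, by simp⟩
  rw [← support_union', ← support_union', support_single _ (pos_lt a),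
    support_single _ (pos_lt b), support_single _ (pos_lt c), unpos_pos, unpos_pos, unpos_pos]
  ext x
  simp

theorem pos_mem_qPos {p : GolayPt} (hp : p ∈ support₂ (ofBits 340831)) : pos p ∈ qPos := by
  rw [mem_support₂_ofBits] at hp
  have h := List.all_eq_true.mp q_posmem (pos p) (List.mem_range.mpr (pos_lt p))
  rw [hp] at h
  exact mem_of_any_beq (by simpa using h)

theorem TL_spec {m : ℕ} (hm : m ∈ qTL) : popc m = 3 ∧ m &&& 340831 = m := by
  have h := List.all_eq_true.mp q_TL m hm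
  rw [Bool.and_eq_true] at h
  exact ⟨Nat.eq_of_beq_eq_true h.1, Nat.eq_of_beq_eq_true h.2⟩

theorem TL_lt {m : ℕ} (hm : m ∈ qTL) : m < 2 ^ 24 := by
  have h := (TL_spec hm).2
  have h2 : m &&& 340831 ≤ 340831 := Nat.and_le_right
  rw [h] at h2
  exact lt_of_le_of_lt h2 (by norm_num)

theorem TL_sub {m : ℕ} (hm : m ∈ qTL) :
    support₂ (ofBits m) ⊆ support₂ (ofBits 340831) := by
  have h := (TL_spec hm).2
  have e := support_inter m 340831
  rw [h] at e
  rw [← e]
  exact Finset.inter_subset_right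

theorem TL_card {m : ℕ} (hm : m ∈ qTL) : (support₂ (ofBits m)).card = 3 := by
  rw [card_support₂, hammingNorm_ofBits]
  exact (TL_spec hm).1

theorem triple_in_TL {t : Finset GolayPt} (ht : t.card = 3)
    (hsub : t ⊆ support₂ (ofBits 340831)) : ∃ m ∈ qTL, t = support₂ (ofBits m) := by
  obtain ⟨a, b, c, hab, hac, hbc, e, ha, hb, hc⟩ := triple_mask ht
  have h := List.all_eq_true.mp (List.all_eq_true.mp (List.all_eq_true.mp q_pos _
    (pos_mem_qPos (hsub ha))) _ (pos_mem_qPos (hsub hb))) _ (pos_mem_qPos (hsub hc))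
  simp only [Bool.or_eq_true] at h
  rcases h with ((h | h) | h) | h
  · exact absurd (pos_injective (Nat.eq_of_beq_eq_true h)) hab
  · exact absurd (pos_injective (Nat.eq_of_beq_eq_true h)) hac
  · exact absurd (pos_injective (Nat.eq_of_beq_eq_true h)) hbc
  · exact ⟨_, mem_of_any_beq h, e⟩

/-! ### Hexads -/

theorem hexad_hx {m : ℕ} (hm : m < 2 ^ 24)
    (h : support₂ (ofBits m) ∈ hexadsOn (support₂ (ofBits 340831))) : qHx m = true := by
  obtain ⟨hcard, o, ho, e⟩ := h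
  rw [octads, wordsOfWeight_eq] at ho
  obtain ⟨c, hc, rfl⟩ := ho
  rw [Finset.mem_coe, Finset.mem_filter, Finset.mem_range] at hc
  rw [support_inter] at e
  have hlt : comb c &&& 340831 < 2 ^ 24 :=
    lt_of_le_of_lt Nat.and_le_right (by norm_num)
  have e' := mask_inj hlt hm e
  rw [card_support₂, hammingNorm_ofBits] at hcard
  have hk := List.all_eq_true.mp q_HX c (List.mem_range.mpr hc.1)
  rw [e', hc.2, hcard] at hk
  simpa using hk

theorem hxC_hexad {m : ℕ} (h : qHxC m = true) :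
    support₂ (ofBits m) ∈ hexadsOn (support₂ (ofBits 340831)) := by
  obtain ⟨c, hc, e⟩ := List.any_eq_true.mp h
  have e' := Nat.eq_of_beq_eq_true e
  have h2 := List.all_eq_true.mp q_HC c hc
  rw [Bool.and_eq_true] at h2
  refine ⟨?_, support₂ (ofBits (comb c)), octad_of_coord c (Nat.eq_of_beq_eq_true h2.1), ?_⟩
  · rw [← e', card_support₂, hammingNorm_ofBits]
    exact Nat.eq_of_beq_eq_true h2.2
  · rw [support_inter, e']

/-! ### The table of quartets -/

theorem q_spec (j : ℕ) (hj : j < 220) :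
    goodList (qTb j) = true ∧ (∀ m ∈ qTb j, m ∈ qTL)
      ∧ ∀ a ∈ qTb j, ∀ b ∈ qTb j, a ≠ b → qHxC (a ||| b) = true := by
  have h := List.all_eq_true.mp q_T1 j (List.mem_range.mpr hj)
  simp only [Bool.and_eq_true] at h
  obtain ⟨⟨h1, h2⟩, h3⟩ := h
  refine ⟨h1, fun m hm => mem_of_any_beq (List.all_eq_true.mp h2 m hm), ?_⟩
  intro a ha b hb hab
  have h4 := List.all_eq_true.mp (List.all_eq_true.mp h3 a ha) b hb
  rw [Bool.or_eq_true] at h4
  rcases h4 with h4 | h4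
  · exact absurd (Nat.eq_of_beq_eq_true h4) hab
  · exact h4

theorem q_card (j : ℕ) (hj : j < 220) : (famOf (qTb j)).card = 4 := by
  rw [famOf, List.toFinset_card_of_nodup (nodup_supports (q_spec j hj).1)]
  rfl

theorem q_sound (j : ℕ) (hj : j < 220) :
    famOf (qTb j) ∈ quartets (support₂ (ofBits 340831)) := by
  obtain ⟨h1, h2, h3⟩ := q_spec j hj
  refine ⟨q_card j hj, ?_, ?_⟩
  · intro t ht
    obtain ⟨m, hm, rfl⟩ := (mem_famOf _ _).mp ht
    exact ⟨TL_card (h2 m hm), TL_sub (h2 m hm)⟩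
  · intro t ht u hu hne
    obtain ⟨a, ha, rfl⟩ := (mem_famOf _ _).mp ht
    obtain ⟨b, hb, rfl⟩ := (mem_famOf _ _).mp hu
    rw [support_union']
    exact hxC_hexad (h3 a ha b hb (fun e => hne (by rw [e])))

theorem pair_quartet {m1 m2 : ℕ} (h1 : m1 ∈ qTL) (h2 : m2 ∈ qTL)
    (hx : qHx (m1 ||| m2) = true) :
    qOf m1 m2 < 220 ∧ m1 ∈ qTb (qOf m1 m2) ∧ m2 ∈ qTb (qOf m1 m2) := by
  have k1 := List.all_eq_true.mp (List.all_eq_true.mp q_K1 m1 h1) m2 h2
  rw [hx] at k1
  simp only [Bool.not_true, Bool.false_or, Bool.and_eq_true] at k1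
  obtain ⟨⟨hlt, hm1⟩, hm2⟩ := k1
  exact ⟨Nat.blt_eq.mp hlt, mem_of_any_beq hm1, mem_of_any_beq hm2⟩

theorem quartet_eq {Q : Finset (Finset GolayPt)}
    (hQ : Q ∈ quartets (support₂ (ofBits 340831))) {m1 m2 : ℕ} (h1 : m1 ∈ qTL) (h2 : m2 ∈ qTL)
    (ht1 : support₂ (ofBits m1) ∈ Q) (ht2 : support₂ (ofBits m2) ∈ Q) (hne : m1 ≠ m2) :
    qOf m1 m2 < 220 ∧ Q = famOf (qTb (qOf m1 m2)) := by
  have hne' : support₂ (ofBits m1) ≠ support₂ (ofBits m2) :=
    fun e => hne (mask_inj (TL_lt h1) (TL_lt h2) e)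
  have hx12 : qHx (m1 ||| m2) = true :=
    hexad_hx (Nat.or_lt_two_pow (TL_lt h1) (TL_lt h2))
      (by rw [← support_union']; exact hQ.2.2 _ ht1 _ ht2 hne')
  obtain ⟨hlt, hm1, hm2⟩ := pair_quartet h1 h2 hx12
  refine ⟨hlt, ?_⟩
  apply Finset.eq_of_subset_of_card_le
  · intro t3 ht3
    by_cases e1 : t3 = support₂ (ofBits m1)
    · rw [e1]
      exact (mem_famOf _ _).mpr ⟨m1, hm1, rfl⟩
    by_cases e2 : t3 = support₂ (ofBits m2)
    · rw [e2]
      exact (mem_famOf _ _).mpr ⟨m2, hm2, rfl⟩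
    obtain ⟨m3, hm3, rfl⟩ := triple_in_TL (hQ.2.1 t3 ht3).1 (hQ.2.1 t3 ht3).2
    have hx13 : qHx (m1 ||| m3) = true :=
      hexad_hx (Nat.or_lt_two_pow (TL_lt h1) (TL_lt hm3))
        (by rw [← support_union']; exact hQ.2.2 _ ht1 _ ht3 (Ne.symm e1))
    have hx23 : qHx (m2 ||| m3) = true :=
      hexad_hx (Nat.or_lt_two_pow (TL_lt h2) (TL_lt hm3))
        (by rw [← support_union']; exact hQ.2.2 _ ht2 _ ht3 (Ne.symm e2))
    have k2 := List.all_eq_true.mp (List.all_eq_true.mp q_K2 m1 h1) m2 h2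
    rw [hx12] at k2
    simp only [Bool.not_true, Bool.false_or] at k2
    have k3 := List.all_eq_true.mp k2 m3 hm3
    rw [hx13, hx23] at k3
    simp only [Bool.and_self, Bool.not_true, Bool.false_or] at k3
    exact (mem_famOf _ _).mpr ⟨m3, mem_of_any_beq k3, rfl⟩
  · rw [hQ.1, q_card _ hlt]

theorem quartet_exists {Q : Finset (Finset GolayPt)}
    (hQ : Q ∈ quartets (support₂ (ofBits 340831))) : ∃ j < 220, Q = famOf (qTb j) := by
  obtain ⟨t1, ht1, t2, ht2, hne⟩ := Finset.one_lt_card.mp (by rw [hQ.1]; norm_num)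
  obtain ⟨m1, h1, rfl⟩ := triple_in_TL (hQ.2.1 t1 ht1).1 (hQ.2.1 t1 ht1).2
  obtain ⟨m2, h2, rfl⟩ := triple_in_TL (hQ.2.1 t2 ht2).1 (hQ.2.1 t2 ht2).2
  obtain ⟨hlt, e⟩ := quartet_eq hQ h1 h2 ht1 ht2 (fun e => hne (by rw [e]))
  exact ⟨_, hlt, e⟩

theorem q_inj {j j' : ℕ} (hj : j < 220) (hj' : j' < 220)
    (e : famOf (qTb j) = famOf (qTb j')) : j = j' := by
  have hk := keyN_eq_of_famOf_eq (q_spec j hj).1 (q_spec j' hj').1 e
  have hchain := lt_of_chain (fun j => keyN (qTb j)) 220 (fun j hj =>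
    Nat.blt_eq.mp (List.all_eq_true.mp q_T2 j (List.mem_range.mpr (by omega))))
  rcases Nat.lt_trichotomy j j' with h | h | h
  · have h1 : keyN (qTb j) < keyN (qTb j') := hchain j j' h hj'
    omega
  · exact h
  · have h1 : keyN (qTb j') < keyN (qTb j) := hchain j' j h hj
    omega

theorem quartets_base : quartets (support₂ (ofBits 340831))
    = (fun j => famOf (qTb j)) '' ↑(Finset.range 220) := by
  ext Q
  constructor
  · intro hQ
    obtain ⟨j, hj, rfl⟩ := quartet_exists hQ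
    exact ⟨j, Finset.mem_coe.mpr (Finset.mem_range.mpr hj), rfl⟩
  · rintro ⟨j, hj, rfl⟩
    exact q_sound j (Finset.mem_range.mp (Finset.mem_coe.mp hj))

theorem quartets_base_ncard : (quartets (support₂ (ofBits 340831))).ncard = 220 := by
  rw [quartets_base, Set.InjOn.ncard_image, Set.ncard_coe_finset, Finset.card_range]
  intro j hj j' hj' e
  exact q_inj (Finset.mem_range.mp (Finset.mem_coe.mp hj))
    (Finset.mem_range.mp (Finset.mem_coe.mp hj')) e

theorem q_trans_base (j : ℕ) (hj : j < 220) :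
    ∃ g ∈ M24, g • support₂ (ofBits 340831) = support₂ (ofBits 340831)
      ∧ g • famOf (qTb 0) = famOf (qTb j) := by
  have h := List.all_eq_true.mp q_tr j (List.mem_range.mpr hj)
  simp only [Bool.and_eq_true] at h
  obtain ⟨⟨⟨hok, hc⟩, hd⟩, hf⟩ := h
  refine ⟨(permT (qTrTab j))⁻¹, inv_mem (permT_mem hok hc), ?_, ?_⟩
  · rw [permT_inv_smul hok, Nat.eq_of_beq_eq_true hd]
  · rw [← famOf_pullFam (permT (qTrTab j)) (qTrTab j) (pos_permT hok), famOf_eq_of_famEq hf]

/-! ### Transport along the group -/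

theorem hexadsOn_smul {g : Equiv.Perm GolayPt} (hg : g ∈ M24) {d h : Finset GolayPt}
    (hh : h ∈ hexadsOn d) : g • h ∈ hexadsOn (g • d) := by
  obtain ⟨hc, o, ho, e⟩ := hh
  exact ⟨by rw [Finset.card_smul_finset]; exact hc, g • o, smul_mem_wordsOfWeight hg ho,
    by rw [← Finset.smul_finset_inter, e]⟩

theorem quartets_smul {g : Equiv.Perm GolayPt} (hg : g ∈ M24) {d : Finset GolayPt}
    {Q : Finset (Finset GolayPt)} (hQ : Q ∈ quartets d) : g • Q ∈ quartets (g • d) := by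
  refine ⟨by rw [Finset.card_smul_finset]; exact hQ.1, ?_, ?_⟩
  · intro t' ht'
    obtain ⟨t, ht, rfl⟩ := Finset.mem_smul_finset.mp ht'
    exact ⟨by rw [Finset.card_smul_finset]; exact (hQ.2.1 t ht).1,
      Finset.smul_finset_subset_smul_finset (hQ.2.1 t ht).2⟩
  · intro t' ht' u' hu' hne
    obtain ⟨t, ht, rfl⟩ := Finset.mem_smul_finset.mp ht'
    obtain ⟨u, hu, rfl⟩ := Finset.mem_smul_finset.mp hu'
    rw [← Finset.smul_finset_union]
    exact hexadsOn_smul hg (hQ.2.2 t ht u hu (fun e => hne (by rw [e])))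

theorem q_d_mem : support₂ (ofBits 340831) ∈ dodecads := by
  rw [← comb_one]
  exact baseDodecad_mem

theorem exists_to_dodecad {d : Finset GolayPt} (hd : d ∈ dodecads) :
    ∃ g ∈ M24, g • support₂ (ofBits 340831) = d := by
  obtain ⟨t, ht⟩ := dodecads_transitive _ d q_d_mem hd
  exact ⟨t, t.2, ht⟩

theorem quartets_ncard (d : Finset GolayPt) (hd : d ∈ dodecads) : (quartets d).ncard = 220 := by
  obtain ⟨g, hg, rfl⟩ := exists_to_dodecad hd
  have e : quartets (g • support₂ (ofBits 340831))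
      = (fun Q => g • Q) '' quartets (support₂ (ofBits 340831)) := by
    ext Q
    constructor
    · intro hQ
      refine ⟨g⁻¹ • Q, ?_, smul_inv_smul g Q⟩
      have h1 := quartets_smul (inv_mem hg) hQ
      rwa [inv_smul_smul] at h1
    · rintro ⟨Q, hQ, rfl⟩
      exact quartets_smul hg hQ
  rw [e, Set.ncard_image_of_injective _ (MulAction.injective g), quartets_base_ncard]

theorem quartets_trans (d : Finset GolayPt) (hd : d ∈ dodecads) (Q Q' : Finset (Finset GolayPt))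
    (hQ : Q ∈ quartets d) (hQ' : Q' ∈ quartets d) :
    ∃ g : Equiv.Perm GolayPt, g ∈ M24 ∧ g • d = d ∧ g • Q = Q' := by
  obtain ⟨t, ht, rfl⟩ := exists_to_dodecad hd
  have h1 := quartets_smul (inv_mem ht) hQ
  have h1' := quartets_smul (inv_mem ht) hQ'
  rw [inv_smul_smul] at h1 h1'
  obtain ⟨j, hj, e⟩ := quartet_exists h1
  obtain ⟨j', hj', e'⟩ := quartet_exists h1'
  obtain ⟨g, hg, hgd, hgQ⟩ := q_trans_base j hj
  obtain ⟨g', hg', hgd', hgQ'⟩ := q_trans_base j' hj'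
  refine ⟨t * (g' * g⁻¹) * t⁻¹, mul_mem (mul_mem ht (mul_mem hg' (inv_mem hg))) (inv_mem ht),
    ?_, ?_⟩
  · rw [mul_smul, mul_smul, inv_smul_smul, mul_smul, inv_smul_eq_iff.mpr hgd.symm, hgd']
  · rw [mul_smul, mul_smul, e, mul_smul, ← hgQ, inv_smul_smul, hgQ', ← e', smul_inv_smul]

/-! ### Two triples in a quartet -/

theorem pair_unique_base (t u : Finset GolayPt) (ht : t.card = 3) (hu : u.card = 3)
    (htu : Disjoint t u) (hh : t ∪ u ∈ hexadsOn (support₂ (ofBits 340831))) :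
    ∃! Q : Finset (Finset GolayPt), Q ∈ quartets (support₂ (ofBits 340831)) ∧ t ∈ Q ∧ u ∈ Q := by
  have hsub : t ∪ u ⊆ support₂ (ofBits 340831) := by
    obtain ⟨-, o, -, e⟩ := hh
    rw [← e]
    exact Finset.inter_subset_right
  obtain ⟨m1, h1, rfl⟩ := triple_in_TL ht (Finset.union_subset_left hsub)
  obtain ⟨m2, h2, rfl⟩ := triple_in_TL hu (Finset.union_subset_right hsub)
  have hne : m1 ≠ m2 := by
    rintro rfl
    rw [disjoint_self, Finset.bot_eq_empty] at htu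
    rw [htu] at ht
    simp at ht
  rw [support_union'] at hh
  have hx := hexad_hx (Nat.or_lt_two_pow (TL_lt h1) (TL_lt h2)) hh
  obtain ⟨hlt, hm1, hm2⟩ := pair_quartet h1 h2 hx
  refine ⟨famOf (qTb (qOf m1 m2)), ⟨q_sound _ hlt, (mem_famOf _ _).mpr ⟨m1, hm1, rfl⟩,
    (mem_famOf _ _).mpr ⟨m2, hm2, rfl⟩⟩, ?_⟩
  rintro Q ⟨hQ, ht1, ht2⟩
  exact (quartet_eq hQ h1 h2 ht1 ht2 hne).2

theorem pair_unique (d : Finset GolayPt) (hd : d ∈ dodecads) (t u : Finset GolayPt)
    (ht : t.card = 3) (hu : u.card = 3) (htu : Disjoint t u) (hh : t ∪ u ∈ hexadsOn d) :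
    ∃! Q : Finset (Finset GolayPt), Q ∈ quartets d ∧ t ∈ Q ∧ u ∈ Q := by
  obtain ⟨g, hg, rfl⟩ := exists_to_dodecad hd
  have hh' : g⁻¹ • t ∪ g⁻¹ • u ∈ hexadsOn (support₂ (ofBits 340831)) := by
    have h1 := hexadsOn_smul (inv_mem hg) hh
    rwa [inv_smul_smul, Finset.smul_finset_union] at h1
  obtain ⟨Q1, ⟨hQ1, ht1, hu1⟩, huniq⟩ := pair_unique_base (g⁻¹ • t) (g⁻¹ • u)
    (by rw [Finset.card_smul_finset]; exact ht) (by rw [Finset.card_smul_finset]; exact hu)
    (by rw [Finset.disjoint_iff_inter_eq_empty, ← Finset.smul_finset_inter,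
      Finset.disjoint_iff_inter_eq_empty.mp htu, Finset.smul_finset_empty]) hh'
  refine ⟨g • Q1, ⟨quartets_smul hg hQ1, ?_, ?_⟩, ?_⟩
  · have h1 := Finset.smul_mem_smul_finset (a := g) ht1
    rwa [smul_inv_smul] at h1
  · have h1 := Finset.smul_mem_smul_finset (a := g) hu1
    rwa [smul_inv_smul] at h1
  · rintro Q ⟨hQ, htQ, huQ⟩
    have h1 := quartets_smul (inv_mem hg) hQ
    rw [inv_smul_smul] at h1
    have h2 := huniq (g⁻¹ • Q) ⟨h1, Finset.smul_mem_smul_finset htQ,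
      Finset.smul_mem_smul_finset huQ⟩
    rw [← h2, smul_inv_smul]

end Cfsg.Agent.Helper1.Golay
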