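import Mathlib
import Cfsg.Agent.Helper1.Quart

set_option autoImplicit false

namespace Cfsg.Agent.Helper1.Golay

open Cfsg
open scoped Pointwise

/-- A finer type of a family relative to another: the sum of `9 ^ |a ∩ x|`. -/
def qType (A X : Finset (Finset GolayPt)) : ℕ := ∑ a ∈ A, ∑ x ∈ X, 9 ^ (a ∩ x).card

theorem qType_smul (g : Equiv.Perm GolayPt) (A X : Finset (Finset GolayPt)) :
    qType (g • A) (g • X) = qType A X := by
  have hinj : Function.Injective (fun s : Finset GolayPt => g • s) := MulAction.injective g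
  have eA : g • A = A.image (fun s => g • s) := rfl
  have eX : g • X = X.image (fun s => g • s) := rfl
  rw [qType, qType, eA, eX, Finset.sum_image (fun a _ b _ h => hinj h)]
  refine Finset.sum_congr rfl fun a _ => ?_
  rw [Finset.sum_image (fun a _ b _ h => hinj h)]
  refine Finset.sum_congr rfl fun x _ => ?_
  rw [← Finset.smul_finset_inter, Finset.card_smul_finset]

theorem qType_famOf {la lx : List ℕ} (ha : goodList la = true) (hx : goodList lx = true) :
    qType (famOf la) (famOf lx) = qTypN la lx := by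
  rw [qType, famOf, List.sum_toFinset _ (nodup_supports ha), List.map_map, qTypN]
  congr 1
  refine List.map_congr_left fun a _ => ?_
  show ∑ x ∈ famOf lx, 9 ^ (support₂ (ofBits a) ∩ x).card = _
  rw [famOf, List.sum_toFinset _ (nodup_supports hx), List.map_map]
  congr 1
  refine List.map_congr_left fun x _ => ?_
  show 9 ^ (support₂ (ofBits a) ∩ support₂ (ofBits x)).card = _
  rw [card_support_inter]

/-- Orbit data of the stabiliser of a dodecad and a quartet on the quartets of the dodecad. -/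
structure QOrb (d : Finset GolayPt) (Q : Finset (Finset GolayPt)) : Prop where
  trans : ∀ X ∈ quartets d, ∀ X' ∈ quartets d, qType Q X = qType Q X' →
    ∃ g ∈ M24, g • d = d ∧ g • Q = Q ∧ g • X = X'
  count : ∀ τ ∈ ({176, 304, 368, 816, 2928} : Finset ℕ),
    {X | X ∈ quartets d ∧ qType Q X = τ}.ncard = qN τ
  types : ∀ X ∈ quartets d, qType Q X ∈ ({176, 304, 368, 816, 2928} : Finset ℕ)
  self : qType Q Q = 2928

theorem q_orb_spec (j : ℕ) (hj : j < 220) :
    qTypN (qTb 0) (qTb j) ∈ ({176, 304, 368, 816, 2928} : Finset ℕ)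
      ∧ ∃ g ∈ M24, g • support₂ (ofBits 340831) = support₂ (ofBits 340831)
        ∧ g • famOf (qTb 0) = famOf (qTb 0)
        ∧ g • famOf (qTb (qRep (qTypN (qTb 0) (qTb j)))) = famOf (qTb j) := by
  have h := List.all_eq_true.mp q_orb j (List.mem_range.mpr hj)
  simp only [Bool.and_eq_true] at h
  obtain ⟨⟨h1, h2⟩, h3⟩ := h
  have hk := Nat.blt_eq.mp h2
  have hh := List.all_eq_true.mp q_h (qK j) (List.mem_range.mpr hk)
  simp only [Bool.and_eq_true] at hh
  obtain ⟨⟨⟨hok, hc⟩, hd⟩, hf⟩ := hh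
  refine ⟨?_, (permT (qHTab (qK j)))⁻¹, inv_mem (permT_mem hok hc), ?_, ?_, ?_⟩
  · have h4 := mem_of_any_beq h1
    simpa using h4
  · rw [permT_inv_smul hok, Nat.eq_of_beq_eq_true hd]
  · rw [← famOf_pullFam (permT (qHTab (qK j))) _ (pos_permT hok), famOf_eq_of_famEq hf]
  · rw [← famOf_pullFam (permT (qHTab (qK j))) _ (pos_permT hok), famOf_eq_of_famEq h3]

theorem qOrb_base : QOrb (support₂ (ofBits 340831)) (famOf (qTb 0)) := by
  have hg0 := (q_spec 0 (by norm_num)).1
  have hty : ∀ j < 220, qType (famOf (qTb 0)) (famOf (qTb j)) = qTypN (qTb 0) (qTb j) :=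
    fun j hj => qType_famOf hg0 (q_spec j hj).1
  refine ⟨?_, ?_, ?_, ?_⟩
  · intro X hX X' hX' hty'
    obtain ⟨j, hj, rfl⟩ := quartet_exists hX
    obtain ⟨j', hj', rfl⟩ := quartet_exists hX'
    rw [hty j hj, hty j' hj'] at hty'
    obtain ⟨-, g, hg, hgd, hgQ, hgX⟩ := q_orb_spec j hj
    obtain ⟨-, g', hg', hgd', hgQ', hgX'⟩ := q_orb_spec j' hj'
    rw [← hty'] at hgX'
    refine ⟨g' * g⁻¹, mul_mem hg' (inv_mem hg), ?_, ?_, ?_⟩
    · rw [mul_smul, inv_smul_eq_iff.mpr hgd.symm, hgd']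
    · rw [mul_smul, inv_smul_eq_iff.mpr hgQ.symm, hgQ']
    · rw [mul_smul, ← hgX, inv_smul_smul, hgX']
  · intro τ hτ
    have e : {X | X ∈ quartets (support₂ (ofBits 340831)) ∧ qType (famOf (qTb 0)) X = τ}
        = (fun j => famOf (qTb j)) '' ↑((List.range 220).filter
          (fun j => Nat.beq (qTypN (qTb 0) (qTb j)) τ)).toFinset := by
      ext X
      constructor
      · rintro ⟨hX, hτ'⟩
        obtain ⟨j, hj, rfl⟩ := quartet_exists hX
        rw [hty j hj] at hτ'
        refine ⟨j, ?_, rfl⟩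
        rw [Finset.mem_coe, List.mem_toFinset, List.mem_filter, List.mem_range]
        exact ⟨hj, by rw [hτ']; exact Nat.beq_refl _⟩
      · rintro ⟨j, hj, rfl⟩
        rw [Finset.mem_coe, List.mem_toFinset, List.mem_filter, List.mem_range] at hj
        exact ⟨q_sound j hj.1, by rw [hty j hj.1]; exact Nat.eq_of_beq_eq_true hj.2⟩
    rw [e, Set.InjOn.ncard_image, Set.ncard_coe_finset,
      List.toFinset_card_of_nodup (List.Nodup.filter _ List.nodup_range)]
    · have hc := List.all_eq_true.mp q_cnt τ (by simpa using hτ)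
      exact Nat.eq_of_beq_eq_true hc
    · intro j hj j' hj' e'
      rw [Finset.mem_coe, List.mem_toFinset, List.mem_filter, List.mem_range] at hj hj'
      exact q_inj hj.1 hj'.1 e'
  · intro X hX
    obtain ⟨j, hj, rfl⟩ := quartet_exists hX
    rw [hty j hj]
    exact (q_orb_spec j hj).1
  · rw [hty 0 (by norm_num)]
    decide +kernel

theorem QOrb.smul {d : Finset GolayPt} {Q : Finset (Finset GolayPt)} (h : QOrb d Q)
    {t : Equiv.Perm GolayPt} (ht : t ∈ M24) : QOrb (t • d) (t • Q) := by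
  have hti := inv_mem ht
  have hback : ∀ X, X ∈ quartets (t • d) → t⁻¹ • X ∈ quartets d := by
    intro X hX
    have h1 := quartets_smul hti hX
    rwa [inv_smul_smul] at h1
  have hty : ∀ X, qType (t • Q) X = qType Q (t⁻¹ • X) := by
    intro X
    rw [← qType_smul t⁻¹ (t • Q) X, inv_smul_smul]
  refine ⟨?_, ?_, ?_, ?_⟩
  · intro X hX X' hX' e
    rw [hty, hty] at e
    obtain ⟨g, hg, hgd, hgQ, hgX⟩ := h.trans _ (hback X hX) _ (hback X' hX') e
    refine ⟨t * g * t⁻¹, mul_mem (mul_mem ht hg) hti, ?_, ?_, ?_⟩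
    · rw [mul_smul, mul_smul, inv_smul_smul, hgd]
    · rw [mul_smul, mul_smul, inv_smul_smul, hgQ]
    · rw [mul_smul, mul_smul, hgX, smul_inv_smul]
  · intro τ hτ
    rw [← h.count τ hτ]
    have e : {X | X ∈ quartets (t • d) ∧ qType (t • Q) X = τ}
        = (fun X => t • X) '' {X | X ∈ quartets d ∧ qType Q X = τ} := by
      ext X
      constructor
      · rintro ⟨hX, hτ'⟩
        exact ⟨t⁻¹ • X, ⟨hback X hX, by rw [← hty]; exact hτ'⟩, smul_inv_smul t X⟩
      · rintro ⟨Y, ⟨hY, hτ'⟩, rfl⟩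
        exact ⟨quartets_smul ht hY, by rw [qType_smul]; exact hτ'⟩
    rw [e, Set.ncard_image_of_injective _ (MulAction.injective t)]
  · intro X hX
    rw [hty]
    exact h.types _ (hback X hX)
  · rw [qType_smul]
    exact h.self

theorem qOrb_any (d : Finset GolayPt) (hd : d ∈ dodecads) (Q : Finset (Finset GolayPt))
    (hQ : Q ∈ quartets d) : QOrb d Q := by
  obtain ⟨t, ht, rfl⟩ := exists_to_dodecad hd
  have hQ0 := quartets_smul ht (q_sound 0 (by norm_num))
  obtain ⟨g, hg, hgd, hgQ⟩ := quartets_trans _ hd _ Q hQ0 hQ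
  have h1 := qOrb_base.smul (mul_mem hg ht)
  rw [mul_smul, mul_smul, hgd, hgQ] at h1
  exact h1

theorem q_orbit_eq {d : Finset GolayPt} {Q : Finset (Finset GolayPt)} (h : QOrb d Q)
    (X : Finset (Finset GolayPt)) (hX : X ∈ quartets d) :
    MulAction.orbit ↥(MulAction.stabilizer M24 d ⊓ MulAction.stabilizer M24 Q) X
      = {X' | X' ∈ quartets d ∧ qType Q X' = qType Q X} := by
  ext X'
  constructor
  · rintro ⟨g, rfl⟩
    have hgd : ((g : M24) : Equiv.Perm GolayPt) • d = d :=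
      MulAction.mem_stabilizer_iff.mp g.2.1
    have hgQ : ((g : M24) : Equiv.Perm GolayPt) • Q = Q :=
      MulAction.mem_stabilizer_iff.mp g.2.2
    refine ⟨?_, ?_⟩
    · have h1 := quartets_smul (g : M24).2 hX
      rw [hgd] at h1
      exact h1
    · have e1 := qType_smul ((g : M24) : Equiv.Perm GolayPt) Q X
      rw [hgQ] at e1
      exact e1
  · rintro ⟨hX', hty⟩
    obtain ⟨g, hg, hgd, hgQ, hgX⟩ := h.trans X hX X' hX' hty.symm
    exact ⟨⟨⟨g, hg⟩, ⟨MulAction.mem_stabilizer_iff.mpr hgd,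
      MulAction.mem_stabilizer_iff.mpr hgQ⟩⟩, hgX⟩

theorem q_exists_rep {d : Finset GolayPt} {Q : Finset (Finset GolayPt)} (h : QOrb d Q) (τ : ℕ)
    (hτ : τ ∈ ({176, 304, 368, 816, 2928} : Finset ℕ)) (hn : qN τ ≠ 0) :
    ∃ X ∈ quartets d,
      MulAction.orbit ↥(MulAction.stabilizer M24 d ⊓ MulAction.stabilizer M24 Q) X
        = {X' | X' ∈ quartets d ∧ qType Q X' = τ}
      ∧ (MulAction.orbit ↥(MulAction.stabilizer M24 d ⊓ MulAction.stabilizer M24 Q) X).ncard
        = qN τ := by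
  have hc := h.count τ hτ
  have hne : {X | X ∈ quartets d ∧ qType Q X = τ}.Nonempty := by
    rw [← Set.ncard_pos (Set.toFinite _), hc]
    omega
  obtain ⟨X, hX, hXτ⟩ := hne
  have e := q_orbit_eq h X hX
  rw [hXτ] at e
  exact ⟨X, hX, e, by rw [e, hc]⟩

theorem quartet_orbits (d : Finset GolayPt) (hd : d ∈ dodecads) (Q : Finset (Finset GolayPt))
    (hQ : Q ∈ quartets d) :
    ∃ X₁ ∈ quartets d, ∃ X₂ ∈ quartets d, ∃ X₃ ∈ quartets d, ∃ X₄ ∈ quartets d,
      (MulAction.orbit ↥(MulAction.stabilizer M24 d ⊓ MulAction.stabilizer M24 Q) X₁).ncard = 12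
      ∧ (MulAction.orbit ↥(MulAction.stabilizer M24 d ⊓ MulAction.stabilizer M24 Q) X₂).ncard
        = 27
      ∧ (MulAction.orbit ↥(MulAction.stabilizer M24 d ⊓ MulAction.stabilizer M24 Q) X₃).ncard
        = 72
      ∧ (MulAction.orbit ↥(MulAction.stabilizer M24 d ⊓ MulAction.stabilizer M24 Q) X₄).ncard
        = 108
      ∧ quartets d = {Q}
        ∪ MulAction.orbit ↥(MulAction.stabilizer M24 d ⊓ MulAction.stabilizer M24 Q) X₁
        ∪ MulAction.orbit ↥(MulAction.stabilizer M24 d ⊓ MulAction.stabilizer M24 Q) X₂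
        ∪ MulAction.orbit ↥(MulAction.stabilizer M24 d ⊓ MulAction.stabilizer M24 Q) X₃
        ∪ MulAction.orbit ↥(MulAction.stabilizer M24 d ⊓ MulAction.stabilizer M24 Q) X₄ := by
  have h := qOrb_any d hd Q hQ
  obtain ⟨X₁, h1, e1, c1⟩ := q_exists_rep h 816 (by simp) (by decide)
  obtain ⟨X₂, h2, e2, c2⟩ := q_exists_rep h 368 (by simp) (by decide)
  obtain ⟨X₃, h3, e3, c3⟩ := q_exists_rep h 304 (by simp) (by decide)
  obtain ⟨X₄, h4, e4, c4⟩ := q_exists_rep h 176 (by simp) (by decide)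
  have hself : {X | X ∈ quartets d ∧ qType Q X = 2928} = {Q} := by
    have hc := h.count 2928 (by simp)
    have hc1 : qN 2928 = 1 := by decide
    rw [hc1, Set.ncard_eq_one] at hc
    obtain ⟨a, ha⟩ := hc
    have hmem : Q ∈ {X | X ∈ quartets d ∧ qType Q X = 2928} := ⟨hQ, h.self⟩
    rw [ha] at hmem ⊢
    rw [Set.mem_singleton_iff.mp hmem]
  refine ⟨X₁, h1, X₂, h2, X₃, h3, X₄, h4, by rw [c1]; decide, by rw [c2]; decide,
    by rw [c3]; decide, by rw [c4]; decide, ?_⟩
  rw [e1, e2, e3, e4, ← hself]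
  ext X
  simp only [Set.mem_union, Set.mem_ofPred_eq]
  constructor
  · intro hX
    have ht := h.types X hX
    simp only [Finset.mem_insert, Finset.mem_singleton] at ht
    rcases ht with ht | ht | ht | ht | ht
    · exact Or.inr ⟨hX, ht⟩
    · exact Or.inl (Or.inr ⟨hX, ht⟩)
    · exact Or.inl (Or.inl (Or.inr ⟨hX, ht⟩))
    · exact Or.inl (Or.inl (Or.inl (Or.inr ⟨hX, ht⟩)))
    · exact Or.inl (Or.inl (Or.inl (Or.inl ⟨hX, ht⟩)))
  · rintro ((((⟨hX, _⟩ | ⟨hX, _⟩) | ⟨hX, _⟩) | ⟨hX, _⟩) | ⟨hX, _⟩) <;> exact hX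

end Cfsg.Agent.Helper1.Golay
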