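import Mathlib
import Cfsg.Agent.Helper1.GolayFlag2
import Cfsg.Agent.Helper1.Orb1605

set_option autoImplicit false

namespace Cfsg.Agent.Helper1.Golay

open Cfsg Cfsg.Agent.Helper1
open scoped Pointwise

theorem count176 (p q : GolayPt) (hpq : p ≠ q) :
    {x : Finset GolayPt | (x ∈ octads ∧ p ∈ x ∧ q ∉ x)}.ncard = 176 := by
  classical
  have h1 := steiner_lam octads_steiner {p} (by rw [Finset.card_singleton]; norm_num)
  have h2 := steiner_lam octads_steiner {p, q} (by rw [Finset.card_pair hpq]; norm_num)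
  rw [Finset.card_singleton, card_golayPt] at h1
  rw [Finset.card_pair hpq, card_golayPt] at h2
  have c1 : (8 - 1).choose (5 - 1) = 35 := by decide
  have c2 : (24 - 1).choose (5 - 1) = 8855 := by decide
  have c3 : (8 - 2).choose (5 - 2) = 20 := by decide
  have c4 : (24 - 2).choose (5 - 2) = 1540 := by decide
  rw [c1, c2] at h1
  rw [c3, c4] at h2
  have e1 : ((blocks octads).filter (fun b => {p} ⊆ b)).card = 253 := by
    omega
  have e2 : ((blocks octads).filter (fun b => {p, q} ⊆ b)).card = 77 := by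
    omega
  have hsub : (blocks octads).filter (fun b => {p, q} ⊆ b)
      ⊆ (blocks octads).filter (fun b => {p} ⊆ b) := by
    intro b hb
    rw [Finset.mem_filter] at hb ⊢
    exact ⟨hb.1, fun a ha => hb.2 (by
      rw [Finset.mem_singleton] at ha
      rw [ha]
      exact Finset.mem_insert_self _ _)⟩
  have e : {x : Finset GolayPt | (x ∈ octads ∧ p ∈ x ∧ q ∉ x)}
      = ↑((blocks octads).filter (fun b => {p} ⊆ b)
          \ (blocks octads).filter (fun b => {p, q} ⊆ b)) := by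
    ext x
    simp only [Set.mem_ofPred_eq, Finset.coe_sdiff, Finset.coe_filter, Set.mem_sdiff,
      mem_blocks, Finset.singleton_subset_iff, Finset.insert_subset_iff, not_and]
    tauto
  rw [e, Set.ncard_coe_finset, Finset.card_sdiff_of_subset hsub, e1, e2]

theorem trans176 (p q : GolayPt) (o o' : Finset GolayPt) (ho : o ∈ octads ∧ p ∈ o ∧ q ∉ o)
    (ho' : o' ∈ octads ∧ p ∈ o' ∧ q ∉ o') :
    ∃ g : Equiv.Perm GolayPt, g ∈ M24 ∧ g p = p ∧ g q = q ∧ g • o = o' := by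
  obtain ⟨t, ht, hto, htp, htq⟩ := flag_in_out o ho.1 p q ho.2.1 ho.2.2
  obtain ⟨t', ht', hto', htp', htq'⟩ := flag_in_out o' ho'.1 p q ho'.2.1 ho'.2.2
  refine ⟨t'⁻¹ * t, M24.mul_mem (M24.inv_mem ht') ht, ?_, ?_, ?_⟩
  · rw [Equiv.Perm.mul_apply, htp]
    exact perm_eq_inv_of_apply t' htp'
  · rw [Equiv.Perm.mul_apply, htq]
    exact perm_eq_inv_of_apply t' htq'
  · rw [mul_smul, hto, ← hto', inv_smul_smul]

theorem rank1605 (p q : GolayPt) (o : Finset GolayPt) (ho : o ∈ octads) (hp : p ∈ o)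
    (hq : q ∉ o) :
    {x : Finset GolayPt | (x ∈ octads ∧ p ∈ x ∧ q ∉ x) ∧ (o ∩ x).card = 2}.ncard = 70 ∧
    {x : Finset GolayPt | (x ∈ octads ∧ p ∈ x ∧ q ∉ x) ∧ (o ∩ x).card = 4}.ncard = 105 ∧
    ∀ o' o'' : Finset GolayPt, (o' ∈ octads ∧ p ∈ o' ∧ q ∉ o') →
      (o'' ∈ octads ∧ p ∈ o'' ∧ q ∉ o'') → (o ∩ o').card = (o ∩ o'').card →
      ∃ g : Equiv.Perm GolayPt, g ∈ M24 ∧ g p = p ∧ g q = q ∧ g • o = o ∧ g • o' = o'' := by
  obtain ⟨t, ht, hto, htp, htq⟩ := flag_in_out o ho p q hp hq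
  have hmemp : ∀ s : Finset GolayPt, unpos 0 ∈ t • s ↔ p ∈ s := by
    intro s
    rw [← htp]
    exact Finset.smul_mem_smul_finset_iff t
  have hmemq : ∀ s : Finset GolayPt, unpos 1 ∈ t • s ↔ q ∈ s := by
    intro s
    rw [← htq]
    exact Finset.smul_mem_smul_finset_iff t
  have hftyp : ∀ (a : ℕ) (s : Finset GolayPt), ftyp [0, 1] a (t • s)
      = 2 * (2 * a + (if p ∈ s then 1 else 0)) + (if q ∈ s then 1 else 0) := by
    intro a s
    simp only [ftyp, List.foldl_cons, List.foldl_nil, hmemp, hmemq]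
  have hcount : ∀ k : ℕ,
      {x : Finset GolayPt | (x ∈ octads ∧ p ∈ x ∧ q ∉ x) ∧ (o ∩ x).card = k}.ncard
        = ((Finset.range 4096).filter
            (fun c => popc (comb c) = 8 ∧ typB 15 [0, 1] c = 4 * k + 2)).card := by
    intro k
    rw [← count_of_base 8 15 [0, 1] (by decide) o t ht hto (4 * k + 2)]
    congr 1
    ext o'
    simp only [Set.mem_ofPred_eq, hftyp, typ10_iff, and_assoc]
    rfl
  refine ⟨by rw [hcount 2]; exact count1605_10, by rw [hcount 4]; exact count1605_18, ?_⟩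
  rintro o' o'' ⟨ho', hp', hq'⟩ ⟨ho'', hp'', hq''⟩ h
  have hpos : 0 < (o ∩ o').card := Finset.card_pos.mpr ⟨p, Finset.mem_inter.mpr ⟨hp, hp'⟩⟩
  have hfix : ∀ g : Equiv.Perm GolayPt, (∀ i ∈ [0, 1], g (t⁻¹ (unpos i)) = t⁻¹ (unpos i)) →
      g p = p ∧ g q = q := by
    intro g hg
    have h0 := hg 0 (by simp)
    have h2 := hg 1 (by simp)
    rw [perm_eq_inv_of_apply t htp] at h0
    rw [perm_eq_inv_of_apply t htq] at h2
    exact ⟨h0, h2⟩
  rcases octad_meet_cases ho ho' with h0 | h2 | h4 | h8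
  · omega
  · obtain ⟨g, hg, hgo, hgp, hgo'⟩ := stab_trans_of_base' 8 15 [0, 1] (by decide) o t ht hto
      o' o'' ho' ho''
      (fun c' c'' hc' hc'' hw' hw'' h1 h2' => base1605 c' c'' hc' hc'' hw' hw''
        (by rw [h1, h2', hftyp, hftyp, ← h, if_pos hp', if_pos hp'', if_neg hq', if_neg hq''])
        (by rw [h1, hftyp, h2, if_pos hp', if_neg hq']; exact any1605_10))
    exact ⟨g, hg, (hfix g hgp).1, (hfix g hgp).2, hgo, hgo'⟩
  · obtain ⟨g, hg, hgo, hgp, hgo'⟩ := stab_trans_of_base' 8 15 [0, 1] (by decide) o t ht hto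
      o' o'' ho' ho''
      (fun c' c'' hc' hc'' hw' hw'' h1 h2' => base1605 c' c'' hc' hc'' hw' hw''
        (by rw [h1, h2', hftyp, hftyp, ← h, if_pos hp', if_pos hp'', if_neg hq', if_neg hq''])
        (by rw [h1, hftyp, h4, if_pos hp', if_neg hq']; exact any1605_18))
    exact ⟨g, hg, (hfix g hgp).1, (hfix g hgp).2, hgo, hgo'⟩
  · have e1 := octad_meet_eight ho ho' h8
    have e2 := octad_meet_eight ho ho'' (by rw [← h, h8])
    exact ⟨1, M24.one_mem, rfl, rfl, one_smul _ _, by rw [e1, e2, one_smul]⟩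

end Cfsg.Agent.Helper1.Golay
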