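import Mathlib
import Cfsg.Agent.Helper1.GolayFlag
import Cfsg.Agent.Helper1.Orb1607

set_option autoImplicit false

namespace Cfsg.Agent.Helper1.Golay

open Cfsg Cfsg.Agent.Helper1
open scoped Pointwise

theorem rank1607 (x : GolayPt) (o : Finset GolayPt) (ho : o ∈ octads) (hx : x ∈ o) :
    {o' : Finset GolayPt | o' ∈ octads ∧ x ∈ o' ∧ (o ∩ o').card = 2}.ncard = 112 ∧
    {o' : Finset GolayPt | o' ∈ octads ∧ x ∈ o' ∧ (o ∩ o').card = 4}.ncard = 140 ∧
    ∀ o' o'' : Finset GolayPt, o' ∈ octads → o'' ∈ octads → x ∈ o' → x ∈ o'' →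
      (o ∩ o').card = (o ∩ o'').card →
      ∃ g : Equiv.Perm GolayPt, g ∈ M24 ∧ g x = x ∧ g • o = o ∧ g • o' = o'' := by
  obtain ⟨t, ht, hto, htx⟩ := flag_in o ho x hx
  have hmemx : ∀ s : Finset GolayPt, unpos 0 ∈ t • s ↔ x ∈ s := by
    intro s
    rw [← htx]
    exact Finset.smul_mem_smul_finset_iff t
  have hftyp : ∀ (a : ℕ) (s : Finset GolayPt),
      ftyp [0] a (t • s) = 2 * a + (if x ∈ s then 1 else 0) := by
    intro a s
    simp only [ftyp, List.foldl_cons, List.foldl_nil, hmemx]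
  have hcount : ∀ k : ℕ,
      {o' : Finset GolayPt | o' ∈ octads ∧ x ∈ o' ∧ (o ∩ o').card = k}.ncard
        = ((Finset.range 4096).filter
            (fun c => popc (comb c) = 8 ∧ typB 15 [0] c = 2 * k + 1)).card := by
    intro k
    rw [← count_of_base 8 15 [0] (by decide) o t ht hto (2 * k + 1)]
    congr 1
    ext o'
    simp only [Set.mem_ofPred_eq, hftyp, typ1_iff]
    rfl
  refine ⟨by rw [hcount 2]; exact count1607_5, by rw [hcount 4]; exact count1607_9, ?_⟩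
  intro o' o'' ho' ho'' hx' hx'' h
  have hpos : 0 < (o ∩ o').card := Finset.card_pos.mpr ⟨x, Finset.mem_inter.mpr ⟨hx, hx'⟩⟩
  have hfix : ∀ g : Equiv.Perm GolayPt, (∀ i ∈ [0], g (t⁻¹ (unpos i)) = t⁻¹ (unpos i)) →
      g x = x := by
    intro g hg
    have h0 := hg 0 (by simp)
    rwa [perm_eq_inv_of_apply t htx] at h0
  rcases octad_meet_cases ho ho' with h0 | h2 | h4 | h8
  · omega
  · obtain ⟨g, hg, hgo, hgp, hgo'⟩ := stab_trans_of_base' 8 15 [0] (by decide) o t ht hto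
      o' o'' ho' ho''
      (fun c' c'' hc' hc'' hp' hp'' h1 h2' => base1607 c' c'' hc' hc'' hp' hp''
        (by rw [h1, h2', hftyp, hftyp, ← h, if_pos hx', if_pos hx''])
        (by rw [h1, hftyp, h2, if_pos hx']; exact any1607_5))
    exact ⟨g, hg, hfix g hgp, hgo, hgo'⟩
  · obtain ⟨g, hg, hgo, hgp, hgo'⟩ := stab_trans_of_base' 8 15 [0] (by decide) o t ht hto
      o' o'' ho' ho''
      (fun c' c'' hc' hc'' hp' hp'' h1 h2' => base1607 c' c'' hc' hc'' hp' hp''
        (by rw [h1, h2', hftyp, hftyp, ← h, if_pos hx', if_pos hx''])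
        (by rw [h1, hftyp, h4, if_pos hx']; exact any1607_9))
    exact ⟨g, hg, hfix g hgp, hgo, hgo'⟩
  · have e1 := octad_meet_eight ho ho' h8
    have e2 := octad_meet_eight ho ho'' (by rw [← h, h8])
    exact ⟨1, M24.one_mem, rfl, one_smul _ _, by rw [e1, e2, one_smul]⟩

end Cfsg.Agent.Helper1.Golay
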