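import Mathlib
import Cfsg.Agent.Helper1.GolayFlag
import Cfsg.Agent.Helper1.GolayMeet
import Cfsg.Agent.Helper1.Orb1639

set_option autoImplicit false

namespace Cfsg.Agent.Helper1.Golay

open Cfsg Cfsg.Agent.Helper1
open scoped Pointwise

theorem rank1639 (x : GolayPt) (d : Finset GolayPt) (hd : d ∈ dodecads) (hx : x ∈ d) :
    {d' : Finset GolayPt | d' ∈ dodecads ∧ x ∈ d' ∧ (d ∩ d').card = 4}.ncard = 165 ∧
    {d' : Finset GolayPt | d' ∈ dodecads ∧ x ∈ d' ∧ (d ∩ d').card = 8}.ncard = 330 ∧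
    {d' : Finset GolayPt | d' ∈ dodecads ∧ x ∈ d' ∧ (d ∩ d').card = 6}.ncard = 792 ∧
    ∀ d' d'' : Finset GolayPt, d' ∈ dodecads → d'' ∈ dodecads → x ∈ d' → x ∈ d'' →
      (d ∩ d').card = (d ∩ d'').card →
      ∃ g : Equiv.Perm GolayPt, g ∈ M24 ∧ g x = x ∧ g • d = d ∧ g • d' = d'' := by
  obtain ⟨t, ht, hto, htx⟩ := flag_dod d hd x hx
  have hmemx : ∀ s : Finset GolayPt, unpos 0 ∈ t • s ↔ x ∈ s := by
    intro s
    rw [← htx]
    exact Finset.smul_mem_smul_finset_iff t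
  have hftyp : ∀ (a : ℕ) (s : Finset GolayPt),
      ftyp [0] a (t • s) = 2 * a + (if x ∈ s then 1 else 0) := by
    intro a s
    simp only [ftyp, List.foldl_cons, List.foldl_nil, hmemx]
  have hcount : ∀ k : ℕ,
      {d' : Finset GolayPt | d' ∈ dodecads ∧ x ∈ d' ∧ (d ∩ d').card = k}.ncard
        = ((Finset.range 4096).filter
            (fun c => popc (comb c) = 12 ∧ typB 1 [0] c = 2 * k + 1)).card := by
    intro k
    rw [← count_of_base 12 1 [0] (by decide) d t ht hto (2 * k + 1)]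
    congr 1
    ext d'
    simp only [Set.mem_ofPred_eq, hftyp, typ1_iff]
    rfl
  refine ⟨by rw [hcount 4]; exact count1639_9, by rw [hcount 8]; exact count1639_17,
    by rw [hcount 6]; exact count1639_13, ?_⟩
  intro d' d'' hd' hd'' hx' hx'' h
  have hpos : 0 < (d ∩ d').card := Finset.card_pos.mpr ⟨x, Finset.mem_inter.mpr ⟨hx, hx'⟩⟩
  have hfix : ∀ g : Equiv.Perm GolayPt, (∀ i ∈ [0], g (t⁻¹ (unpos i)) = t⁻¹ (unpos i)) →
      g x = x := by
    intro g hg
    have h0 := hg 0 (by simp)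
    rwa [perm_eq_inv_of_apply t htx] at h0
  rcases dodecad_meet_cases hd hd' with h0 | h4 | h6 | h8 | h12
  · omega
  · obtain ⟨g, hg, hgo, hgp, hgo'⟩ := stab_trans_of_base' 12 1 [0] (by decide) d t ht hto
      d' d'' hd' hd''
      (fun c' c'' hc' hc'' hp' hp'' h1 h2' => base1639 c' c'' hc' hc'' hp' hp''
        (by rw [h1, h2', hftyp, hftyp, ← h, if_pos hx', if_pos hx''])
        (by rw [h1, hftyp, h4, if_pos hx']; exact any1639_9))
    exact ⟨g, hg, hfix g hgp, hgo, hgo'⟩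
  · obtain ⟨g, hg, hgo, hgp, hgo'⟩ := stab_trans_of_base' 12 1 [0] (by decide) d t ht hto
      d' d'' hd' hd''
      (fun c' c'' hc' hc'' hp' hp'' h1 h2' => base1639 c' c'' hc' hc'' hp' hp''
        (by rw [h1, h2', hftyp, hftyp, ← h, if_pos hx', if_pos hx''])
        (by rw [h1, hftyp, h6, if_pos hx']; exact any1639_13))
    exact ⟨g, hg, hfix g hgp, hgo, hgo'⟩
  · obtain ⟨g, hg, hgo, hgp, hgo'⟩ := stab_trans_of_base' 12 1 [0] (by decide) d t ht hto
      d' d'' hd' hd''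
      (fun c' c'' hc' hc'' hp' hp'' h1 h2' => base1639 c' c'' hc' hc'' hp' hp''
        (by rw [h1, h2', hftyp, hftyp, ← h, if_pos hx', if_pos hx''])
        (by rw [h1, hftyp, h8, if_pos hx']; exact any1639_17))
    exact ⟨g, hg, hfix g hgp, hgo, hgo'⟩
  · have e1 := dodecad_meet_twelve hd hd' h12
    have e2 := dodecad_meet_twelve hd hd'' (by rw [← h, h12])
    exact ⟨1, M24.one_mem, rfl, one_smul _ _, by rw [e1, e2, one_smul]⟩

end Cfsg.Agent.Helper1.Golay
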