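import Mathlib
import Cfsg.Agent.Helper1.Steiner2

set_option autoImplicit false

namespace Cfsg.Agent.Helper1

open Finset

variable {α : Type*} [Fintype α] [DecidableEq α]

/-- The number of blocks meeting `b` exactly in `s`. -/
noncomputable def exactNum (B : Set (Finset α)) (b s : Finset α) : ℕ :=
  ((blocks B).filter (fun c => b ∩ c = s)).card

theorem ncard_setOf_exact (B : Set (Finset α)) (b s : Finset α) :
    {c : Finset α | c ∈ B ∧ b ∩ c = s}.ncard = exactNum B b s := by
  have hset : {c : Finset α | c ∈ B ∧ b ∩ c = s}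
      = ↑((blocks B).filter (fun c => b ∩ c = s)) := by
    ext c
    rw [Finset.coe_filter]
    simp only [Set.mem_ofPred_eq, mem_blocks]
  rw [hset, Set.ncard_coe_finset, exactNum]

/-- The blocks containing a subset `s` of `b` are sorted by their intersection with `b`. -/
theorem card_filter_subset_eq_sum (B : Set (Finset α)) (b s : Finset α) (hs : s ⊆ b) :
    ((blocks B).filter (fun c => s ⊆ c)).card
      = ∑ t ∈ (b.powerset).filter (fun t => s ⊆ t), exactNum B b t := by
  have h : (blocks B).filter (fun c => s ⊆ c)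
      = ((b.powerset).filter (fun t => s ⊆ t)).biUnion
          (fun t => (blocks B).filter (fun c => b ∩ c = t)) := by
    ext c
    simp only [Finset.mem_filter, Finset.mem_biUnion, Finset.mem_powerset]
    constructor
    · rintro ⟨hc, hsc⟩
      exact ⟨b ∩ c, ⟨Finset.inter_subset_left, Finset.subset_inter hs hsc⟩, hc, rfl⟩
    · rintro ⟨t, ⟨-, hst⟩, hc, rfl⟩
      exact ⟨hc, hst.trans Finset.inter_subset_right⟩
  rw [h, Finset.card_biUnion]
  · rfl
  · intro t1 _ t2 _ hne
    rw [Function.onFun, Finset.disjoint_left]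
    intro c h1 h2
    rw [Finset.mem_filter] at h1 h2
    exact hne (h1.2.symm.trans h2.2)

theorem sum_by_card (b s : Finset α) (f : Finset α → ℕ) :
    ∑ t ∈ (b.powerset).filter (fun t => s ⊆ t), f t
      = ∑ i ∈ Finset.range (b.card + 1),
          ∑ t ∈ (b.powersetCard i).filter (fun t => s ⊆ t), f t := by
  rw [← Finset.sum_fiberwise_of_maps_to (g := fun t : Finset α => t.card)
    (t := Finset.range (b.card + 1))]
  · apply Finset.sum_congr rfl
    intro i _
    apply Finset.sum_congr _ (fun _ _ => rfl)
    ext t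
    simp only [Finset.mem_filter, Finset.mem_powerset, Finset.mem_powersetCard]
    tauto
  · intro t ht
    rw [Finset.mem_filter, Finset.mem_powerset] at ht
    rw [Finset.mem_range, Nat.lt_succ_iff]
    exact Finset.card_le_card ht.1

theorem inner_const (b s : Finset α) (hs : s ⊆ b) (i : ℕ) (hi : s.card ≤ i)
    (f : Finset α → ℕ) (v : ℕ) (hf : ∀ t, t ⊆ b → t.card = i → f t = v) :
    ∑ t ∈ (b.powersetCard i).filter (fun t => s ⊆ t), f t
      = Nat.choose (b.card - s.card) (i - s.card) * v := by
  rw [Finset.sum_congr rfl (g := fun _ => v), Finset.sum_const, smul_eq_mul,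
    card_filter_superset b s hs i hi]
  intro t ht
  rw [Finset.mem_filter, Finset.mem_powersetCard] at ht
  exact hf t ht.1.1 ht.1.2

theorem inner_empty (b s : Finset α) (i : ℕ) (hi : i < s.card) (f : Finset α → ℕ) :
    ∑ t ∈ (b.powersetCard i).filter (fun t => s ⊆ t), f t = 0 := by
  apply Finset.sum_eq_zero
  intro t ht
  rw [Finset.mem_filter, Finset.mem_powersetCard] at ht
  have := Finset.card_le_card ht.2
  omega

theorem inner_self (b s : Finset α) (hs : s ⊆ b) (i : ℕ) (hi : s.card = i)
    (f : Finset α → ℕ) :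
    ∑ t ∈ (b.powersetCard i).filter (fun t => s ⊆ t), f t = f s := by
  have h : (b.powersetCard i).filter (fun t => s ⊆ t) = {s} := by
    ext t
    simp only [Finset.mem_filter, Finset.mem_powersetCard, Finset.mem_singleton]
    constructor
    · rintro ⟨⟨-, hc⟩, hst⟩
      exact (Finset.eq_of_subset_of_card_le hst (by omega)).symm
    · rintro rfl
      exact ⟨⟨hs, hi⟩, Finset.Subset.refl _⟩
  rw [h, Finset.sum_singleton]

/-- The Leech triangle of a Steiner system S(5, 6, 12). -/
theorem leech_5_6_12 (hα : Fintype.card α = 12) {B : Set (Finset α)}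
    (hB : Cfsg.IsSteinerSystem 5 6 B) (b : Finset α) (hb : b ∈ B) :
    (∀ c ∈ B, c ≠ b → (b ∩ c).card = 0 ∨ (b ∩ c).card = 2 ∨ (b ∩ c).card = 3
      ∨ (b ∩ c).card = 4)
    ∧ ∀ s ⊆ b, (s.card = 2 → exactNum B b s = 3) ∧ (s.card = 3 → exactNum B b s = 2)
      ∧ (s.card = 4 → exactNum B b s = 3) := by
  have hb6 : b.card = 6 := hB.1 b hb
  have hm := fun j hj => steiner_moment hB hb j hj
  have h6 := interNum_self hB hb
  have h5 := interNum_eq_zero hB hb (i := 5) (by norm_num) (by norm_num)
  have m4 := hm 4 (by norm_num)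
  have m3 := hm 3 (by norm_num)
  have m2 := hm 2 (by norm_num)
  have m1 := hm 1 (by norm_num)
  have m0 := hm 0 (by norm_num)
  simp only [Finset.sum_range_succ, Finset.sum_range_zero, h5, h6, hα] at m4 m3 m2 m1 m0
  norm_num [Nat.choose] at m4 m3 m2 m1 m0
  have n1 : interNum B b 1 = 0 := by omega
  -- the top of the triangle
  have N6 : exactNum B b b = 1 := by
    rw [exactNum, Finset.card_eq_one]
    refine ⟨b, ?_⟩
    ext c
    rw [Finset.mem_filter, Finset.mem_singleton, mem_blocks]
    constructor
    · rintro ⟨hc, hcb⟩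
      have h1 : b ⊆ c := by
        rw [← hcb]
        exact Finset.inter_subset_right
      exact (Finset.eq_of_subset_of_card_le h1 (by rw [hB.1 c hc, hb6])).symm
    · rintro rfl
      exact ⟨hb, Finset.inter_self _⟩
  have N5 : ∀ t, t ⊆ b → t.card = 5 → exactNum B b t = 0 := by
    intro t _ ht5
    rw [exactNum, Finset.card_eq_zero, Finset.filter_eq_empty_iff]
    intro c hc hcb
    rw [mem_blocks] at hc
    have h1 := steiner_eq_of_le_card_inter hB hb hc (by rw [hcb, ht5])
    subst h1
    rw [Finset.inter_self] at hcb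
    rw [← hcb, hb6] at ht5
    omega
  have key : ∀ s, s ⊆ b → ((blocks B).filter (fun c => s ⊆ c)).card
      = ∑ i ∈ Finset.range 7, ∑ t ∈ (b.powersetCard i).filter (fun t => s ⊆ t),
          exactNum B b t := by
    intro s hs
    rw [card_filter_subset_eq_sum B b s hs, sum_by_card, hb6]
  have Nb : ∀ s, s ⊆ b → ∑ t ∈ (b.powersetCard 6).filter (fun t => s ⊆ t), exactNum B b t
      = 1 := by
    intro s hs
    have h : (b.powersetCard 6).filter (fun t => s ⊆ t) = {b} := by
      ext t
      simp only [Finset.mem_filter, Finset.mem_powersetCard, Finset.mem_singleton]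
      constructor
      · rintro ⟨⟨htb, hc⟩, -⟩
        exact Finset.eq_of_subset_of_card_le htb (by omega)
      · rintro rfl
        exact ⟨⟨Finset.Subset.refl _, hb6⟩, hs⟩
    rw [h, Finset.sum_singleton, N6]
  have N4 : ∀ s, s ⊆ b → s.card = 4 → exactNum B b s = 3 := by
    intro s hs h4
    have hk := key s hs
    have hl := steiner_lam hB s (by omega)
    rw [hα, h4] at hl
    norm_num [Nat.choose] at hl
    simp only [Finset.sum_range_succ, Finset.sum_range_zero] at hk
    rw [inner_empty b s 0 (by omega), inner_empty b s 1 (by omega),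
      inner_empty b s 2 (by omega), inner_empty b s 3 (by omega),
      inner_self b s hs 4 h4, inner_const b s hs 5 (by omega) _ 0 N5, Nb s hs] at hk
    omega
  have N3 : ∀ s, s ⊆ b → s.card = 3 → exactNum B b s = 2 := by
    intro s hs h3
    have hk := key s hs
    have hl := steiner_lam hB s (by omega)
    rw [hα, h3] at hl
    norm_num [Nat.choose] at hl
    simp only [Finset.sum_range_succ, Finset.sum_range_zero] at hk
    rw [inner_empty b s 0 (by omega), inner_empty b s 1 (by omega),
      inner_empty b s 2 (by omega), inner_self b s hs 3 h3,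
      inner_const b s hs 4 (by omega) _ 3 (fun t ht h => N4 t ht h),
      inner_const b s hs 5 (by omega) _ 0 N5, Nb s hs, hb6, h3] at hk
    norm_num [Nat.choose] at hk
    omega
  have N2 : ∀ s, s ⊆ b → s.card = 2 → exactNum B b s = 3 := by
    intro s hs h2
    have hk := key s hs
    have hl := steiner_lam hB s (by omega)
    rw [hα, h2] at hl
    norm_num [Nat.choose] at hl
    simp only [Finset.sum_range_succ, Finset.sum_range_zero] at hk
    rw [inner_empty b s 0 (by omega), inner_empty b s 1 (by omega),
      inner_self b s hs 2 h2,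
      inner_const b s hs 3 (by omega) _ 2 (fun t ht h => N3 t ht h),
      inner_const b s hs 4 (by omega) _ 3 (fun t ht h => N4 t ht h),
      inner_const b s hs 5 (by omega) _ 0 N5, Nb s hs, hb6, h2] at hk
    norm_num [Nat.choose] at hk
    omega
  refine ⟨?_, fun s hs => ⟨N2 s hs, N3 s hs, N4 s hs⟩⟩
  intro c hc hcb
  have hne1 := card_inter_ne_of_interNum_eq_zero n1 hc
  have hle : (b ∩ c).card ≤ 6 := by
    rw [← hb6]
    exact Finset.card_le_card Finset.inter_subset_left
  have hlt : (b ∩ c).card < 5 := by
    by_contra hcon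
    exact hcb (steiner_eq_of_le_card_inter hB hb hc (by omega)).symm
  omega

end Cfsg.Agent.Helper1
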