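import Mathlib
import Cfsg.Agent.Helper1.Steiner2
import Cfsg.Agent.S0356

set_option autoImplicit false

namespace Cfsg.Agent.Helper1

open Finset

variable {α : Type*} [Fintype α] [DecidableEq α]

theorem s22_inter (hα : Fintype.card α = 22) {B : Set (Finset α)}
    (hB : Cfsg.IsSteinerSystem 3 6 B) {b c : Finset α} (hb : b ∈ B) (hc : c ∈ B)
    (hbc : b ≠ c) : (b ∩ c).card = 0 ∨ (b ∩ c).card = 2 :=
  Cfsg.Agent.S0356.result hα hB hb hc hbc

theorem s22_n0 (hα : Fintype.card α = 22) {B : Set (Finset α)}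
    (hB : Cfsg.IsSteinerSystem 3 6 B) {b : Finset α} (hb : b ∈ B) : interNum B b 0 = 16 := by
  have hm := fun j hj => steiner_moment hB hb j hj
  have h6 := interNum_self hB hb
  have h3 := interNum_eq_zero hB hb (i := 3) (by norm_num) (by norm_num)
  have h4 := interNum_eq_zero hB hb (i := 4) (by norm_num) (by norm_num)
  have h5 := interNum_eq_zero hB hb (i := 5) (by norm_num) (by norm_num)
  have m2 := hm 2 (by norm_num)
  have m1 := hm 1 (by norm_num)
  have m0 := hm 0 (by norm_num)
  simp only [Finset.sum_range_succ, Finset.sum_range_zero, h3, h4, h5, h6, hα] at m2 m1 m0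
  norm_num [Nat.choose] at m2 m1 m0
  omega

theorem s22_card (hα : Fintype.card α = 22) {B : Set (Finset α)}
    (hB : Cfsg.IsSteinerSystem 3 6 B) : (blocks B).card = 77 := by
  have h := steiner_lam hB (∅ : Finset α) (by simp)
  have e : (blocks B).filter (fun b => (∅ : Finset α) ⊆ b) = blocks B :=
    Finset.filter_true_of_mem (fun b _ => Finset.empty_subset b)
  rw [e, hα] at h
  norm_num [Nat.choose] at h
  omega

/-- A third block meets the union of two blocks in few points. -/
theorem s22_third (hα : Fintype.card α = 22) {B : Set (Finset α)}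
    (hB : Cfsg.IsSteinerSystem 3 6 B) {v w c : Finset α} (hv : v ∈ B) (hw : w ∈ B)
    (hc : c ∈ B) (hcv : c ≠ v) (hcw : c ≠ w) :
    ((v ∪ w) ∩ c).card ≤ 4 ∧ ((v ∪ w) ∩ c).card ≠ 1
      ∧ (Disjoint v w → ((v ∪ w) ∩ c).card ≠ 3) := by
  have ha := s22_inter hα hB hv hc (Ne.symm hcv)
  have hb := s22_inter hα hB hw hc (Ne.symm hcw)
  have e : (v ∪ w) ∩ c = (v ∩ c) ∪ (w ∩ c) := Finset.union_inter_distrib_right v w c
  have h1 : ((v ∪ w) ∩ c).card ≤ (v ∩ c).card + (w ∩ c).card := by
    rw [e]
    exact Finset.card_union_le _ _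
  have h2 : (v ∩ c).card ≤ ((v ∪ w) ∩ c).card := by
    rw [e]
    exact Finset.card_le_card Finset.subset_union_left
  have h3 : (w ∩ c).card ≤ ((v ∪ w) ∩ c).card := by
    rw [e]
    exact Finset.card_le_card Finset.subset_union_right
  refine ⟨by omega, by omega, fun hd => ?_⟩
  have hd2 : Disjoint (v ∩ c) (w ∩ c) :=
    Finset.disjoint_of_subset_left Finset.inter_subset_left
      (Finset.disjoint_of_subset_right Finset.inter_subset_left hd)
  have h4 : ((v ∪ w) ∩ c).card = (v ∩ c).card + (w ∩ c).card := by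
    rw [e]
    exact Finset.card_union_of_disjoint hd2
  omega

theorem s22_six (hα : Fintype.card α = 22) {B : Set (Finset α)}
    (hB : Cfsg.IsSteinerSystem 3 6 B) {v w : Finset α} (hv : v ∈ B) (hw : w ∈ B)
    (hvw : v ≠ w) : interNum B (v ∪ w) 6 = 2 := by
  have h : (blocks B).filter (fun c => ((v ∪ w) ∩ c).card = 6) = {v, w} := by
    ext c
    rw [Finset.mem_filter, mem_blocks, Finset.mem_insert, Finset.mem_singleton]
    constructor
    · rintro ⟨hc, h6⟩
      by_contra hcon
      push Not at hcon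
      have := (s22_third hα hB hv hw hc hcon.1 hcon.2).1
      omega
    · rintro (rfl | rfl)
      · refine ⟨hv, ?_⟩
        rw [Finset.inter_eq_right.mpr Finset.subset_union_left, hB.1 c hv]
      · refine ⟨hw, ?_⟩
        rw [Finset.inter_eq_right.mpr Finset.subset_union_right, hB.1 c hw]
  rw [interNum, h, Finset.card_pair hvw]

theorem s22_zero_of (hα : Fintype.card α = 22) {B : Set (Finset α)}
    (hB : Cfsg.IsSteinerSystem 3 6 B) {v w : Finset α} (hv : v ∈ B) (hw : w ∈ B)
    (hvw : v ≠ w) (i : ℕ)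
    (hi : ∀ c ∈ B, c ≠ v → c ≠ w → ((v ∪ w) ∩ c).card ≠ i) (hi6 : i ≠ 6) :
    interNum B (v ∪ w) i = 0 := by
  apply interNum_eq_zero_of_forall
  intro c hc
  by_cases h1 : c = v
  · rw [h1, Finset.inter_eq_right.mpr Finset.subset_union_left, hB.1 v hv]
    exact Ne.symm hi6
  by_cases h2 : c = w
  · rw [h2, Finset.inter_eq_right.mpr Finset.subset_union_right, hB.1 w hw]
    exact Ne.symm hi6
  exact hi c hc h1 h2

theorem s22_bound {B : Set (Finset α)} (hB : Cfsg.IsSteinerSystem 3 6 B) (X : Finset α) :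
    ∀ c ∈ B, (X ∩ c).card < 7 := by
  intro c hc
  have := Finset.card_le_card (Finset.inter_subset_right (s₁ := X) (s₂ := c))
  rw [hB.1 c hc] at this
  omega

/-- No block is disjoint from two disjoint blocks. -/
theorem s22_lam (hα : Fintype.card α = 22) {B : Set (Finset α)}
    (hB : Cfsg.IsSteinerSystem 3 6 B) {v w : Finset α} (hv : v ∈ B) (hw : w ∈ B)
    (hd : Disjoint v w) : interNum B (v ∪ w) 0 = 0 := by
  have hvw : v ≠ w := by
    rintro rfl
    rw [disjoint_self, Finset.bot_eq_empty] at hd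
    have := hB.1 v hv
    rw [hd] at this
    simp at this
  have hX : (v ∪ w).card = 12 := by
    rw [Finset.card_union_of_disjoint hd, hB.1 v hv, hB.1 w hw]
  have hm := fun j hj => steiner_moment' hB (v ∪ w) 7 (s22_bound hB _) j hj
  have h6 := s22_six hα hB hv hw hvw
  have h1 := s22_zero_of hα hB hv hw hvw 1
    (fun c hc h1 h2 => (s22_third hα hB hv hw hc h1 h2).2.1) (by norm_num)
  have h3 := s22_zero_of hα hB hv hw hvw 3
    (fun c hc h1 h2 => (s22_third hα hB hv hw hc h1 h2).2.2 hd) (by norm_num)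
  have h5 := s22_zero_of hα hB hv hw hvw 5
    (fun c hc h1 h2 => by have := (s22_third hα hB hv hw hc h1 h2).1; omega) (by norm_num)
  have m2 := hm 2 (by norm_num)
  have m1 := hm 1 (by norm_num)
  have m0 := hm 0 (by norm_num)
  simp only [Finset.sum_range_succ, Finset.sum_range_zero, h1, h3, h5, h6, hα, hX]
    at m2 m1 m0
  norm_num [Nat.choose] at m2 m1 m0
  omega

/-- Four blocks are disjoint from two blocks meeting in two points. -/
theorem s22_mu (hα : Fintype.card α = 22) {B : Set (Finset α)}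
    (hB : Cfsg.IsSteinerSystem 3 6 B) {v w : Finset α} (hv : v ∈ B) (hw : w ∈ B)
    (hvw : v ≠ w) (hd : ¬ Disjoint v w) : interNum B (v ∪ w) 0 = 4 := by
  have h2 : (v ∩ w).card = 2 := by
    rcases s22_inter hα hB hv hw hvw with h | h
    · exfalso
      apply hd
      rw [Finset.disjoint_iff_inter_eq_empty]
      exact Finset.card_eq_zero.mp h
    · exact h
  have hX : (v ∪ w).card = 10 := by
    have := Finset.card_union_add_card_inter v w
    rw [hB.1 v hv, hB.1 w hw, h2] at this
    omega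
  have hm := fun j hj => steiner_moment' hB (v ∪ w) 7 (s22_bound hB _) j hj
  have h6 := s22_six hα hB hv hw hvw
  have h1 := s22_zero_of hα hB hv hw hvw 1
    (fun c hc h1 h2 => (s22_third hα hB hv hw hc h1 h2).2.1) (by norm_num)
  have h5 := s22_zero_of hα hB hv hw hvw 5
    (fun c hc h1 h2 => by have := (s22_third hα hB hv hw hc h1 h2).1; omega) (by norm_num)
  have m3 := hm 3 (by norm_num)
  have m2 := hm 2 (by norm_num)
  have m1 := hm 1 (by norm_num)
  have m0 := hm 0 (by norm_num)
  simp only [Finset.sum_range_succ, Finset.sum_range_zero, h1, h5, h6, hα, hX]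
    at m3 m2 m1 m0
  norm_num [Nat.choose] at m3 m2 m1 m0
  omega

theorem bg_adj {B : Set (Finset α)} (v w : ↥B) :
    (Cfsg.blockGraph B).Adj v w ↔ v ≠ w ∧ Disjoint (v : Finset α) (w : Finset α) := by
  unfold Cfsg.blockGraph
  rw [SimpleGraph.fromRel_adj]
  constructor
  · rintro ⟨h1, h2 | h2⟩
    · exact ⟨h1, h2⟩
    · exact ⟨h1, h2.symm⟩
  · rintro ⟨h1, h2⟩
    exact ⟨h1, Or.inl h2⟩

theorem bg_neighbors (hα : Fintype.card α = 22) {B : Set (Finset α)}
    (hB : Cfsg.IsSteinerSystem 3 6 B) (v : ↥B) :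
    Subtype.val '' ((Cfsg.blockGraph B).neighborSet v)
      = {c : Finset α | c ∈ B ∧ ((v : Finset α) ∩ c).card = 0} := by
  ext c
  constructor
  · rintro ⟨u, hu, rfl⟩
    rw [SimpleGraph.mem_neighborSet, bg_adj] at hu
    refine ⟨u.2, ?_⟩
    rw [Finset.card_eq_zero, ← Finset.disjoint_iff_inter_eq_empty]
    exact hu.2
  · rintro ⟨hc, h0⟩
    refine ⟨⟨c, hc⟩, ?_, rfl⟩
    rw [SimpleGraph.mem_neighborSet, bg_adj]
    rw [Finset.card_eq_zero, ← Finset.disjoint_iff_inter_eq_empty] at h0
    refine ⟨?_, h0⟩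
    intro e
    rw [e] at h0
    have h1 : Disjoint c c := h0
    rw [disjoint_self, Finset.bot_eq_empty] at h1
    have := hB.1 c hc
    rw [h1] at this
    simp at this

theorem bg_common (hα : Fintype.card α = 22) {B : Set (Finset α)}
    (hB : Cfsg.IsSteinerSystem 3 6 B) (v w : ↥B) :
    Subtype.val '' ((Cfsg.blockGraph B).commonNeighbors v w)
      = {c : Finset α | c ∈ B ∧ (((v : Finset α) ∪ (w : Finset α)) ∩ c).card = 0} := by
  have hne : ∀ c : Finset α, c ∈ B → ¬ Disjoint c c := by
    intro c hc h1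
    rw [disjoint_self, Finset.bot_eq_empty] at h1
    have := hB.1 c hc
    rw [h1] at this
    simp at this
  ext c
  constructor
  · rintro ⟨u, hu, rfl⟩
    rw [SimpleGraph.mem_commonNeighbors, bg_adj, bg_adj] at hu
    refine ⟨u.2, ?_⟩
    rw [Finset.card_eq_zero, ← Finset.disjoint_iff_inter_eq_empty, Finset.disjoint_union_left]
    exact ⟨hu.1.2, hu.2.2⟩
  · rintro ⟨hc, h0⟩
    rw [Finset.card_eq_zero, ← Finset.disjoint_iff_inter_eq_empty,
      Finset.disjoint_union_left] at h0
    refine ⟨⟨c, hc⟩, ?_, rfl⟩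
    rw [SimpleGraph.mem_commonNeighbors, bg_adj, bg_adj]
    refine ⟨⟨?_, h0.1⟩, ⟨?_, h0.2⟩⟩
    · intro e
      apply hne c hc
      have h1 := h0.1
      rw [e] at h1
      exact h1
    · intro e
      apply hne c hc
      have h1 := h0.2
      rw [e] at h1
      exact h1

theorem srg22 (hα : Fintype.card α = 22) {B : Set (Finset α)}
    (hB : Cfsg.IsSteinerSystem 3 6 B) [Fintype B] [DecidableRel (Cfsg.blockGraph B).Adj] :
    (Cfsg.blockGraph B).IsSRGWith 77 16 0 4 := by
  refine ⟨?_, ?_, ?_, ?_⟩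
  · rw [← Nat.card_eq_fintype_card, _root_.Nat.card_coe_set_eq, ← card_blocks]
    exact s22_card hα hB
  · intro v
    rw [← SimpleGraph.card_neighborSet_eq_degree, ← Nat.card_eq_fintype_card,
      _root_.Nat.card_coe_set_eq, ← Set.ncard_image_of_injective _ Subtype.val_injective,
      bg_neighbors hα hB v, ncard_setOf_inter]
    exact s22_n0 hα hB v.2
  · intro v w hadj
    rw [← Nat.card_eq_fintype_card, _root_.Nat.card_coe_set_eq,
      ← Set.ncard_image_of_injective _ Subtype.val_injective, bg_common hα hB v w,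
      ncard_setOf_inter]
    exact s22_lam hα hB v.2 w.2 ((bg_adj v w).mp hadj).2
  · intro v w hne hnadj
    rw [← Nat.card_eq_fintype_card, _root_.Nat.card_coe_set_eq,
      ← Set.ncard_image_of_injective _ Subtype.val_injective, bg_common hα hB v w,
      ncard_setOf_inter]
    apply s22_mu hα hB v.2 w.2
    · intro e
      exact hne (Subtype.ext e)
    · intro hd
      exact hnadj ((bg_adj v w).mpr ⟨hne, hd⟩)

end Cfsg.Agent.Helper1
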