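import Mathlib
import Cfsg.Agent.Helper1.Steiner4

set_option autoImplicit false

namespace Cfsg.Agent.Helper1

variable {α : Type*} [Fintype α] [DecidableEq α]

theorem pb_adj (B : Set (Finset α)) (x y : Option (α ⊕ ↥B)) :
    (Cfsg.pointBlockGraph B).Adj x y ↔
      x ≠ y ∧ (Cfsg.pointBlockRel B x y ∨ Cfsg.pointBlockRel B y x) := by
  unfold Cfsg.pointBlockGraph
  rw [SimpleGraph.fromRel_adj]

theorem pbA_nn (B : Set (Finset α)) :
    (Cfsg.pointBlockGraph B).Adj none none ↔ False := by
  rw [pb_adj]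
  constructor
  · rintro ⟨h, -⟩
    exact h rfl
  · exact False.elim

theorem pbA_np (B : Set (Finset α)) (a : α) :
    (Cfsg.pointBlockGraph B).Adj none (some (Sum.inl a)) ↔ True := by
  rw [pb_adj]
  exact iff_of_true ⟨(fun h => nomatch h), Or.inl trivial⟩ trivial

theorem pbA_pn (B : Set (Finset α)) (a : α) :
    (Cfsg.pointBlockGraph B).Adj (some (Sum.inl a)) none ↔ True := by
  rw [pb_adj]
  exact iff_of_true ⟨(fun h => nomatch h), Or.inr trivial⟩ trivial

theorem pbA_nb (B : Set (Finset α)) (b : ↥B) :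
    (Cfsg.pointBlockGraph B).Adj none (some (Sum.inr b)) ↔ False := by
  rw [pb_adj]
  constructor
  · rintro ⟨-, h | h⟩
    · exact h
    · exact h
  · exact False.elim

theorem pbA_bn (B : Set (Finset α)) (b : ↥B) :
    (Cfsg.pointBlockGraph B).Adj (some (Sum.inr b)) none ↔ False := by
  rw [pb_adj]
  constructor
  · rintro ⟨-, h | h⟩
    · exact h
    · exact h
  · exact False.elim

theorem pbA_pp (B : Set (Finset α)) (a a' : α) :
    (Cfsg.pointBlockGraph B).Adj (some (Sum.inl a)) (some (Sum.inl a')) ↔ False := by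
  rw [pb_adj]
  constructor
  · rintro ⟨-, h | h⟩
    · exact h
    · exact h
  · exact False.elim

theorem pbA_pb (B : Set (Finset α)) (a : α) (b : ↥B) :
    (Cfsg.pointBlockGraph B).Adj (some (Sum.inl a)) (some (Sum.inr b)) ↔
      a ∈ (b : Finset α) := by
  rw [pb_adj]
  constructor
  · rintro ⟨-, h | h⟩
    · exact h
    · exact False.elim h
  · intro h
    exact ⟨(fun e => nomatch e), Or.inl h⟩

theorem pbA_bp (B : Set (Finset α)) (b : ↥B) (a : α) :
    (Cfsg.pointBlockGraph B).Adj (some (Sum.inr b)) (some (Sum.inl a)) ↔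
      a ∈ (b : Finset α) := by
  rw [SimpleGraph.adj_comm, pbA_pb]

theorem pbA_bb (B : Set (Finset α)) (b c : ↥B) :
    (Cfsg.pointBlockGraph B).Adj (some (Sum.inr b)) (some (Sum.inr c)) ↔
      b ≠ c ∧ Disjoint (b : Finset α) (c : Finset α) := by
  rw [pb_adj]
  constructor
  · rintro ⟨hne, h | h⟩
    · exact ⟨fun e => hne (by rw [e]), h⟩
    · exact ⟨fun e => hne (by rw [e]), Disjoint.symm h⟩
  · rintro ⟨hne, h⟩
    exact ⟨fun e => hne (Sum.inr_injective (Option.some_injective _ e)), Or.inl h⟩

theorem ncard_eq_sum_ite {V : Type*} [Fintype V] (S : Set V) [DecidablePred (· ∈ S)] :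
    S.ncard = ∑ x : V, if x ∈ S then 1 else 0 := by
  rw [← Finset.card_filter, ← Set.ncard_coe_finset]
  congr 1
  ext x
  simp only [Finset.coe_filter, Finset.mem_univ, true_and, Set.mem_ofPred_eq]

theorem pb_count (B : Set (Finset α)) [Fintype ↥B] (S : Set (Option (α ⊕ ↥B))) :
    S.ncard = {u : Unit | none ∈ S}.ncard + {a : α | some (Sum.inl a) ∈ S}.ncard
      + {c : ↥B | some (Sum.inr c) ∈ S}.ncard := by
  classical
  rw [ncard_eq_sum_ite S, ncard_eq_sum_ite {u : Unit | none ∈ S},
    ncard_eq_sum_ite {a : α | some (Sum.inl a) ∈ S},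
    ncard_eq_sum_ite {c : ↥B | some (Sum.inr c) ∈ S}, Fintype.sum_option,
    Fintype.sum_sum_type]
  simp only [Finset.univ_unique, Finset.sum_singleton, Set.mem_ofPred_eq, add_assoc]

theorem pbU_true : {u : Unit | True}.ncard = 1 := by
  simp

theorem pbU_false : {u : Unit | False}.ncard = 0 := by
  simp

theorem pbP_true (hα : Fintype.card α = 22) : {a : α | True}.ncard = 22 := by
  rw [Set.ofPred_true, Set.ncard_univ, Nat.card_eq_fintype_card, hα]

theorem pbP_false : {a : α | False}.ncard = 0 := by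
  simp

theorem pbB_false (B : Set (Finset α)) : {c : ↥B | False}.ncard = 0 := by
  simp

theorem ncard_sub (B : Set (Finset α)) (P : Finset α → Prop) :
    {c : ↥B | P (c : Finset α)}.ncard = {c : Finset α | c ∈ B ∧ P c}.ncard := by
  rw [← Set.ncard_image_of_injective _ Subtype.val_injective]
  congr 1
  ext c
  constructor
  · rintro ⟨u, hu, rfl⟩
    exact ⟨u.2, hu⟩
  · rintro ⟨hc, hP⟩
    exact ⟨⟨c, hc⟩, hP, rfl⟩

theorem pbc_blk {B : Set (Finset α)} (hB : Cfsg.IsSteinerSystem 3 6 B) (b : ↥B) :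
    {a : α | a ∈ (b : Finset α)}.ncard = 6 := by
  have h : {a : α | a ∈ (b : Finset α)} = ↑(b : Finset α) := by
    ext a
    simp only [Set.mem_ofPred_eq, Finset.mem_coe]
  rw [h, Set.ncard_coe_finset, hB.1 b b.2]

theorem pbc_inter {B : Set (Finset α)} (b c : ↥B) :
    {a : α | a ∈ (b : Finset α) ∧ a ∈ (c : Finset α)}.ncard
      = ((b : Finset α) ∩ (c : Finset α)).card := by
  have h : {a : α | a ∈ (b : Finset α) ∧ a ∈ (c : Finset α)}
      = ↑((b : Finset α) ∩ (c : Finset α)) := by
    ext a
    simp only [Set.mem_ofPred_eq, Finset.mem_coe, Finset.mem_inter]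
  rw [h, Set.ncard_coe_finset]

theorem pbc_pt (hα : Fintype.card α = 22) {B : Set (Finset α)}
    (hB : Cfsg.IsSteinerSystem 3 6 B) (p : α) :
    {c : ↥B | p ∈ (c : Finset α)}.ncard = 21 := by
  rw [ncard_sub B (fun c => p ∈ c)]
  have hset : {c : Finset α | c ∈ B ∧ p ∈ c}
      = ↑((blocks B).filter (fun c => ({p} : Finset α) ⊆ c)) := by
    ext c
    simp only [Set.mem_ofPred_eq, Finset.coe_filter, mem_blocks, Finset.singleton_subset_iff]
  rw [hset, Set.ncard_coe_finset]
  have h := steiner_lam hB ({p} : Finset α) (by simp)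
  rw [hα, Finset.card_singleton] at h
  have e1 : Nat.choose (6 - 1) (3 - 1) = 10 := by decide
  have e2 : Nat.choose (22 - 1) (3 - 1) = 210 := by decide
  rw [e1, e2] at h
  omega

theorem pbc_two (hα : Fintype.card α = 22) {B : Set (Finset α)}
    (hB : Cfsg.IsSteinerSystem 3 6 B) (p p' : α) (hpp : p ≠ p') :
    {c : ↥B | p ∈ (c : Finset α) ∧ p' ∈ (c : Finset α)}.ncard = 5 := by
  rw [ncard_sub B (fun c => p ∈ c ∧ p' ∈ c)]
  have hset : {c : Finset α | c ∈ B ∧ p ∈ c ∧ p' ∈ c}
      = ↑((blocks B).filter (fun c => ({p, p'} : Finset α) ⊆ c)) := by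
    ext c
    simp only [Set.mem_ofPred_eq, Finset.coe_filter, mem_blocks, Finset.insert_subset_iff,
      Finset.singleton_subset_iff]
  rw [hset, Set.ncard_coe_finset]
  have h := steiner_lam hB ({p, p'} : Finset α) (by rw [Finset.card_pair hpp]; norm_num)
  rw [hα, Finset.card_pair hpp] at h
  have e1 : Nat.choose (6 - 2) (3 - 2) = 4 := by decide
  have e2 : Nat.choose (22 - 2) (3 - 2) = 20 := by decide
  rw [e1, e2] at h
  omega

theorem pb_not_disj_self {B : Set (Finset α)} (hB : Cfsg.IsSteinerSystem 3 6 B)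
    (c : Finset α) (hc : c ∈ B) : ¬ Disjoint c c := by
  intro h1
  rw [disjoint_self, Finset.bot_eq_empty] at h1
  have := hB.1 c hc
  rw [h1] at this
  simp at this

theorem pbc_disj (hα : Fintype.card α = 22) {B : Set (Finset α)}
    (hB : Cfsg.IsSteinerSystem 3 6 B) (b : ↥B) :
    {c : ↥B | b ≠ c ∧ Disjoint (b : Finset α) (c : Finset α)}.ncard = 16 := by
  have h : {c : ↥B | b ≠ c ∧ Disjoint (b : Finset α) (c : Finset α)}
      = {c : ↥B | ((b : Finset α) ∩ (c : Finset α)).card = 0} := by
    ext c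
    simp only [Set.mem_ofPred_eq]
    rw [Finset.card_eq_zero, ← Finset.disjoint_iff_inter_eq_empty]
    constructor
    · exact fun h => h.2
    · intro hd
      refine ⟨fun e => ?_, hd⟩
      rw [e] at hd
      exact pb_not_disj_self hB _ c.2 hd
  rw [h, ncard_sub B (fun c => ((b : Finset α) ∩ c).card = 0), ncard_setOf_inter]
  exact s22_n0 hα hB b.2

theorem pbc_bb {B : Set (Finset α)} (hB : Cfsg.IsSteinerSystem 3 6 B) (b c : ↥B) :
    {d : ↥B | (b ≠ d ∧ Disjoint (b : Finset α) (d : Finset α)) ∧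
        c ≠ d ∧ Disjoint (c : Finset α) (d : Finset α)}.ncard
      = interNum B ((b : Finset α) ∪ (c : Finset α)) 0 := by
  have h : {d : ↥B | (b ≠ d ∧ Disjoint (b : Finset α) (d : Finset α)) ∧
        c ≠ d ∧ Disjoint (c : Finset α) (d : Finset α)}
      = {d : ↥B | (((b : Finset α) ∪ (c : Finset α)) ∩ (d : Finset α)).card = 0} := by
    ext d
    simp only [Set.mem_ofPred_eq]
    rw [Finset.card_eq_zero, ← Finset.disjoint_iff_inter_eq_empty, Finset.disjoint_union_left]
    constructor
    · exact fun h => ⟨h.1.2, h.2.2⟩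
    · intro hd
      refine ⟨⟨fun e => ?_, hd.1⟩, fun e => ?_, hd.2⟩
      · have h1 := hd.1
        rw [e] at h1
        exact pb_not_disj_self hB _ d.2 h1
      · have h1 := hd.2
        rw [e] at h1
        exact pb_not_disj_self hB _ d.2 h1
  rw [h, ncard_sub B (fun d => (((b : Finset α) ∪ (c : Finset α)) ∩ d).card = 0),
    ncard_setOf_inter]

theorem pbc_pb_in {B : Set (Finset α)} (p : α) (b : ↥B) (hp : p ∈ (b : Finset α)) :
    {c : ↥B | p ∈ (c : Finset α) ∧ b ≠ c ∧ Disjoint (b : Finset α) (c : Finset α)}.ncard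
      = 0 := by
  have h : {c : ↥B | p ∈ (c : Finset α) ∧ b ≠ c ∧ Disjoint (b : Finset α) (c : Finset α)}
      = ∅ := by
    ext c
    simp only [Set.mem_ofPred_eq, Set.mem_empty_iff_false, iff_false]
    rintro ⟨hc, -, hd⟩
    exact Finset.disjoint_left.mp hd hp hc
  rw [h, Set.ncard_empty]

/-- intersection of a block with a block plus a point -/
theorem s22_ins (hα : Fintype.card α = 22) {B : Set (Finset α)}
    (hB : Cfsg.IsSteinerSystem 3 6 B) {b : Finset α} (hb : b ∈ B) (p : α)
    (c : Finset α) (hc : c ∈ B) :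
    (c = b ∧ ((insert p b) ∩ c).card = 6) ∨ (c ≠ b ∧ ((insert p b) ∩ c).card ≤ 3) := by
  by_cases h : c = b
  · left
    refine ⟨h, ?_⟩
    rw [h, Finset.inter_eq_right.mpr (Finset.subset_insert p b), hB.1 b hb]
  · right
    refine ⟨h, ?_⟩
    have h1 := s22_inter hα hB hb hc (Ne.symm h)
    have h2 : (insert p b) ∩ c ⊆ insert p (b ∩ c) := by
      intro x hx
      rw [Finset.mem_inter, Finset.mem_insert] at hx
      rcases hx with ⟨rfl | hxb, hxc⟩
      · exact Finset.mem_insert_self _ _
      · exact Finset.mem_insert_of_mem (Finset.mem_inter.mpr ⟨hxb, hxc⟩)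
    have h3 := Finset.card_le_card h2
    have h4 := Finset.card_insert_le p (b ∩ c)
    omega

theorem s22_pt (hα : Fintype.card α = 22) {B : Set (Finset α)}
    (hB : Cfsg.IsSteinerSystem 3 6 B) {b : Finset α} (hb : b ∈ B) (p : α) (hp : p ∉ b) :
    interNum B (insert p b) 1 = 6 := by
  have hX : (insert p b).card = 7 := by
    rw [Finset.card_insert_of_notMem hp, hB.1 b hb]
  have h6 : interNum B (insert p b) 6 = 1 := by
    rw [interNum, Finset.card_eq_one]
    refine ⟨b, ?_⟩
    ext c
    rw [Finset.mem_filter, Finset.mem_singleton, mem_blocks]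
    constructor
    · rintro ⟨hc, h6⟩
      rcases s22_ins hα hB hb p c hc with ⟨h, -⟩ | ⟨-, h⟩
      · exact h
      · omega
    · rintro rfl
      refine ⟨hb, ?_⟩
      rcases s22_ins hα hB hb p c hb with ⟨-, h⟩ | ⟨h, -⟩
      · exact h
      · exact absurd rfl h
  have h4 : interNum B (insert p b) 4 = 0 := by
    apply interNum_eq_zero_of_forall
    intro c hc
    rcases s22_ins hα hB hb p c hc with ⟨-, h⟩ | ⟨-, h⟩ <;> omega
  have h5 : interNum B (insert p b) 5 = 0 := by
    apply interNum_eq_zero_of_forall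
    intro c hc
    rcases s22_ins hα hB hb p c hc with ⟨-, h⟩ | ⟨-, h⟩ <;> omega
  have hm := fun j hj => steiner_moment' hB (insert p b) 7 (s22_bound hB _) j hj
  have m3 := hm 3 (by norm_num)
  have m2 := hm 2 (by norm_num)
  have m1 := hm 1 (by norm_num)
  simp only [Finset.sum_range_succ, Finset.sum_range_zero, h4, h5, h6, hα, hX] at m3 m2 m1
  norm_num [Nat.choose] at m3 m2 m1
  omega

theorem pbc_pb_out (hα : Fintype.card α = 22) {B : Set (Finset α)}
    (hB : Cfsg.IsSteinerSystem 3 6 B) (p : α) (b : ↥B) (hp : p ∉ (b : Finset α)) :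
    {c : ↥B | p ∈ (c : Finset α) ∧ b ≠ c ∧ Disjoint (b : Finset α) (c : Finset α)}.ncard
      = 6 := by
  have h : {c : ↥B | p ∈ (c : Finset α) ∧ b ≠ c ∧ Disjoint (b : Finset α) (c : Finset α)}
      = {c : ↥B | ((insert p (b : Finset α)) ∩ (c : Finset α)).card = 1} := by
    ext c
    simp only [Set.mem_ofPred_eq]
    constructor
    · rintro ⟨hpc, -, hd⟩
      have e : (insert p (b : Finset α)) ∩ (c : Finset α) = {p} := by
        ext x
        rw [Finset.mem_inter, Finset.mem_insert, Finset.mem_singleton]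
        constructor
        · rintro ⟨rfl | hxb, hxc⟩
          · rfl
          · exact absurd hxc (Finset.disjoint_left.mp hd hxb)
        · rintro rfl
          exact ⟨Or.inl rfl, hpc⟩
      rw [e, Finset.card_singleton]
    · intro h1
      have hcb : (c : Finset α) ≠ (b : Finset α) := by
        intro e
        rcases s22_ins hα hB b.2 p (c : Finset α) c.2 with ⟨-, h⟩ | ⟨h, -⟩
        · omega
        · exact h e
      have h2 := s22_inter hα hB b.2 c.2 (Ne.symm hcb)
      have h3 : ((b : Finset α) ∩ (c : Finset α)).card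
          ≤ ((insert p (b : Finset α)) ∩ (c : Finset α)).card :=
        Finset.card_le_card (Finset.inter_subset_inter_right (Finset.subset_insert p _))
      have h0 : ((b : Finset α) ∩ (c : Finset α)).card = 0 := by omega
      have hd : Disjoint (b : Finset α) (c : Finset α) := by
        rw [Finset.disjoint_iff_inter_eq_empty]
        exact Finset.card_eq_zero.mp h0
      have hpos : 0 < ((insert p (b : Finset α)) ∩ (c : Finset α)).card := by omega
      obtain ⟨x, hx⟩ := Finset.card_pos.mp hpos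
      rw [Finset.mem_inter, Finset.mem_insert] at hx
      refine ⟨?_, fun e => hcb (by rw [e]), hd⟩
      rcases hx with ⟨rfl | hxb, hxc⟩
      · exact hxc
      · exact absurd hxc (Finset.disjoint_left.mp hd hxb)
  rw [h, ncard_sub B (fun c => ((insert p (b : Finset α)) ∩ c).card = 1), ncard_setOf_inter]
  exact s22_pt hα hB b.2 p hp

theorem pbc_swap {B : Set (Finset α)} (p : α) (b : ↥B) :
    {c : ↥B | (b ≠ c ∧ Disjoint (b : Finset α) (c : Finset α)) ∧ p ∈ (c : Finset α)}
      = {c : ↥B | p ∈ (c : Finset α) ∧ b ≠ c ∧ Disjoint (b : Finset α) (c : Finset α)} := by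
  ext c
  simp only [Set.mem_ofPred_eq]
  exact and_comm

theorem srg100 (hα : Fintype.card α = 22) {B : Set (Finset α)}
    (hB : Cfsg.IsSteinerSystem 3 6 B) [Fintype B]
    [DecidableRel (Cfsg.pointBlockGraph B).Adj] :
    (Cfsg.pointBlockGraph B).IsSRGWith 100 22 0 6 := by
  have h77 : Fintype.card ↥B = 77 := by
    rw [← Nat.card_eq_fintype_card, _root_.Nat.card_coe_set_eq, ← card_blocks]
    exact s22_card hα hB
  refine ⟨?_, ?_, ?_, ?_⟩
  · rw [Fintype.card_option, Fintype.card_sum, hα, h77]
  · intro v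
    rw [← SimpleGraph.card_neighborSet_eq_degree, ← Nat.card_eq_fintype_card,
      _root_.Nat.card_coe_set_eq, pb_count]
    rcases v with _ | (p | b)
    · simp only [SimpleGraph.mem_neighborSet, pbA_nn, pbA_np, pbA_nb, pbU_false, pbP_true hα,
        pbB_false]
    · simp only [SimpleGraph.mem_neighborSet, pbA_pn, pbA_pp, pbA_pb, pbU_true, pbP_false,
        pbc_pt hα hB]
    · simp only [SimpleGraph.mem_neighborSet, pbA_bn, pbA_bp, pbA_bb, pbU_false, pbc_blk hB,
        pbc_disj hα hB]
  · intro v w hadj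
    rw [← Nat.card_eq_fintype_card, _root_.Nat.card_coe_set_eq, pb_count]
    rcases v with _ | (p | b) <;> rcases w with _ | (p' | b')
    · exact ((pbA_nn B).mp hadj).elim
    · simp only [SimpleGraph.mem_commonNeighbors, pbA_nn, pbA_np, pbA_nb, pbA_pn, pbA_pp,
        pbA_pb, and_true, true_and, and_false, false_and, pbU_false, pbP_false, pbB_false]
    · exact ((pbA_nb B b').mp hadj).elim
    · simp only [SimpleGraph.mem_commonNeighbors, pbA_nn, pbA_np, pbA_nb, pbA_pn, pbA_pp,
        pbA_pb, and_true, true_and, and_false, false_and, pbU_false, pbP_false, pbB_false]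
    · exact ((pbA_pp B p p').mp hadj).elim
    · have hp := (pbA_pb B p b').mp hadj
      simp only [SimpleGraph.mem_commonNeighbors, pbA_pn, pbA_bn, pbA_pp, pbA_bp, pbA_pb,
        pbA_bb, and_true, true_and, and_false, false_and, pbU_false, pbP_false,
        pbc_pb_in p b' hp]
    · exact ((pbA_bn B b).mp hadj).elim
    · have hp := (pbA_bp B b p').mp hadj
      simp only [SimpleGraph.mem_commonNeighbors, pbA_pn, pbA_bn, pbA_pp, pbA_bp, pbA_pb,
        pbA_bb, and_true, true_and, and_false, false_and, pbU_false, pbP_false, pbc_swap,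
        pbc_pb_in p' b hp]
    · have hbb := (pbA_bb B b b').mp hadj
      have h0 : ((b : Finset α) ∩ (b' : Finset α)).card = 0 := by
        rw [Finset.card_eq_zero, ← Finset.disjoint_iff_inter_eq_empty]
        exact hbb.2
      simp only [SimpleGraph.mem_commonNeighbors, pbA_bn, pbA_bp, pbA_bb, and_true, true_and,
        and_false, false_and, pbU_false, pbc_inter, pbc_bb hB, h0,
        s22_lam hα hB b.2 b'.2 hbb.2]
  · intro v w hne hnadj
    rw [← Nat.card_eq_fintype_card, _root_.Nat.card_coe_set_eq, pb_count]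
    rcases v with _ | (p | b) <;> rcases w with _ | (p' | b')
    · exact absurd rfl hne
    · exact absurd ((pbA_np B p').mpr trivial) hnadj
    · simp only [SimpleGraph.mem_commonNeighbors, pbA_nn, pbA_np, pbA_nb, pbA_bn, pbA_bp,
        pbA_bb, and_true, true_and, and_false, false_and, pbU_false, pbB_false, pbc_blk hB]
    · exact absurd ((pbA_pn B p).mpr trivial) hnadj
    · have hpp : p ≠ p' := fun e => hne (by rw [e])
      simp only [SimpleGraph.mem_commonNeighbors, pbA_pn, pbA_pp, pbA_pb, and_true, true_and,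
        and_false, false_and, pbU_true, pbP_false, pbc_two hα hB p p' hpp]
    · have hp : p ∉ (b' : Finset α) := fun h => hnadj ((pbA_pb B p b').mpr h)
      simp only [SimpleGraph.mem_commonNeighbors, pbA_pn, pbA_bn, pbA_pp, pbA_bp, pbA_pb,
        pbA_bb, and_true, true_and, and_false, false_and, pbU_false, pbP_false,
        pbc_pb_out hα hB p b' hp]
    · simp only [SimpleGraph.mem_commonNeighbors, pbA_nn, pbA_np, pbA_nb, pbA_bn, pbA_bp,
        pbA_bb, and_true, true_and, and_false, false_and, pbU_false, pbB_false, pbc_blk hB]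
    · have hp : p' ∉ (b : Finset α) := fun h => hnadj ((pbA_bp B b p').mpr h)
      simp only [SimpleGraph.mem_commonNeighbors, pbA_pn, pbA_bn, pbA_pp, pbA_bp, pbA_pb,
        pbA_bb, and_true, true_and, and_false, false_and, pbU_false, pbP_false, pbc_swap,
        pbc_pb_out hα hB p' b hp]
    · have hbb : b ≠ b' := fun e => hne (by rw [e])
      have hnd : ¬ Disjoint (b : Finset α) (b' : Finset α) :=
        fun h => hnadj ((pbA_bb B b b').mpr ⟨hbb, h⟩)
      have hvw : (b : Finset α) ≠ (b' : Finset α) := fun e => hbb (Subtype.ext e)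
      have h2 : ((b : Finset α) ∩ (b' : Finset α)).card = 2 := by
        rcases s22_inter hα hB b.2 b'.2 hvw with h | h
        · exfalso
          apply hnd
          rw [Finset.disjoint_iff_inter_eq_empty]
          exact Finset.card_eq_zero.mp h
        · exact h
      simp only [SimpleGraph.mem_commonNeighbors, pbA_bn, pbA_bp, pbA_bb, and_true, true_and,
        and_false, false_and, pbU_false, pbc_inter, pbc_bb hB, h2,
        s22_mu hα hB b.2 b'.2 hvw hnd]

end Cfsg.Agent.Helper1
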