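import Mathlib
import Cfsg.Agent.Helper1.Sx1551Tab
import Cfsg.Agent.Helper1.FamSext
import Cfsg.Agent.Helper1.Fam5616
import Cfsg.Agent.Helper1.Golay9

set_option autoImplicit false

namespace Cfsg.Agent.Helper1.Golay

open Cfsg
open scoped Pointwise

theorem laSO_mem : famOf laSO ∈ sextets := by
  have e : sextTb 0 = laSO := by decide +kernel
  rw [← e]
  exact sext_base

theorem tet0_mem : support₂ (ofBits 403456) ∈ famOf laSO :=
  (mem_famOf _ _).mpr ⟨403456, by simp [laSO], rfl⟩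

theorem tet1_mem : support₂ (ofBits 606272) ∈ famOf laSO :=
  (mem_famOf _ _).mpr ⟨606272, by simp [laSO], rfl⟩

theorem tet01_ne : support₂ (ofBits 403456) ≠ support₂ (ofBits 606272) := by
  intro h
  exact absurd (mask_inj (by norm_num) (by norm_num) h) (by decide)

theorem swap_base : ∃ g ∈ M24, g • famOf laSO = famOf laSO
    ∧ g • support₂ (ofBits 403456) = support₂ (ofBits 606272)
    ∧ g • support₂ (ofBits 606272) = support₂ (ofBits 403456)
    ∧ ∀ v ∈ famOf laSO, v ≠ support₂ (ofBits 403456) → v ≠ support₂ (ofBits 606272) →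
        g • v = v := by
  have h := sw_ok
  simp only [Bool.and_eq_true] at h
  obtain ⟨⟨⟨⟨⟨⟨⟨hok, hc⟩, h0⟩, h1⟩, h2⟩, h3⟩, h4⟩, h5⟩ := h
  have hfam : famEq (pullFam swT laSO) laSO = true := by decide +kernel
  refine ⟨(permT swT)⁻¹, inv_mem (permT_mem hok hc), ?_, ?_, ?_, ?_⟩
  · rw [← famOf_pullFam (permT swT) swT (pos_permT hok), famOf_eq_of_famEq hfam]
  · rw [permT_inv_smul hok, Nat.eq_of_beq_eq_true h0]
  · rw [permT_inv_smul hok, Nat.eq_of_beq_eq_true h1]
  · intro v hv hne1 hne2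
    rw [mem_famOf] at hv
    obtain ⟨m, hm, rfl⟩ := hv
    simp only [laSO, List.mem_cons, List.not_mem_nil, or_false] at hm
    rcases hm with rfl | rfl | rfl | rfl | rfl | rfl
    · exact absurd rfl hne1
    · exact absurd rfl hne2
    · rw [permT_inv_smul hok, Nat.eq_of_beq_eq_true h2]
    · rw [permT_inv_smul hok, Nat.eq_of_beq_eq_true h3]
    · rw [permT_inv_smul hok, Nat.eq_of_beq_eq_true h4]
    · rw [permT_inv_smul hok, Nat.eq_of_beq_eq_true h5]

theorem sextet_pair_type {S : Finset (Finset GolayPt)} (hS : S ∈ sextets) {t u : Finset GolayPt}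
    (ht : t ∈ S) (hu : u ∈ S) (hne : t ≠ u) : famType S {t ∪ u} = 32 := by
  unfold famType
  simp only [Finset.sum_singleton]
  rw [Finset.sum_eq_add_of_mem t u ht hu hne]
  · have h1 : t ∩ (t ∪ u) = t := Finset.inter_eq_left.mpr Finset.subset_union_left
    have h2 : u ∩ (t ∪ u) = u := Finset.inter_eq_left.mpr Finset.subset_union_right
    rw [h1, h2, hS.2.1 t ht, hS.2.1 u hu]
    rfl
  · rintro c hc ⟨hct, hcu⟩
    have d1 := sextet_disjoint hS hc ht hct
    have d2 := sextet_disjoint hS hc hu hcu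
    have e : c ∩ (t ∪ u) = ∅ := by
      rw [Finset.inter_union_distrib_left, Finset.disjoint_iff_inter_eq_empty.mp d1,
        Finset.disjoint_iff_inter_eq_empty.mp d2, Finset.empty_union]
    rw [e]
    rfl

theorem sextet_pair_cases {S : Finset (Finset GolayPt)} (hS : S ∈ sextets)
    {a b t u : Finset GolayPt} (ha : a ∈ S) (hb : b ∈ S) (ht : t ∈ S) (hu : u ∈ S)
    (hab : a ≠ b) (e : a ∪ b = t ∪ u) : (a = t ∧ b = u) ∨ (a = u ∧ b = t) := by
  have key : ∀ c ∈ S, c ⊆ t ∪ u → c = t ∨ c = u := by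
    intro c hc hsub
    by_contra hcon
    rw [not_or] at hcon
    have d1 := sextet_disjoint hS hc ht hcon.1
    have d2 := sextet_disjoint hS hc hu hcon.2
    have hd : Disjoint c (t ∪ u) := Finset.disjoint_union_right.mpr ⟨d1, d2⟩
    have hc0 : c = ∅ := (Finset.disjoint_self_iff_empty c).mp (hd.mono_right hsub)
    have h4 := hS.2.1 c hc
    rw [hc0] at h4
    simp at h4
  have ha' := key a ha (e ▸ Finset.subset_union_left)
  have hb' := key b hb (e ▸ Finset.subset_union_right)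
  rcases ha' with h1 | h1 <;> rcases hb' with h2 | h2
  · exact absurd (h1.trans h2.symm) hab
  · exact Or.inl ⟨h1, h2⟩
  · exact Or.inr ⟨h1, h2⟩
  · exact absurd (h1.trans h2.symm) hab

theorem pair_trans {S : Finset (Finset GolayPt)} (hS : S ∈ sextets) {t u : Finset GolayPt}
    (ht : t ∈ S) (hu : u ∈ S) (hne : t ≠ u) :
    ∃ h ∈ M24, h • famOf laSO = S
      ∧ h • (support₂ (ofBits 403456) ∪ support₂ (ofBits 606272)) = t ∪ u := by
  obtain ⟨h1, hh1, e1⟩ := sext_isTable.transitive _ S laSO_mem hS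
  have hti : h1⁻¹ • t ∈ famOf laSO := by
    rw [Finset.inv_smul_mem_iff, e1]
    exact ht
  have hui : h1⁻¹ • u ∈ famOf laSO := by
    rw [Finset.inv_smul_mem_iff, e1]
    exact hu
  have hne' : h1⁻¹ • t ≠ h1⁻¹ • u := fun h => hne (MulAction.injective _ h)
  have ty1 := sextet_pair_type laSO_mem hti hui hne'
  have ty2 := sextet_pair_type laSO_mem tet0_mem tet1_mem tet01_ne
  have o1 : ({h1⁻¹ • t ∪ h1⁻¹ • u} : Finset (Finset GolayPt)) ∈ octFam :=
    ⟨_, laSO_mem.2.2 _ hti _ hui hne', rfl⟩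
  have o2 : ({support₂ (ofBits 403456) ∪ support₂ (ofBits 606272)} : Finset (Finset GolayPt))
      ∈ octFam := ⟨_, laSO_mem.2.2 _ tet0_mem _ tet1_mem tet01_ne, rfl⟩
  obtain ⟨k, hk, hkA, hkX⟩ := orbSO.trans _ o2 _ o1 (ty2.trans ty1.symm)
  rw [Finset.smul_finset_singleton, Finset.singleton_inj] at hkX
  refine ⟨h1 * k, mul_mem hh1 hk, ?_, ?_⟩
  · rw [mul_smul, hkA, e1]
  · rw [mul_smul, hkX, Finset.smul_finset_union, smul_inv_smul, smul_inv_smul]

theorem swap_general {S : Finset (Finset GolayPt)} (hS : S ∈ sextets) {t u : Finset GolayPt}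
    (ht : t ∈ S) (hu : u ∈ S) (hne : t ≠ u) :
    ∃ g ∈ M24, g • S = S ∧ g • t = u ∧ g • u = t ∧ ∀ v ∈ S, v ≠ t → v ≠ u → g • v = v := by
  obtain ⟨g0, hg0, hS0, hTU, hUT, hfix⟩ := swap_base
  obtain ⟨h, hh, e1, e2⟩ := pair_trans hS ht hu hne
  have hT : h • support₂ (ofBits 403456) ∈ S := by
    rw [← e1]
    exact Finset.smul_mem_smul_finset tet0_mem
  have hU : h • support₂ (ofBits 606272) ∈ S := by
    rw [← e1]
    exact Finset.smul_mem_smul_finset tet1_mem
  have hTU' : h • support₂ (ofBits 403456) ≠ h • support₂ (ofBits 606272) :=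
    fun e => tet01_ne (MulAction.injective _ e)
  rw [Finset.smul_finset_union] at e2
  have hcases := sextet_pair_cases hS hT hU ht hu hTU' e2
  have hSi : h⁻¹ • S = famOf laSO := by rw [← e1, inv_smul_smul]
  refine ⟨h * g0 * h⁻¹, mul_mem (mul_mem hh hg0) (inv_mem hh), ?_, ?_, ?_, ?_⟩
  · rw [mul_smul, mul_smul, hSi, hS0, e1]
  · rcases hcases with ⟨c1, c2⟩ | ⟨c1, c2⟩
    · rw [mul_smul, mul_smul, ← c1, inv_smul_smul, hTU, c2]
    · rw [mul_smul, mul_smul, ← c2, inv_smul_smul, hUT, c1]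
  · rcases hcases with ⟨c1, c2⟩ | ⟨c1, c2⟩
    · rw [mul_smul, mul_smul, ← c2, inv_smul_smul, hUT, c1]
    · rw [mul_smul, mul_smul, ← c1, inv_smul_smul, hTU, c2]
  · intro v hv hvt hvu
    have hv' : h⁻¹ • v ∈ famOf laSO := by
      rw [← hSi]
      exact Finset.smul_mem_smul_finset hv
    have n1 : h⁻¹ • v ≠ support₂ (ofBits 403456) := by
      intro e
      have e' : v = h • support₂ (ofBits 403456) := by rw [← e, smul_inv_smul]
      rcases hcases with ⟨c1, c2⟩ | ⟨c1, c2⟩
      · exact hvt (e'.trans c1)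
      · exact hvu (e'.trans c1)
    have n2 : h⁻¹ • v ≠ support₂ (ofBits 606272) := by
      intro e
      have e' : v = h • support₂ (ofBits 606272) := by rw [← e, smul_inv_smul]
      rcases hcases with ⟨c1, c2⟩ | ⟨c1, c2⟩
      · exact hvu (e'.trans c2)
      · exact hvt (e'.trans c2)
    rw [mul_smul, mul_smul, hfix _ hv' n1 n2, smul_inv_smul]

/-- The permutation of the members of a family induced by an element fixing the family. -/
def famPerm (S : Finset (Finset GolayPt)) (g : Equiv.Perm GolayPt) (hg : g • S = S) :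
    Equiv.Perm ↥S where
  toFun v := ⟨g • v.1, by
    have h := Finset.smul_mem_smul_finset (a := g) v.2
    rwa [hg] at h⟩
  invFun v := ⟨g⁻¹ • v.1, by
    rw [Finset.inv_smul_mem_iff, hg]
    exact v.2⟩
  left_inv v := Subtype.ext (inv_smul_smul g v.1)
  right_inv v := Subtype.ext (smul_inv_smul g v.1)

/-- The action of the stabiliser of a family on its members. -/
def famHom (S : Finset (Finset GolayPt)) :
    ↥(MulAction.stabilizer ↥M24 S) →* Equiv.Perm ↥S where
  toFun g := famPerm S ((g : M24) : Equiv.Perm GolayPt) (MulAction.mem_stabilizer_iff.mp g.2)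
  map_one' := Equiv.ext (fun v => Subtype.ext (one_smul _ v.1))
  map_mul' a b := Equiv.ext (fun v => Subtype.ext
    (mul_smul ((a : M24) : Equiv.Perm GolayPt) ((b : M24) : Equiv.Perm GolayPt) v.1))

theorem famHom_surjective {S : Finset (Finset GolayPt)} (hS : S ∈ sextets) :
    Function.Surjective (famHom S) := by
  rw [← MonoidHom.range_eq_top, eq_top_iff, ← Equiv.Perm.closure_isSwap, Subgroup.closure_le]
  rintro σ ⟨x, y, hxy, rfl⟩
  have hne : x.1 ≠ y.1 := fun h => hxy (Subtype.ext h)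
  obtain ⟨g, hg, hgS, hgt, hgu, hfix⟩ := swap_general hS x.2 y.2 hne
  refine ⟨⟨⟨g, hg⟩, MulAction.mem_stabilizer_iff.mpr hgS⟩, ?_⟩
  refine Equiv.ext (fun v => Subtype.ext ?_)
  show g • v.1 = ((Equiv.swap x y v : ↥S) : Finset GolayPt)
  rw [Equiv.swap_apply_def]
  by_cases h1 : v = x
  · rw [if_pos h1, h1]
    exact hgt
  · by_cases h2 : v = y
    · rw [if_neg h1, if_pos h2, h2]
      exact hgu
    · rw [if_neg h1, if_neg h2]
      exact hfix v.1 v.2 (fun h => h1 (Subtype.ext h)) (fun h => h2 (Subtype.ext h))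

theorem sextet_induce {S : Finset (Finset GolayPt)} (hS : S ∈ sextets) (e : Equiv.Perm ↥S) :
    ∃ g ∈ MulAction.stabilizer M24 S, ∀ t : ↥S,
      (g : Equiv.Perm GolayPt) • (t : Finset GolayPt) = ((e t : ↥S) : Finset GolayPt) := by
  obtain ⟨g, rfl⟩ := famHom_surjective hS e
  exact ⟨g.1, g.2, fun t => rfl⟩

theorem card_stab_sextet {S : Finset (Finset GolayPt)} (hS : S ∈ sextets) :
    Nat.card ↥(MulAction.stabilizer M24 S) = 138240 := by
  have horb : MulAction.orbit M24 S = sextets := by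
    ext X
    constructor
    · rintro ⟨g, rfl⟩
      exact sextets_inv _ g.2 S hS
    · intro hX
      obtain ⟨g, hg, e⟩ := sext_isTable.transitive S X hS hX
      exact ⟨⟨g, hg⟩, e⟩
  have h := Subgroup.card_mul_index (MulAction.stabilizer M24 S)
  rw [MulAction.index_stabilizer, horb, sextets_ncard, card_M24] at h
  omega

theorem mem_ker_famHom {S : Finset (Finset GolayPt)} (g : ↥(MulAction.stabilizer M24 S)) :
    g ∈ (famHom S).ker ↔ ∀ t ∈ S, ((g : M24) : Equiv.Perm GolayPt) • t = t := by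
  rw [MonoidHom.mem_ker]
  constructor
  · intro h t ht
    exact congrArg (fun e : Equiv.Perm ↥S => ((e ⟨t, ht⟩ : ↥S) : Finset GolayPt)) h
  · intro h
    exact Equiv.ext (fun v => Subtype.ext (h v.1 v.2))

theorem card_ker_sextet {S : Finset (Finset GolayPt)} (hS : S ∈ sextets) :
    Nat.card ↥(famHom S).ker = 192 := by
  have h1 := Subgroup.card_eq_card_quotient_mul_card_subgroup (famHom S).ker
  have h2 : Nat.card (↥(MulAction.stabilizer M24 S) ⧸ (famHom S).ker) = 720 := by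
    rw [Nat.card_congr (QuotientGroup.quotientKerEquivOfSurjective (famHom S)
      (famHom_surjective hS)).toEquiv, Nat.card_eq_fintype_card, Fintype.card_perm,
      Fintype.card_coe, hS.1]
    rfl
  rw [card_stab_sextet hS, h2] at h1
  omega

theorem card_kernel {S : Finset (Finset GolayPt)} (hS : S ∈ sextets) :
    Nat.card {g : ↥(MulAction.stabilizer M24 S) //
      ∀ t ∈ S, ((g : M24) : Equiv.Perm GolayPt) • t = t} = 192 := by
  rw [← card_ker_sextet hS]
  exact Nat.card_congr (Equiv.subtypeEquivRight (fun g => (mem_ker_famHom g).symm))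

/-- The elements of the group fixing every member of the family. -/
def kerSet (S : Finset (Finset GolayPt)) : Set (Equiv.Perm GolayPt) :=
  {g | g ∈ M24 ∧ ∀ t ∈ S, g • t = t}

theorem kerSet_stab {S : Finset (Finset GolayPt)} {g : Equiv.Perm GolayPt} (hg : g ∈ kerSet S) :
    g • S = S := by
  ext v
  constructor
  · intro hv
    obtain ⟨t, ht, rfl⟩ := Finset.mem_smul_finset.mp hv
    rw [hg.2 t ht]
    exact ht
  · intro hv
    exact Finset.mem_smul_finset.mpr ⟨v, hv, hg.2 v hv⟩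

theorem kerSet_ncard {S : Finset (Finset GolayPt)} (hS : S ∈ sextets) :
    (kerSet S).ncard = 192 := by
  rw [← card_ker_sextet hS, ← Nat.card_coe_set_eq]
  apply Nat.card_congr
  exact
    { toFun := fun x => ⟨⟨⟨x.1, x.2.1⟩, MulAction.mem_stabilizer_iff.mpr (kerSet_stab x.2)⟩,
        (mem_ker_famHom _).mpr x.2.2⟩
      invFun := fun y => ⟨((y.1 : M24) : Equiv.Perm GolayPt),
        ⟨(y.1 : M24).2, (mem_ker_famHom y.1).mp y.2⟩⟩
      left_inv := fun x => rfl
      right_inv := fun y => rfl }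

/-- The listed elements. -/
noncomputable def kElem (i : ℕ) : Equiv.Perm GolayPt := permT (kTab i)

theorem kElem_spec (i : ℕ) (hi : i < 192) :
    tblOK (kTab i) = true ∧ kElem i ∈ kerSet (famOf laSO) := by
  have h := List.all_eq_true.mp k_ok i (List.mem_range.mpr hi)
  simp only [Bool.and_eq_true] at h
  obtain ⟨⟨hok, hc⟩, hfix⟩ := h
  refine ⟨hok, permT_mem hok hc, ?_⟩
  intro t ht
  rw [mem_famOf] at ht
  obtain ⟨m, hm, rfl⟩ := ht
  have e := Nat.eq_of_beq_eq_true (List.all_eq_true.mp hfix m hm)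
  have e2 := permT_inv_smul hok m
  rw [e] at e2
  exact (inv_smul_eq_iff.mp e2).symm

theorem kElem_inj {i j : ℕ} (hi : i < 192) (hj : j < 192) (h : kElem i = kElem j) : i = j := by
  by_contra hne
  wlog hlt : j < i generalizing i j
  · exact this hj hi h.symm (Ne.symm hne) (by omega)
  have h1 := List.all_eq_true.mp (List.all_eq_true.mp k_distinct i (List.mem_range.mpr hi)) j
    (List.mem_range.mpr hlt)
  obtain ⟨p, hp, hpne⟩ := List.any_eq_true.mp h1
  rw [List.mem_range] at hp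
  have e := congrArg (fun g : Equiv.Perm GolayPt => pos (g (unpos p))) h
  simp only [kElem] at e
  rw [pos_permT (kElem_spec i hi).1, pos_permT (kElem_spec j hj).1, pos_unpos p hp] at e
  rw [e, Nat.beq_refl] at hpne
  exact absurd hpne (by decide)

theorem kerSet_base : kerSet (famOf laSO) = kElem '' ↑(Finset.range 192) := by
  symm
  apply Set.eq_of_subset_of_ncard_le
  · rintro _ ⟨i, hi, rfl⟩
    exact (kElem_spec i (Finset.mem_range.mp (Finset.mem_coe.mp hi))).2
  · rw [kerSet_ncard laSO_mem, Set.InjOn.ncard_image, Set.ncard_coe_finset, Finset.card_range]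
    intro i hi j hj h
    exact kElem_inj (Finset.mem_range.mp (Finset.mem_coe.mp hi))
      (Finset.mem_range.mp (Finset.mem_coe.mp hj)) h
  · exact Set.toFinite _

theorem kElem_sq_ne {i : ℕ} (hi : i < 192) (h64 : 64 ≤ i) : kElem i * kElem i ≠ 1 := by
  intro h
  have h1 := List.all_eq_true.mp k_nonsq (i - 64) (List.mem_range.mpr (by omega))
  rw [show i - 64 + 64 = i by omega] at h1
  obtain ⟨p, hp, hpne⟩ := List.any_eq_true.mp h1
  rw [List.mem_range] at hp
  have hok := (kElem_spec i hi).1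
  have e := congrArg (fun g : Equiv.Perm GolayPt => pos (g (unpos p))) h
  simp only [kElem, Equiv.Perm.coe_one, id_eq] at e
  rw [pos_permT_mul hok hok, pos_unpos p hp] at e
  rw [e, Nat.beq_refl] at hpne
  exact absurd hpne (by decide)

theorem kElem_mul_sq {i j : ℕ} (hi : i < 64) (hj : j < 64) :
    (kElem i * kElem j) * (kElem i * kElem j) = 1 := by
  have hoki := (kElem_spec i (by omega)).1
  have hokj := (kElem_spec j (by omega)).1
  apply perm_ext_pos
  intro p
  have h1 := List.all_eq_true.mp (List.all_eq_true.mp (List.all_eq_true.mp k_invol i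
    (List.mem_range.mpr hi)) j (List.mem_range.mpr hj)) (pos p) (List.mem_range.mpr (pos_lt p))
  rw [Equiv.Perm.mul_apply, Equiv.Perm.mul_apply, Equiv.Perm.mul_apply, Equiv.Perm.one_apply]
  simp only [kElem]
  rw [pos_permT hoki, pos_permT hokj, pos_permT hoki, pos_permT hokj]
  exact Nat.eq_of_beq_eq_true h1

theorem kElem_sq {i : ℕ} (hi : i < 64) : kElem i * kElem i = 1 := by
  have hoki := (kElem_spec i (by omega)).1
  apply perm_ext_pos
  intro p
  have h1 := List.all_eq_true.mp (List.all_eq_true.mp k_sq i (List.mem_range.mpr hi)) (pos p)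
    (List.mem_range.mpr (pos_lt p))
  rw [Equiv.Perm.one_apply]
  simp only [kElem]
  rw [pos_permT_mul hoki hoki]
  exact Nat.eq_of_beq_eq_true h1

theorem base_invol (g : Equiv.Perm GolayPt) (hg : g ∈ kerSet (famOf laSO)) (h2 : g * g = 1) :
    ∃ i < 64, g = kElem i := by
  rw [kerSet_base] at hg
  obtain ⟨i, hi, rfl⟩ := hg
  have hi' := Finset.mem_range.mp (Finset.mem_coe.mp hi)
  by_cases h64 : i < 64
  · exact ⟨i, h64, rfl⟩
  · exact absurd h2 (kElem_sq_ne hi' (by omega))

theorem base_mul {a b : Equiv.Perm GolayPt} (ha : a ∈ kerSet (famOf laSO))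
    (hb : b ∈ kerSet (famOf laSO)) (ha2 : a * a = 1) (hb2 : b * b = 1) :
    (a * b) * (a * b) = 1 := by
  obtain ⟨i, hi, rfl⟩ := base_invol a ha ha2
  obtain ⟨j, hj, rfl⟩ := base_invol b hb hb2
  exact kElem_mul_sq hi hj

theorem base_count : {g | g ∈ kerSet (famOf laSO) ∧ g * g = 1}.ncard = 64 := by
  have e : {g | g ∈ kerSet (famOf laSO) ∧ g * g = 1} = kElem '' ↑(Finset.range 64) := by
    ext g
    constructor
    · rintro ⟨hg, h2⟩
      obtain ⟨i, hi, rfl⟩ := base_invol g hg h2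
      exact ⟨i, Finset.mem_coe.mpr (Finset.mem_range.mpr hi), rfl⟩
    · rintro ⟨i, hi, rfl⟩
      have hi' := Finset.mem_range.mp (Finset.mem_coe.mp hi)
      exact ⟨(kElem_spec i (by omega)).2, kElem_sq hi'⟩
  rw [e, Set.InjOn.ncard_image, Set.ncard_coe_finset, Finset.card_range]
  intro i hi j hj h
  have hi' := Finset.mem_range.mp (Finset.mem_coe.mp hi)
  have hj' := Finset.mem_range.mp (Finset.mem_coe.mp hj)
  exact kElem_inj (by omega) (by omega) h

theorem mem_kerSet_smul {h : Equiv.Perm GolayPt} (hh : h ∈ M24) (S : Finset (Finset GolayPt))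
    (g : Equiv.Perm GolayPt) : g ∈ kerSet (h • S) ↔ h⁻¹ * g * h ∈ kerSet S := by
  constructor
  · rintro ⟨hg, hfix⟩
    refine ⟨mul_mem (mul_mem (inv_mem hh) hg) hh, ?_⟩
    intro t ht
    rw [mul_smul, mul_smul, hfix _ (Finset.smul_mem_smul_finset ht), inv_smul_smul]
  · rintro ⟨hg, hfix⟩
    refine ⟨?_, ?_⟩
    · have h1 := mul_mem (mul_mem hh hg) (inv_mem hh)
      have e : h * (h⁻¹ * g * h) * h⁻¹ = g := by group
      rwa [e] at h1
    · intro t ht
      obtain ⟨t', ht', rfl⟩ := Finset.mem_smul_finset.mp ht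
      have h1 := hfix t' ht'
      rw [mul_smul, mul_smul, inv_smul_eq_iff] at h1
      exact h1

theorem gen_mul {S : Finset (Finset GolayPt)} (hS : S ∈ sextets) {a b : Equiv.Perm GolayPt}
    (ha : a ∈ kerSet S) (hb : b ∈ kerSet S) (ha2 : a * a = 1) (hb2 : b * b = 1) :
    (a * b) * (a * b) = 1 := by
  obtain ⟨h, hh, rfl⟩ := sext_isTable.transitive _ S laSO_mem hS
  rw [mem_kerSet_smul hh] at ha hb
  have e1 : h⁻¹ * a * h * (h⁻¹ * a * h) = 1 := by
    rw [show h⁻¹ * a * h * (h⁻¹ * a * h) = h⁻¹ * (a * a) * h by group, ha2]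
    group
  have e2 : h⁻¹ * b * h * (h⁻¹ * b * h) = 1 := by
    rw [show h⁻¹ * b * h * (h⁻¹ * b * h) = h⁻¹ * (b * b) * h by group, hb2]
    group
  have h1 := base_mul ha hb e1 e2
  have e : a * b * (a * b)
      = h * ((h⁻¹ * a * h * (h⁻¹ * b * h)) * (h⁻¹ * a * h * (h⁻¹ * b * h))) * h⁻¹ := by group
  rw [e, h1]
  group

theorem gen_count {S : Finset (Finset GolayPt)} (hS : S ∈ sextets) :
    {g | g ∈ kerSet S ∧ g * g = 1}.ncard = 64 := by
  obtain ⟨h, hh, rfl⟩ := sext_isTable.transitive _ S laSO_mem hS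
  rw [← base_count]
  have e : {g | g ∈ kerSet (h • famOf laSO) ∧ g * g = 1}
      = (fun g => h * g * h⁻¹) '' {g | g ∈ kerSet (famOf laSO) ∧ g * g = 1} := by
    ext g
    constructor
    · rintro ⟨hg, h2⟩
      refine ⟨h⁻¹ * g * h, ⟨(mem_kerSet_smul hh _ g).mp hg, ?_⟩, by group⟩
      rw [show h⁻¹ * g * h * (h⁻¹ * g * h) = h⁻¹ * (g * g) * h by group, h2]
      group
    · rintro ⟨g', ⟨hg', h2⟩, rfl⟩
      refine ⟨(mem_kerSet_smul hh _ _).mpr ?_, ?_⟩
      · rw [show h⁻¹ * (h * g' * h⁻¹) * h = g' by group]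
        exact hg'
      · show h * g' * h⁻¹ * (h * g' * h⁻¹) = 1
        rw [show h * g' * h⁻¹ * (h * g' * h⁻¹) = h * (g' * g') * h⁻¹ by group, h2]
        group
  rw [e, Set.ncard_image_of_injective]
  intro x y hxy
  simpa using hxy

/-- The elements of the stabiliser of a sextet fixing every tetrad and of square one. -/
def sextN (S : Finset (Finset GolayPt)) (hS : S ∈ sextets) :
    Subgroup ↥(MulAction.stabilizer M24 S) where
  carrier := {g | ((g : M24) : Equiv.Perm GolayPt) ∈ kerSet S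
    ∧ ((g : M24) : Equiv.Perm GolayPt) * ((g : M24) : Equiv.Perm GolayPt) = 1}
  one_mem' := ⟨⟨one_mem _, fun t _ => one_smul _ t⟩, one_mul 1⟩
  mul_mem' := by
    rintro a b ⟨ha, ha2⟩ ⟨hb, hb2⟩
    refine ⟨⟨mul_mem ha.1 hb.1, fun t ht => ?_⟩, gen_mul hS ha hb ha2 hb2⟩
    show (((a : M24) : Equiv.Perm GolayPt) * ((b : M24) : Equiv.Perm GolayPt)) • t = t
    rw [mul_smul, hb.2 t ht, ha.2 t ht]
  inv_mem' := by
    rintro a ⟨ha, ha2⟩
    refine ⟨⟨inv_mem ha.1, fun t ht => ?_⟩, ?_⟩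
    · show ((a : M24) : Equiv.Perm GolayPt)⁻¹ • t = t
      rw [inv_smul_eq_iff, ha.2 t ht]
    · show ((a : M24) : Equiv.Perm GolayPt)⁻¹ * ((a : M24) : Equiv.Perm GolayPt)⁻¹ = 1
      rw [← mul_inv_rev, ha2, inv_one]

theorem sextN_normal (S : Finset (Finset GolayPt)) (hS : S ∈ sextets) : (sextN S hS).Normal := by
  constructor
  rintro n ⟨hn, hn2⟩ g
  have hgS : ((g : M24) : Equiv.Perm GolayPt) • S = S := MulAction.mem_stabilizer_iff.mp g.2
  refine ⟨⟨mul_mem (mul_mem (g : M24).2 hn.1) (inv_mem (g : M24).2), fun t ht => ?_⟩, ?_⟩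
  · show (((g : M24) : Equiv.Perm GolayPt) * ((n : M24) : Equiv.Perm GolayPt)
      * ((g : M24) : Equiv.Perm GolayPt)⁻¹) • t = t
    have ht' : ((g : M24) : Equiv.Perm GolayPt)⁻¹ • t ∈ S := by
      rw [Finset.inv_smul_mem_iff, hgS]
      exact ht
    rw [mul_smul, mul_smul, hn.2 _ ht', smul_inv_smul]
  · show ((g : M24) : Equiv.Perm GolayPt) * ((n : M24) : Equiv.Perm GolayPt)
      * ((g : M24) : Equiv.Perm GolayPt)⁻¹ * (((g : M24) : Equiv.Perm GolayPt)
      * ((n : M24) : Equiv.Perm GolayPt) * ((g : M24) : Equiv.Perm GolayPt)⁻¹) = 1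
    rw [show ((g : M24) : Equiv.Perm GolayPt) * ((n : M24) : Equiv.Perm GolayPt)
      * ((g : M24) : Equiv.Perm GolayPt)⁻¹ * (((g : M24) : Equiv.Perm GolayPt)
      * ((n : M24) : Equiv.Perm GolayPt) * ((g : M24) : Equiv.Perm GolayPt)⁻¹)
      = ((g : M24) : Equiv.Perm GolayPt) * (((n : M24) : Equiv.Perm GolayPt)
      * ((n : M24) : Equiv.Perm GolayPt)) * ((g : M24) : Equiv.Perm GolayPt)⁻¹ by group, hn2]
    group

theorem sextN_card (S : Finset (Finset GolayPt)) (hS : S ∈ sextets) :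
    Nat.card ↥(sextN S hS) = 64 := by
  rw [← gen_count hS, ← Nat.card_coe_set_eq]
  apply Nat.card_congr
  exact
    { toFun := fun x => ⟨((x.1 : M24) : Equiv.Perm GolayPt), x.2⟩
      invFun := fun y => ⟨⟨⟨y.1, y.2.1.1⟩, MulAction.mem_stabilizer_iff.mpr (kerSet_stab y.2.1)⟩,
        y.2⟩
      left_inv := fun x => rfl
      right_inv := fun y => rfl }

theorem sextN_sq (S : Finset (Finset GolayPt)) (hS : S ∈ sextets) :
    ∀ x ∈ sextN S hS, x * x = 1 := by
  intro x hx
  exact Subtype.ext (Subtype.ext hx.2)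

end Cfsg.Agent.Helper1.Golay
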