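import Mathlib
import Cfsg.Agent.Helper1.Leech2
import Cfsg.Agent.Helper1.Golay4

set_option autoImplicit false

namespace Cfsg.Agent.Helper1.Golay

open Cfsg

/-- the subgroup generated by the minimal vectors -/
def minK : AddSubgroup (GolayPt → ℤ) :=
  AddSubgroup.closure {x : GolayPt → ℤ | x ∈ leechLattice ∧ sqNorm x = 32}

theorem minK_of_min {x : GolayPt → ℤ} (hx : x ∈ leechSet) (hn : sqNorm x = 32) : x ∈ minK :=
  AddSubgroup.subset_closure ⟨(mem_leechLattice_iff x).mpr hx, hn⟩

theorem lm_four {x : GolayPt → ℤ} (h4 : ∀ i, (4 : ℤ) ∣ x i) (h8 : (8 : ℤ) ∣ ∑ i, x i) :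
    x ∈ leechSet := by
  refine ⟨0, fun i => ?_, ?_, fun k => ?_⟩
  · obtain ⟨a, ha⟩ := h4 i
    unfold Int.ModEq
    omega
  · obtain ⟨b, hb⟩ := h8
    unfold Int.ModEq
    omega
  · by_cases hk : (0 : ℤ) ≡ k [ZMOD 4]
    · have e : (Finset.univ.filter fun i : GolayPt => x i ≡ k [ZMOD 4]) = Finset.univ := by
        ext i
        simp only [Finset.mem_filter, Finset.mem_univ, true_and]
        refine iff_of_true ?_ trivial
        obtain ⟨a, ha⟩ := h4 i
        unfold Int.ModEq at hk ⊢
        omega
      rw [e]
      exact supports_univ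
    · have e : (Finset.univ.filter fun i : GolayPt => x i ≡ k [ZMOD 4]) = ∅ := by
        ext i
        simp only [Finset.mem_filter, Finset.mem_univ, true_and]
        refine iff_of_false ?_ (Finset.notMem_empty i)
        obtain ⟨a, ha⟩ := h4 i
        unfold Int.ModEq at hk ⊢
        omega
      rw [e]
      exact supports_empty

/-- four times a coordinate vector -/
def lvE4 (i : GolayPt) : GolayPt → ℤ := fun k => if k = i then 4 else 0

theorem sum_lvE4 (i : GolayPt) : ∑ k, lvE4 i k = 4 := by
  simp only [lvE4, Finset.sum_ite_eq', Finset.mem_univ, if_true]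

theorem lm_pp {i j : GolayPt} (hij : i ≠ j) : lvE4 i + lvE4 j ∈ minK := by
  apply minK_of_min
  · apply lm_four
    · intro k
      simp only [Pi.add_apply, lvE4]
      split_ifs <;> norm_num
    · simp only [Pi.add_apply, Finset.sum_add_distrib, sum_lvE4]
      norm_num
  · unfold sqNorm
    have h : ∀ k, (lvE4 i + lvE4 j) k ^ 2
        = (if k = i then (16 : ℤ) else 0) + (if k = j then (16 : ℤ) else 0) := by
      intro k
      simp only [Pi.add_apply, lvE4]
      by_cases h1 : k = i
      · have h2 : ¬ k = j := fun h => hij (h1.symm.trans h)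
        simp only [if_pos h1, if_neg h2]
        norm_num
      · by_cases h2 : k = j
        · simp only [if_neg h1, if_pos h2]
          norm_num
        · simp only [if_neg h1, if_neg h2]
          norm_num
    simp only [h, Finset.sum_add_distrib, Finset.sum_ite_eq', Finset.mem_univ, if_true]
    norm_num

theorem lm_pm {i j : GolayPt} (hij : i ≠ j) : lvE4 i - lvE4 j ∈ minK := by
  apply minK_of_min
  · apply lm_four
    · intro k
      simp only [Pi.sub_apply, lvE4]
      split_ifs <;> norm_num
    · simp only [Pi.sub_apply, Finset.sum_sub_distrib, sum_lvE4]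
      norm_num
  · unfold sqNorm
    have h : ∀ k, (lvE4 i - lvE4 j) k ^ 2
        = (if k = i then (16 : ℤ) else 0) + (if k = j then (16 : ℤ) else 0) := by
      intro k
      simp only [Pi.sub_apply, lvE4]
      by_cases h1 : k = i
      · have h2 : ¬ k = j := fun h => hij (h1.symm.trans h)
        simp only [if_pos h1, if_neg h2]
        norm_num
      · by_cases h2 : k = j
        · simp only [if_neg h1, if_pos h2]
          norm_num
        · simp only [if_neg h1, if_neg h2]
          norm_num
    simp only [h, Finset.sum_add_distrib, Finset.sum_ite_eq', Finset.mem_univ, if_true]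
    norm_num

theorem lm_A {x : GolayPt → ℤ} (h4 : ∀ i, (4 : ℤ) ∣ x i) (h8 : (8 : ℤ) ∣ ∑ i, x i) :
    x ∈ minK := by
  choose a ha using h4
  obtain ⟨b, hb⟩ := h8
  have hsa : ∑ i, a i = 2 * b := by
    have h1 : ∑ i, x i = 4 * ∑ i, a i := by
      rw [Finset.mul_sum]
      exact Finset.sum_congr rfl (fun i _ => ha i)
    omega
  have hd : ∀ i : GolayPt, lvE4 i - lvE4 none ∈ minK := by
    intro i
    by_cases hi : i = none
    · rw [hi, sub_self]
      exact AddSubgroup.zero_mem _
    · exact lm_pm hi
  have h8' : (fun k : GolayPt => if k = none then (8 : ℤ) else 0) ∈ minK := by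
    have hne : (none : GolayPt) ≠ some 0 := by
      intro h
      cases h
    have e : (fun k : GolayPt => if k = none then (8 : ℤ) else 0)
        = (lvE4 none + lvE4 (some 0)) + (lvE4 none - lvE4 (some 0)) := by
      funext k
      simp only [Pi.add_apply, Pi.sub_apply, lvE4]
      split_ifs <;> norm_num
    rw [e]
    exact AddSubgroup.add_mem _ (lm_pp hne) (lm_pm hne)
  have hx : x = ∑ i, a i • (lvE4 i - lvE4 none)
      + b • (fun k : GolayPt => if k = none then (8 : ℤ) else 0) := by
    funext k
    simp only [Pi.add_apply, Finset.sum_apply, Pi.smul_apply, Pi.sub_apply, smul_eq_mul, lvE4]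
    by_cases hk : k = none
    · subst hk
      simp only [if_true, mul_sub, Finset.sum_sub_distrib, mul_ite, mul_zero,
        Finset.sum_ite_eq, Finset.mem_univ, ← Finset.sum_mul]
      rw [hsa, ha none]
      ring
    · simp only [if_neg hk, sub_zero, mul_zero, add_zero, mul_ite, Finset.sum_ite_eq,
        Finset.mem_univ, if_true]
      rw [ha k]
      ring
  rw [hx]
  exact AddSubgroup.add_mem _
    (AddSubgroup.sum_mem _ (fun i _ => AddSubgroup.zsmul_mem _ (hd i) (a i)))
    (AddSubgroup.zsmul_mem _ h8' b)

/-- twice the indicator vector of a set -/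
def lvTwo (c : Finset GolayPt) : GolayPt → ℤ := fun i => if i ∈ c then 2 else 0

/-- four times the indicator vector of a set -/
def lvFour (c : Finset GolayPt) : GolayPt → ℤ := fun i => if i ∈ c then 4 else 0

theorem sum_lvTwo (c : Finset GolayPt) : ∑ i, lvTwo c i = 2 * (c.card : ℤ) := by
  simp only [lvTwo, Finset.sum_ite_mem, Finset.univ_inter, Finset.sum_const, nsmul_eq_mul]
  ring

theorem sum_lvFour (c : Finset GolayPt) : ∑ i, lvFour c i = 4 * (c.card : ℤ) := by
  simp only [lvFour, Finset.sum_ite_mem, Finset.univ_inter, Finset.sum_const, nsmul_eq_mul]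
  ring

theorem lvFour_mem (s : Finset GolayPt) (hs : 2 ∣ s.card) : lvFour s ∈ minK := by
  apply lm_A
  · intro i
    simp only [lvFour]
    split_ifs <;> norm_num
  · rw [sum_lvFour]
    obtain ⟨t, ht⟩ := hs
    rw [ht]
    exact ⟨t, by push_cast; ring⟩

theorem lvTwo_leech {c : Finset GolayPt}
    (hc : c ∈ supports (golayCode : Set (GolayPt → ZMod 2))) : lvTwo c ∈ leechSet := by
  have hcard := card_supports hc
  refine ⟨0, fun i => ?_, ?_, fun k => ?_⟩
  · simp only [lvTwo]
    split_ifs <;> decide
  · rw [sum_lvTwo]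
    unfold Int.ModEq
    omega
  · by_cases h2 : (2 : ℤ) ≡ k [ZMOD 4]
    · have e : (Finset.univ.filter fun i : GolayPt => lvTwo c i ≡ k [ZMOD 4]) = c := by
        ext i
        rw [Finset.mem_filter]
        simp only [Finset.mem_univ, true_and, lvTwo]
        by_cases hi : i ∈ c
        · simp only [if_pos hi]
          exact iff_of_true h2 hi
        · simp only [if_neg hi]
          refine iff_of_false ?_ hi
          unfold Int.ModEq at h2 ⊢
          omega
      rw [e]
      exact hc
    · by_cases h0 : (0 : ℤ) ≡ k [ZMOD 4]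
      · have e : (Finset.univ.filter fun i : GolayPt => lvTwo c i ≡ k [ZMOD 4]) = cᶜ := by
          ext i
          rw [Finset.mem_filter]
          simp only [Finset.mem_univ, true_and, lvTwo, Finset.mem_compl]
          by_cases hi : i ∈ c
          · simp only [if_pos hi]
            exact iff_of_false h2 (not_not.mpr hi)
          · simp only [if_neg hi]
            exact iff_of_true h0 hi
        rw [e]
        exact supports_compl hc
      · have e : (Finset.univ.filter fun i : GolayPt => lvTwo c i ≡ k [ZMOD 4]) = ∅ := by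
          ext i
          rw [Finset.mem_filter]
          simp only [Finset.mem_univ, true_and, lvTwo]
          refine iff_of_false ?_ (Finset.notMem_empty i)
          split_ifs
          · exact h2
          · exact h0
        rw [e]
        exact supports_empty

theorem sqNorm_lvTwo (c : Finset GolayPt) : sqNorm (lvTwo c) = 4 * (c.card : ℤ) := by
  unfold sqNorm
  have h : ∀ i, lvTwo c i ^ 2 = if i ∈ c then (4 : ℤ) else 0 := by
    intro i
    simp only [lvTwo]
    split_ifs <;> norm_num
  simp only [h, Finset.sum_ite_mem, Finset.univ_inter, Finset.sum_const, nsmul_eq_mul]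
  ring

theorem lvTwo_symmDiff (a b : Finset GolayPt) :
    lvTwo (symmDiff a b) = lvTwo a + lvTwo b - lvFour (a ∩ b) := by
  funext i
  simp only [lvTwo, lvFour, Pi.add_apply, Pi.sub_apply, Finset.mem_symmDiff, Finset.mem_inter]
  by_cases ha : i ∈ a <;> by_cases hb : i ∈ b <;> simp [ha, hb]

theorem lvTwo_zero_mem : lvTwo (support₂ (0 : GolayPt → ZMod 2)) ∈ minK := by
  have e : lvTwo (support₂ (0 : GolayPt → ZMod 2)) = 0 := by
    funext i
    simp only [lvTwo, mem_support₂, Pi.zero_apply, ne_eq, not_true_eq_false, if_false]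
  rw [e]
  exact AddSubgroup.zero_mem _

theorem lvTwo_mem {c : Finset GolayPt}
    (hc : c ∈ supports (golayCode : Set (GolayPt → ZMod 2))) : lvTwo c ∈ minK := by
  obtain ⟨w, hw, rfl⟩ := hc
  have hspan := golayCode_le_span_octWords hw
  have key : w ∈ golayCode ∧ lvTwo (support₂ w) ∈ minK := by
    refine Submodule.span_induction
      (p := fun w _ => w ∈ golayCode ∧ lvTwo (support₂ w) ∈ minK) ?_ ?_ ?_ ?_ hspan
    · intro v hv
      refine ⟨hv.1, minK_of_min (lvTwo_leech ⟨v, hv.1, rfl⟩) ?_⟩
      rw [sqNorm_lvTwo, card_support₂, hv.2]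
      norm_num
    · exact ⟨Submodule.zero_mem _, lvTwo_zero_mem⟩
    · intro u v _ _ hu hv
      refine ⟨Submodule.add_mem _ hu.1 hv.1, ?_⟩
      rw [support₂_add, lvTwo_symmDiff]
      exact AddSubgroup.sub_mem _ (AddSubgroup.add_mem _ hu.2 hv.2)
        (lvFour_mem _ (card_inter_supports_even ⟨u, hu.1, rfl⟩ ⟨v, hv.1, rfl⟩))
    · intro a v _ hv
      rcases (by decide : ∀ a : ZMod 2, a = 0 ∨ a = 1) a with rfl | rfl
      · rw [zero_smul]
        exact ⟨Submodule.zero_mem _, lvTwo_zero_mem⟩
      · rw [one_smul]
        exact hv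
  exact key.2

/-- the vector with one coordinate `-3` and all others `1` -/
def lvOdd : GolayPt → ℤ := fun i => 1 - (if i = none then 4 else 0)

theorem lvOdd_leech : lvOdd ∈ leechSet := by
  refine ⟨1, fun i => ?_, ?_, fun k => ?_⟩
  · simp only [lvOdd]
    split_ifs <;> decide
  · have hs : ∑ i, lvOdd i = 20 := by
      simp only [lvOdd, Finset.sum_sub_distrib, Finset.sum_const, Finset.card_univ,
        card_golayPt, Finset.sum_ite_eq', Finset.mem_univ, if_true, nsmul_eq_mul]
      norm_num
    rw [hs]
    decide
  · by_cases hk : (1 : ℤ) ≡ k [ZMOD 4]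
    · have e : (Finset.univ.filter fun i : GolayPt => lvOdd i ≡ k [ZMOD 4]) = Finset.univ := by
        ext i
        rw [Finset.mem_filter]
        simp only [Finset.mem_univ, true_and, lvOdd]
        refine iff_of_true ?_ trivial
        unfold Int.ModEq at hk ⊢
        split_ifs <;> omega
      rw [e]
      exact supports_univ
    · have e : (Finset.univ.filter fun i : GolayPt => lvOdd i ≡ k [ZMOD 4]) = ∅ := by
        ext i
        rw [Finset.mem_filter]
        simp only [Finset.mem_univ, true_and, lvOdd]
        refine iff_of_false ?_ (Finset.notMem_empty i)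
        unfold Int.ModEq at hk ⊢
        split_ifs <;> omega
      rw [e]
      exact supports_empty

theorem lvOdd_mem : lvOdd ∈ minK := by
  apply minK_of_min lvOdd_leech
  unfold sqNorm
  have h : ∀ i, lvOdd i ^ 2 = 1 + (if i = none then (8 : ℤ) else 0) := by
    intro i
    simp only [lvOdd]
    split_ifs <;> norm_num
  simp only [h, Finset.sum_add_distrib, Finset.sum_const, Finset.card_univ, card_golayPt,
    Finset.sum_ite_eq', Finset.mem_univ, if_true, nsmul_eq_mul]
  norm_num

theorem lm_even {x : GolayPt → ℤ} (hx : x ∈ leechSet) (he : ∀ i, x i % 2 = 0) : x ∈ minK := by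
  obtain ⟨m, ha, hb, hc⟩ := hx
  have hm : m % 2 = 0 := by
    have h := ha none
    have h' := he none
    unfold Int.ModEq at h
    omega
  have hc2 := hc 2
  have hcard := card_supports hc2
  have h4 : ∀ i, (4 : ℤ) ∣ (x - lvTwo (Finset.univ.filter fun i => x i ≡ 2 [ZMOD 4])) i := by
    intro i
    simp only [Pi.sub_apply, lvTwo, Finset.mem_filter, Finset.mem_univ, true_and]
    have h' := he i
    by_cases hi : x i ≡ 2 [ZMOD 4]
    · rw [if_pos hi]
      unfold Int.ModEq at hi
      omega
    · rw [if_neg hi]
      unfold Int.ModEq at hi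
      omega
  have h8 : (8 : ℤ) ∣ ∑ i, (x - lvTwo (Finset.univ.filter fun i => x i ≡ 2 [ZMOD 4])) i := by
    simp only [Pi.sub_apply, Finset.sum_sub_distrib]
    rw [sum_lvTwo]
    unfold Int.ModEq at hb
    omega
  have hA := lm_A h4 h8
  have hB := lvTwo_mem hc2
  have e : x = (x - lvTwo (Finset.univ.filter fun i => x i ≡ 2 [ZMOD 4]))
      + lvTwo (Finset.univ.filter fun i => x i ≡ 2 [ZMOD 4]) := by
    rw [sub_add_cancel]
  rw [e]
  exact AddSubgroup.add_mem _ hA hB

theorem final1567 : AddSubgroup.closure {x : Cfsg.GolayPt → ℤ | x ∈ Cfsg.leechLattice ∧ Cfsg.sqNorm x = 32} = Cfsg.leechLattice := by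
  apply le_antisymm
  · rw [AddSubgroup.closure_le]
    intro x hx
    exact hx.1
  · intro x hx
    show x ∈ minK
    have hx' := (mem_leechLattice_iff x).mp hx
    by_cases he : ∀ i, x i % 2 = 0
    · exact lm_even hx' he
    · obtain ⟨i0, hi0⟩ := not_forall.mp he
      obtain ⟨m, ha, -, -⟩ := hx'
      have hm : m % 2 = 1 := by
        have h := ha i0
        unfold Int.ModEq at h
        omega
      have hsub : x - lvOdd ∈ leechSet :=
        (mem_leechLattice_iff _).mp
          (AddSubgroup.sub_mem _ hx ((mem_leechLattice_iff lvOdd).mpr lvOdd_leech))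
      have hev : ∀ i, (x - lvOdd) i % 2 = 0 := by
        intro i
        have h := ha i
        unfold Int.ModEq at h
        simp only [Pi.sub_apply, lvOdd]
        split_ifs <;> omega
      have e : x = (x - lvOdd) + lvOdd := by
        rw [sub_add_cancel]
      rw [e]
      exact AddSubgroup.add_mem _ (lm_even hsub hev) lvOdd_mem

end Cfsg.Agent.Helper1.Golay
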