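import Mathlib
import Cfsg.Prelude.Def_SporadicCombinatorics

set_option autoImplicit false

namespace Cfsg.Agent.Helper1.TG

/-- coordinates of a word of the length-12 ternary code on an information set -/
abbrev P6 : Type := ZMod 3 × ZMod 3 × ZMod 3 × ZMod 3 × ZMod 3 × ZMod 3

/-- the parametrisation of the length-12 ternary code -/
def tgphi (c : P6) : Cfsg.ArrayPt → ZMod 3 := fun p =>
  (![    ![c.1, c.2.1, c.2.2.1],
    ![c.2.2.2.1, c.2.2.2.2.1, c.1 + c.2.1 + c.2.2.1 + 2 * c.2.2.2.1 + 2 * c.2.2.2.2.1],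
    ![c.2.2.2.2.2, 2 * c.2.1 + c.2.2.1 + 2 * c.2.2.2.1 + c.2.2.2.2.1 + c.2.2.2.2.2, c.1 + 2 * c.2.1 + c.2.2.2.1 + 2 * c.2.2.2.2.1 + c.2.2.2.2.2],
    ![c.1 + 2 * c.2.1 + 2 * c.2.2.1 + 2 * c.2.2.2.1 + 2 * c.2.2.2.2.2, c.1 + c.2.2.1 + c.2.2.2.1 + c.2.2.2.2.1 + 2 * c.2.2.2.2.2, 2 * c.1 + 2 * c.2.1 + c.2.2.1 + 2 * c.2.2.2.2.1 + 2 * c.2.2.2.2.2]] : Fin 4 → Fin 3 → ZMod 3) p.1 p.2

/-- the coordinates on the information set -/
def tgpsi (x : Cfsg.ArrayPt → ZMod 3) : P6 :=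
  (x (0, 0), x (0, 1), x (0, 2), x (1, 0), x (1, 1), x (2, 0))

theorem tgpsi_phi (c : P6) : tgpsi (tgphi c) = c := by
  revert c
  decide +kernel

theorem tg_inj : Function.Injective tgphi :=
  Function.LeftInverse.injective tgpsi_phi

theorem tg_gen : ∀ c : P6, ∃ s : ZMod 3,
    (∀ i : Fin 4, tgphi c (i, 0) + tgphi c (i, 1) + tgphi c (i, 2) = -s) ∧
    ∀ a b : ZMod 3, ∑ i : Fin 4,
      tgphi c (i, (a • ![0, 1, 1, 1] + b • ![1, 0, 1, 2] : Fin 4 → ZMod 3) i) = s := by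
  decide +kernel

theorem tg_wt : ∀ c : P6, tgphi c = 0 ∨ (Cfsg.ternarySupport (tgphi c)).card = 6 ∨
    (Cfsg.ternarySupport (tgphi c)).card = 9 ∨ (Cfsg.ternarySupport (tgphi c)).card = 12 := by
  decide +kernel

theorem tg_n6 : (Finset.univ.filter
    (fun c : P6 => (Cfsg.ternarySupport (tgphi c)).card = 6)).card = 264 := by
  decide +kernel

theorem tg_n9 : (Finset.univ.filter
    (fun c : P6 => (Cfsg.ternarySupport (tgphi c)).card = 9)).card = 440 := by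
  decide +kernel

theorem tg_n12 : (Finset.univ.filter
    (fun c : P6 => (Cfsg.ternarySupport (tgphi c)).card = 12)).card = 24 := by
  decide +kernel

theorem tg_sum3 (f : ZMod 3 → ZMod 3) : ∑ r : ZMod 3, f r = f 0 + f 1 + f 2 :=
  Fin.sum_univ_three f

theorem tg_tetra : ∀ a b : ZMod 3,
    (a • ![0, 1, 1, 1] + b • ![1, 0, 1, 2] : Fin 4 → ZMod 3) = ![b, a, a + b, a + 2 * b] := by
  decide

theorem tg_eqs (x : Cfsg.ArrayPt → ZMod 3) (hx : x ∈ Cfsg.ternaryGolayCode) : ∃ s : ZMod 3,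
    (∀ i : Fin 4, x (i, 0) + x (i, 1) + x (i, 2) = -s) ∧
    ∀ a b : ZMod 3, x (0, b) + x (1, a) + x (2, a + b) + x (3, a + 2 * b) = s := by
  obtain ⟨s, hs, hs'⟩ := hx
  refine ⟨s, fun i => ?_, fun a b => ?_⟩
  · have h := hs i
    rw [tg_sum3] at h
    exact h
  · have h := hs' (a • ![0, 1, 1, 1] + b • ![1, 0, 1, 2])
      (Submodule.mem_span_pair.mpr ⟨a, b, rfl⟩)
    rw [Fin.sum_univ_four, tg_tetra] at h
    exact h

theorem tg_forall (P : Cfsg.ArrayPt → Prop)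
    (h0 : P (0, 0)) (h1 : P (0, 1)) (h2 : P (0, 2)) (h3 : P (1, 0)) (h4 : P (1, 1)) (h5 : P (1, 2)) (h6 : P (2, 0)) (h7 : P (2, 1)) (h8 : P (2, 2)) (h9 : P (3, 0)) (h10 : P (3, 1)) (h11 : P (3, 2)) :
    ∀ p, P p := by
  rintro ⟨i, r⟩
  fin_cases i <;> fin_cases r <;> assumption

theorem tg_param (x : Cfsg.ArrayPt → ZMod 3) (hx : x ∈ Cfsg.ternaryGolayCode) :
    tgphi (tgpsi x) = x := by
  obtain ⟨s, ec, et⟩ := tg_eqs x hx
  have h3 : (3 : ZMod 3) = 0 := by decide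
  have ec0 : x (0, 0) + x (0, 1) + x (0, 2) = -s := ec 0
  have ec1 : x (1, 0) + x (1, 1) + x (1, 2) = -s := ec 1
  have ec2 : x (2, 0) + x (2, 1) + x (2, 2) = -s := ec 2
  have ec3 : x (3, 0) + x (3, 1) + x (3, 2) = -s := ec 3
  have e00 : x (0, 0) + x (1, 0) + x (2, 0) + x (3, 0) = s := et 0 0
  have e01 : x (0, 1) + x (1, 0) + x (2, 1) + x (3, 2) = s := et 0 1
  have e02 : x (0, 2) + x (1, 0) + x (2, 2) + x (3, 1) = s := et 0 2
  have e10 : x (0, 0) + x (1, 1) + x (2, 1) + x (3, 1) = s := et 1 0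
  have e11 : x (0, 1) + x (1, 1) + x (2, 2) + x (3, 0) = s := et 1 1
  have e12 : x (0, 2) + x (1, 1) + x (2, 0) + x (3, 2) = s := et 1 2
  have e20 : x (0, 0) + x (1, 2) + x (2, 2) + x (3, 2) = s := et 2 0
  have e21 : x (0, 1) + x (1, 2) + x (2, 0) + x (3, 1) = s := et 2 1
  have e22 : x (0, 2) + x (1, 2) + x (2, 1) + x (3, 0) = s := et 2 2
  funext p
  revert p
  refine tg_forall _ ?_ ?_ ?_ ?_ ?_ ?_ ?_ ?_ ?_ ?_ ?_ ?_
  · rfl
  · rfl
  · rfl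
  · rfl
  · rfl
  · show x (0, 0) + x (0, 1) + x (0, 2) + 2 * x (1, 0) + 2 * x (1, 1) = x (1, 2)
    linear_combination (-2) * ec0 + (-1) * ec1 + ((1) * x (0, 0) + (1) * x (0, 1) + (1) * x (0, 2) + (1) * x (1, 0) + (1) * x (1, 1) + (1) * s) * h3
  · rfl
  · show 2 * x (0, 1) + x (0, 2) + 2 * x (1, 0) + x (1, 1) + x (2, 0) = x (2, 1)
    linear_combination (-2) * ec0 + (-1) * ec3 + (-2) * e00 + (-2) * e01 + (-2) * e10 + ((2) * x (0, 0) + (2) * x (0, 1) + (1) * x (0, 2) + (2) * x (1, 0) + (1) * x (1, 1) + (1) * x (2, 0) + (1) * x (2, 1) + (1) * x (3, 0) + (1) * x (3, 1) + (1) * x (3, 2) + (-1) * s) * h3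
  · show x (0, 0) + 2 * x (0, 1) + x (1, 0) + 2 * x (1, 1) + x (2, 0) = x (2, 2)
    linear_combination (-1) * ec2 + (-2) * ec3 + (-1) * e00 + (-1) * e01 + (-1) * e10 + ((1) * x (0, 0) + (1) * x (0, 1) + (1) * x (1, 0) + (1) * x (1, 1) + (1) * x (2, 0) + (1) * x (2, 1) + (1) * x (3, 0) + (1) * x (3, 1) + (1) * x (3, 2)) * h3
  · show x (0, 0) + 2 * x (0, 1) + 2 * x (0, 2) + 2 * x (1, 0) + 2 * x (2, 0) = x (3, 0)
    linear_combination (-1) * ec0 + (-1) * e00 + ((1) * x (0, 0) + (1) * x (0, 1) + (1) * x (0, 2) + (1) * x (1, 0) + (1) * x (2, 0)) * h3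
  · show x (0, 0) + x (0, 2) + x (1, 0) + x (1, 1) + 2 * x (2, 0) = x (3, 1)
    linear_combination (-2) * ec0 + (-2) * ec3 + (-1) * e00 + (-1) * e01 + (-2) * e10 + ((2) * x (0, 0) + (1) * x (0, 1) + (1) * x (0, 2) + (1) * x (1, 0) + (1) * x (1, 1) + (1) * x (2, 0) + (1) * x (2, 1) + (1) * x (3, 0) + (1) * x (3, 1) + (1) * x (3, 2)) * h3
  · show 2 * x (0, 0) + 2 * x (0, 1) + x (0, 2) + 2 * x (1, 1) + 2 * x (2, 0) = x (3, 2)
    linear_combination (-2) * ec0 + (-2) * ec3 + (-1) * e00 + (-2) * e01 + (-1) * e10 + ((2) * x (0, 0) + (2) * x (0, 1) + (1) * x (0, 2) + (1) * x (1, 0) + (1) * x (1, 1) + (1) * x (2, 0) + (1) * x (2, 1) + (1) * x (3, 0) + (1) * x (3, 1) + (1) * x (3, 2)) * h3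

theorem tg_mem_iff (x : Cfsg.ArrayPt → ZMod 3) :
    x ∈ Cfsg.ternaryGolayCode ↔ ∃ c : P6, tgphi c = x := by
  constructor
  · intro hx
    exact ⟨tgpsi x, tg_param x hx⟩
  · rintro ⟨c, rfl⟩
    obtain ⟨s, h1, h2⟩ := tg_gen c
    have hw : Cfsg.IsTernaryGolayWord (tgphi c) := by
      refine ⟨s, fun i => ?_, fun t ht => ?_⟩
      · rw [tg_sum3]
        exact h1 i
      · obtain ⟨a, b, rfl⟩ := Submodule.mem_span_pair.mp ht
        exact h2 a b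
    exact hw

theorem tg_card : Nat.card ↥Cfsg.ternaryGolayCode = 729 := by
  have hset : (Cfsg.ternaryGolayCode : Set (Cfsg.ArrayPt → ZMod 3)) = tgphi '' Set.univ := by
    ext x
    simp only [SetLike.mem_coe, tg_mem_iff, Set.image_univ, Set.mem_range]
  rw [← SetLike.coe_sort_coe, _root_.Nat.card_coe_set_eq, hset,
    Set.ncard_image_of_injective _ tg_inj, Set.ncard_univ, Nat.card_eq_fintype_card]
  decide +kernel

theorem tg_count (k N : ℕ)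
    (hN : (Finset.univ.filter
      (fun c : P6 => (Cfsg.ternarySupport (tgphi c)).card = k)).card = N) :
    {x : Cfsg.ArrayPt → ZMod 3 |
      x ∈ Cfsg.ternaryGolayCode ∧ (Cfsg.ternarySupport x).card = k}.ncard = N := by
  have hset : {x : Cfsg.ArrayPt → ZMod 3 |
      x ∈ Cfsg.ternaryGolayCode ∧ (Cfsg.ternarySupport x).card = k}
      = tgphi '' (↑(Finset.univ.filter
          (fun c : P6 => (Cfsg.ternarySupport (tgphi c)).card = k)) : Set P6) := by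
    ext x
    simp only [Set.mem_ofPred_eq, Set.mem_image, Finset.coe_filter, Finset.mem_univ, true_and,
      tg_mem_iff]
    constructor
    · rintro ⟨⟨c, rfl⟩, hk⟩
      exact ⟨c, hk, rfl⟩
    · rintro ⟨c, hk, rfl⟩
      exact ⟨⟨c, rfl⟩, hk⟩
  rw [hset, Set.ncard_image_of_injective _ tg_inj, Set.ncard_coe_finset, hN]

theorem final1590 : Nat.card ↥Cfsg.ternaryGolayCode = 729 ∧ (∀ x ∈ Cfsg.ternaryGolayCode, x ≠ 0 → (Cfsg.ternarySupport x).card = 6 ∨ (Cfsg.ternarySupport x).card = 9 ∨ (Cfsg.ternarySupport x).card = 12) ∧ {x : Cfsg.ArrayPt → ZMod 3 | x ∈ Cfsg.ternaryGolayCode ∧ (Cfsg.ternarySupport x).card = 6}.ncard = 264 ∧ {x : Cfsg.ArrayPt → ZMod 3 | x ∈ Cfsg.ternaryGolayCode ∧ (Cfsg.ternarySupport x).card = 9}.ncard = 440 ∧ {x : Cfsg.ArrayPt → ZMod 3 | x ∈ Cfsg.ternaryGolayCode ∧ (Cfsg.ternarySupport x).card = 12}.ncard = 24 := by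
  refine ⟨tg_card, ?_, tg_count 6 264 tg_n6, tg_count 9 440 tg_n9, tg_count 12 24 tg_n12⟩
  intro x hx hx0
  obtain ⟨c, rfl⟩ := (tg_mem_iff x).mp hx
  rcases tg_wt c with h | h
  · exact absurd h hx0
  · exact h

end Cfsg.Agent.Helper1.TG
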