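import Mathlib
import Cfsg.Agent.Helper1.Sx1590

set_option autoImplicit false

namespace Cfsg.Agent.Helper1.TG

theorem supp_mem (x : Cfsg.ArrayPt → ZMod 3) (p : Cfsg.ArrayPt) :
    p ∈ Cfsg.ternarySupport x ↔ x p ≠ 0 := by
  unfold Cfsg.ternarySupport
  simp only [Finset.mem_filter, Finset.mem_univ, true_and]

theorem supp_neg (y : Cfsg.ArrayPt → ZMod 3) :
    Cfsg.ternarySupport (-y) = Cfsg.ternarySupport y := by
  ext p
  simp only [supp_mem, Pi.neg_apply, ne_eq, neg_eq_zero]

theorem tg_mem_phi (c : P6) : tgphi c ∈ Cfsg.ternaryGolayCode :=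
  (tg_mem_iff _).mpr ⟨c, rfl⟩

theorem tg_minwt (z : Cfsg.ArrayPt → ZMod 3) (hz : z ∈ Cfsg.ternaryGolayCode)
    (hlt : (Cfsg.ternarySupport z).card < 6) : z = 0 := by
  obtain ⟨c, rfl⟩ := (tg_mem_iff z).mp hz
  rcases tg_wt c with h | h | h | h
  · exact h
  · omega
  · omega
  · omega

theorem tg_pm (x y : Cfsg.ArrayPt → ZMod 3) (hx : x ∈ Cfsg.ternaryGolayCode)
    (hy : y ∈ Cfsg.ternaryGolayCode)
    (hx6 : (Cfsg.ternarySupport x).card = 6) (hy6 : (Cfsg.ternarySupport y).card = 6)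
    (s : Finset Cfsg.ArrayPt) (hs : s.card = 5) (hsx : s ⊆ Cfsg.ternarySupport x)
    (hsy : s ⊆ Cfsg.ternarySupport y) : x = y ∨ x = -y := by
  classical
  have hUc : (Cfsg.ternarySupport x ∪ Cfsg.ternarySupport y).card ≤ 7 := by
    have h1 := Finset.card_union_add_card_inter (Cfsg.ternarySupport x) (Cfsg.ternarySupport y)
    have h2 : s.card ≤ (Cfsg.ternarySupport x ∩ Cfsg.ternarySupport y).card :=
      Finset.card_le_card (Finset.subset_inter hsx hsy)
    omega
  have hpart : (s.filter (fun p => x p = y p)).card + (s.filter (fun p => ¬ x p = y p)).card = 5 := by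
    rw [← hs]
    exact Finset.card_filter_add_card_filter_not _
  have hu : Cfsg.ternarySupport (x - y) ⊆
      (Cfsg.ternarySupport x ∪ Cfsg.ternarySupport y) \ (s.filter (fun p => x p = y p)) := by
    intro p hp
    rw [supp_mem] at hp
    rw [Finset.mem_sdiff, Finset.mem_union, supp_mem, supp_mem]
    refine ⟨?_, ?_⟩
    · by_contra hcon
      rw [not_or, not_not, not_not] at hcon
      apply hp
      show x p - y p = 0
      rw [hcon.1, hcon.2, sub_zero]
    · intro hp1
      apply hp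
      show x p - y p = 0
      rw [(Finset.mem_filter.mp hp1).2, sub_self]
  have hv : Cfsg.ternarySupport (x + y) ⊆
      (Cfsg.ternarySupport x ∪ Cfsg.ternarySupport y) \ (s.filter (fun p => ¬ x p = y p)) := by
    intro p hp
    rw [supp_mem] at hp
    rw [Finset.mem_sdiff, Finset.mem_union, supp_mem, supp_mem]
    refine ⟨?_, ?_⟩
    · by_contra hcon
      rw [not_or, not_not, not_not] at hcon
      apply hp
      show x p + y p = 0
      rw [hcon.1, hcon.2, add_zero]
    · intro hp2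
      have hp2' := Finset.mem_filter.mp hp2
      have hxp : x p ≠ 0 := (supp_mem x p).mp (hsx hp2'.1)
      have hyp : y p ≠ 0 := (supp_mem y p).mp (hsy hp2'.1)
      apply hp
      have key : ∀ a b : ZMod 3, a ≠ 0 → b ≠ 0 → ¬ a = b → a + b = 0 := by decide
      exact key _ _ hxp hyp hp2'.2
  have hs1U : s.filter (fun p => x p = y p) ⊆ Cfsg.ternarySupport x ∪ Cfsg.ternarySupport y :=
    fun p hp => Finset.mem_union_left _ (hsx (Finset.mem_filter.mp hp).1)
  have hs2U : s.filter (fun p => ¬ x p = y p) ⊆ Cfsg.ternarySupport x ∪ Cfsg.ternarySupport y :=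
    fun p hp => Finset.mem_union_left _ (hsx (Finset.mem_filter.mp hp).1)
  have hcu := Finset.card_le_card hu
  rw [Finset.card_sdiff_of_subset hs1U] at hcu
  have hcv := Finset.card_le_card hv
  rw [Finset.card_sdiff_of_subset hs2U] at hcv
  have hmemu : x - y ∈ Cfsg.ternaryGolayCode := Submodule.sub_mem _ hx hy
  have hmemv : x + y ∈ Cfsg.ternaryGolayCode := Submodule.add_mem _ hx hy
  by_cases h : (Cfsg.ternarySupport (x - y)).card < 6
  · left
    exact sub_eq_zero.mp (tg_minwt _ hmemu h)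
  · right
    have h' : (Cfsg.ternarySupport (x + y)).card < 6 := by omega
    exact eq_neg_of_add_eq_zero_left (tg_minwt _ hmemv h')

/-- the coefficient tuples of the words of weight 6 -/
def W6 : Finset P6 :=
  Finset.univ.filter (fun c : P6 => (Cfsg.ternarySupport (tgphi c)).card = 6)

theorem mem_W6 (c : P6) : c ∈ W6 ↔ (Cfsg.ternarySupport (tgphi c)).card = 6 := by
  unfold W6
  simp only [Finset.mem_filter, Finset.mem_univ, true_and]

/-- the supports of the words of weight 6 -/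
def hexs : Finset (Finset Cfsg.ArrayPt) :=
  W6.image (fun c => Cfsg.ternarySupport (tgphi c))

theorem mem_hexs (b : Finset Cfsg.ArrayPt) :
    b ∈ hexs ↔ ∃ c : P6, (Cfsg.ternarySupport (tgphi c)).card = 6 ∧
      Cfsg.ternarySupport (tgphi c) = b := by
  unfold hexs
  simp only [Finset.mem_image, mem_W6]

theorem hexs_card6 (b : Finset Cfsg.ArrayPt) (hb : b ∈ hexs) : b.card = 6 := by
  obtain ⟨c, hc, rfl⟩ := (mem_hexs b).mp hb
  exact hc

theorem tg_B_eq : {h : Finset Cfsg.ArrayPt | ∃ x ∈ Cfsg.ternaryGolayCode,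
    Cfsg.ternarySupport x = h ∧ h.card = 6} = ↑hexs := by
  ext h
  rw [Finset.mem_coe, mem_hexs]
  constructor
  · rintro ⟨x, hx, rfl, h6⟩
    obtain ⟨c, rfl⟩ := (tg_mem_iff x).mp hx
    exact ⟨c, h6, rfl⟩
  · rintro ⟨c, h6, rfl⟩
    exact ⟨tgphi c, tg_mem_phi c, rfl, h6⟩

theorem hexs_unique (b b' : Finset Cfsg.ArrayPt) (hb : b ∈ hexs) (hb' : b' ∈ hexs)
    (s : Finset Cfsg.ArrayPt) (hs : s.card = 5) (hsb : s ⊆ b) (hsb' : s ⊆ b') : b = b' := by
  obtain ⟨c, h6, rfl⟩ := (mem_hexs b).mp hb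
  obtain ⟨c', h6', rfl⟩ := (mem_hexs b').mp hb'
  rcases tg_pm _ _ (tg_mem_phi c) (tg_mem_phi c') h6 h6' s hs hsb hsb' with h | h
  · rw [h]
  · rw [h, supp_neg]

theorem hexs_card_ge : 132 ≤ hexs.card := by
  have h := Finset.card_le_mul_card_image (f := fun c => Cfsg.ternarySupport (tgphi c)) W6 2 (by
    intro b hb
    obtain ⟨c0, h60, rfl⟩ := (mem_hexs b).mp hb
    have hsub : (W6.filter fun c => Cfsg.ternarySupport (tgphi c) = Cfsg.ternarySupport (tgphi c0))
        ⊆ {c0, tgpsi (-(tgphi c0))} := by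
      rw [Finset.subset_iff]
      intro c hc
      have hc2 := Finset.mem_filter.mp hc
      have h6 := (mem_W6 c).mp hc2.1
      obtain ⟨s, hs, hs5⟩ := Finset.exists_subset_card_eq
        (show 5 ≤ (Cfsg.ternarySupport (tgphi c)).card by omega)
      have hs0 : s ⊆ Cfsg.ternarySupport (tgphi c0) := by
        have hceq' : Cfsg.ternarySupport (tgphi c) = Cfsg.ternarySupport (tgphi c0) := hc2.2
        rw [← hceq']
        exact hs
      rcases tg_pm _ _ (tg_mem_phi c) (tg_mem_phi c0) h6 h60 s hs5 hs hs0 with h | h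
      · rw [tg_inj h]
        exact Finset.mem_insert_self _ _
      · have hc' : c = tgpsi (-(tgphi c0)) := by
          rw [← h, tgpsi_phi]
        rw [hc']
        exact Finset.mem_insert_of_mem (Finset.mem_singleton_self _)
    exact (Finset.card_le_card hsub).trans Finset.card_le_two)
  have h264 : W6.card = 264 := tg_n6
  unfold hexs
  omega

theorem ps5_card : ((Finset.univ : Finset Cfsg.ArrayPt).powersetCard 5).card = 792 := by
  rw [Finset.card_powersetCard, Finset.card_univ]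
  have h12 : Fintype.card Cfsg.ArrayPt = 12 := by
    simp only [Fintype.card_prod, Fintype.card_fin, ZMod.card]
  rw [h12]
  decide

theorem steiner_of_unique (H : Finset (Finset Cfsg.ArrayPt)) (h6 : ∀ b ∈ H, b.card = 6)
    (huniq : ∀ b ∈ H, ∀ b' ∈ H, ∀ s : Finset Cfsg.ArrayPt, s.card = 5 → s ⊆ b → s ⊆ b' → b = b')
    (hge : 132 ≤ H.card) :
    H.card = 132 ∧ ∀ s : Finset Cfsg.ArrayPt, s.card = 5 → ∃ b ∈ H, s ⊆ b := by
  have hdisj : (↑H : Set (Finset Cfsg.ArrayPt)).PairwiseDisjoint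
      (fun b => b.powersetCard 5) := by
    intro b hb b' hb' hne
    show Disjoint (b.powersetCard 5) (b'.powersetCard 5)
    rw [Finset.disjoint_left]
    intro t ht ht'
    have h1 := Finset.mem_powersetCard.mp ht
    have h2 := Finset.mem_powersetCard.mp ht'
    exact hne (huniq b (Finset.mem_coe.mp hb) b' (Finset.mem_coe.mp hb') t h1.2 h1.1 h2.1)
  have h6' : ∀ b ∈ H, (b.powersetCard 5).card = 6 := by
    intro b hb
    rw [Finset.card_powersetCard, h6 b hb]
    rfl
  have hbu : (H.biUnion (fun b => b.powersetCard 5)).card = 6 * H.card := by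
    rw [Finset.card_biUnion hdisj, Finset.sum_congr rfl h6', Finset.sum_const, smul_eq_mul,
      mul_comm]
  have hsub : H.biUnion (fun b => b.powersetCard 5) ⊆
      (Finset.univ : Finset Cfsg.ArrayPt).powersetCard 5 := by
    rw [Finset.subset_iff]
    intro t ht
    rw [Finset.mem_biUnion] at ht
    obtain ⟨b, hb, htb⟩ := ht
    exact Finset.mem_powersetCard.mpr ⟨Finset.subset_univ _, (Finset.mem_powersetCard.mp htb).2⟩
  have hle := Finset.card_le_card hsub
  rw [hbu, ps5_card] at hle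
  have hcard : H.card = 132 := by omega
  refine ⟨hcard, ?_⟩
  intro s hs
  have heq : H.biUnion (fun b => b.powersetCard 5) =
      (Finset.univ : Finset Cfsg.ArrayPt).powersetCard 5 :=
    Finset.eq_of_subset_of_card_le hsub (by
      rw [ps5_card, hbu, hcard])
  have hmem : s ∈ (Finset.univ : Finset Cfsg.ArrayPt).powersetCard 5 :=
    Finset.mem_powersetCard.mpr ⟨Finset.subset_univ _, hs⟩
  rw [← heq, Finset.mem_biUnion] at hmem
  obtain ⟨b, hb, hsb⟩ := hmem
  exact ⟨b, hb, (Finset.mem_powersetCard.mp hsb).1⟩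

theorem final1592 : Cfsg.IsSteinerSystem 5 6 {h : Finset Cfsg.ArrayPt | ∃ x ∈ Cfsg.ternaryGolayCode, Cfsg.ternarySupport x = h ∧ h.card = 6} ∧ {h : Finset Cfsg.ArrayPt | ∃ x ∈ Cfsg.ternaryGolayCode, Cfsg.ternarySupport x = h ∧ h.card = 6}.ncard = 132 := by
  rw [tg_B_eq]
  have hst := steiner_of_unique hexs hexs_card6
    (fun b hb b' hb' s hs hsb hsb' => hexs_unique b b' hb hb' s hs hsb hsb') hexs_card_ge
  refine ⟨⟨?_, ?_⟩, ?_⟩
  · intro b hb
    exact hexs_card6 b (Finset.mem_coe.mp hb)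
  · intro s hs
    obtain ⟨b, hb, hsb⟩ := hst.2 s hs
    refine ⟨b, ⟨Finset.mem_coe.mpr hb, hsb⟩, ?_⟩
    intro b' hb'
    exact hexs_unique b' b (Finset.mem_coe.mp hb'.1) hb s hs hb'.2 hsb
  · rw [Set.ncard_coe_finset]
    exact hst.1

end Cfsg.Agent.Helper1.TG
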