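import Mathlib
import Cfsg.Agent.Helper1.Sx5619Tab
import Cfsg.Agent.Helper1.Golay12
import Cfsg.Agent.S0016

set_option autoImplicit false

namespace Cfsg.Agent.Helper1.Golay

open Cfsg
open scoped Pointwise

/-! ### Group theory of a group of order 72 with few elements of order 3 and 2 -/

theorem sylow_card_aux {G : Type*} [Group G] [Finite G] {p : ℕ} [Fact p.Prime] (P : Sylow p G) :
    ∃ n, Nat.card P = p ^ n ∧ p ^ n * (P : Subgroup G).index = Nat.card G
      ∧ ¬ p ∣ (P : Subgroup G).index := by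
  obtain ⟨n, hn⟩ := IsPGroup.iff_card.mp P.isPGroup'
  refine ⟨n, hn, ?_, P.not_dvd_index⟩
  rw [← hn]
  exact Subgroup.card_mul_index _

theorem sylow3_card_72 {G : Type*} [Group G] [Finite G] [Fact (Nat.Prime 3)]
    (hG : Nat.card G = 72) (Q : Sylow 3 G) : Nat.card Q = 9 := by
  obtain ⟨n, hn, h2, h3⟩ := sylow_card_aux Q
  rw [hG] at h2
  have hlt : n < 4 := by
    by_contra hcon
    have h4 : 3 ^ 4 ≤ 3 ^ n := Nat.pow_le_pow_right (by norm_num) (by omega)
    have h5 : 3 ^ n ≤ 72 := Nat.le_of_dvd (by norm_num) (Dvd.intro _ h2)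
    norm_num at h4
    omega
  rw [hn]
  rcases (show n = 0 ∨ n = 1 ∨ n = 2 ∨ n = 3 by omega) with rfl | rfl | rfl | rfl
  · norm_num at h2
    omega
  · norm_num at h2
    omega
  · norm_num
  · norm_num at h2
    omega

theorem sylow2_card_72 {G : Type*} [Group G] [Finite G] [Fact (Nat.Prime 2)]
    (hG : Nat.card G = 72) (P : Sylow 2 G) : Nat.card P = 8 := by
  obtain ⟨n, hn, h2, h3⟩ := sylow_card_aux P
  rw [hG] at h2
  have hlt : n < 7 := by
    by_contra hcon
    have h4 : 2 ^ 7 ≤ 2 ^ n := Nat.pow_le_pow_right (by norm_num) (by omega)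
    have h5 : 2 ^ n ≤ 72 := Nat.le_of_dvd (by norm_num) (Dvd.intro _ h2)
    norm_num at h4
    omega
  rw [hn]
  rcases (show n = 0 ∨ n = 1 ∨ n = 2 ∨ n = 3 ∨ n = 4 ∨ n = 5 ∨ n = 6 by omega)
    with rfl | rfl | rfl | rfl | rfl | rfl | rfl
  · norm_num at h2
    omega
  · norm_num at h2
    omega
  · norm_num at h2
    omega
  · norm_num
  · norm_num at h2
    omega
  · norm_num at h2
    omega
  · norm_num at h2
    omega

theorem m9_structure {G : Type*} [Group G] [Finite G] [Fact (Nat.Prime 3)] [Fact (Nat.Prime 2)]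
    (hG : Nat.card G = 72)
    (hB1 : ∀ g : G, g ^ 9 = 1 → g ^ 3 = 1)
    (hB2 : {g : G | g ^ 9 = 1}.ncard ≤ 9)
    (hC1 : ∀ g : G, g ^ 8 = 1 → g ^ 4 = 1)
    (hC2 : ∀ a b : G, a ^ 2 = 1 → b ^ 2 = 1 → a ≠ 1 → b ≠ 1 → a ≠ b → (a * b) ^ 8 ≠ 1) :
    (∀ Q : Sylow 3 G, (Q : Subgroup G).Normal ∧ Nat.card Q = 9
        ∧ ∀ x ∈ (Q : Subgroup G), x ^ 3 = 1)
      ∧ ∀ P : Sylow 2 G, Nonempty (P ≃* QuaternionGroup 2) := by
  constructor
  · intro Q
    have hQ9 := sylow3_card_72 hG Q
    have hpow : ∀ x ∈ (Q : Subgroup G), x ^ 9 = 1 := by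
      intro x hx
      have h1 := pow_card_eq_one' (G := ↥(Q : Subgroup G)) (x := ⟨x, hx⟩)
      rw [hQ9] at h1
      exact congrArg Subtype.val h1
    have hset : ((Q : Subgroup G) : Set G) = {g : G | g ^ 9 = 1} := by
      apply Set.eq_of_subset_of_ncard_le
      · intro x hx
        exact hpow x hx
      · have h1 : ((Q : Subgroup G) : Set G).ncard = 9 := by
          rw [← Nat.card_coe_set_eq]
          exact hQ9
        omega
      · exact Set.toFinite _
    refine ⟨⟨?_⟩, hQ9, fun x hx => hB1 x (hpow x hx)⟩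
    intro n hn g
    have h1 : n ^ 9 = 1 := hpow n hn
    have h2 : (g * n * g⁻¹) ^ 9 = 1 := by rw [conj_pow, h1, mul_one, mul_inv_cancel]
    have h3 : g * n * g⁻¹ ∈ ((Q : Subgroup G) : Set G) := by
      rw [hset]
      exact h2
    exact h3
  · intro P
    have hP8 := sylow2_card_72 hG P
    have hncyc : ¬ IsCyclic ↥(P : Subgroup G) := by
      intro hc
      obtain ⟨g, hg⟩ := hc.exists_generator
      have ho : orderOf g = 8 := by rw [orderOf_eq_card_of_forall_mem_zpowers hg, hP8]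
      have h8 : (g : G) ^ 8 = 1 := by
        have h1 := pow_orderOf_eq_one g
        rw [ho] at h1
        exact congrArg Subtype.val h1
      have h4 := hC1 _ h8
      have h4' : g ^ 4 = 1 := Subtype.ext h4
      have h5 := orderOf_le_of_pow_eq_one (by norm_num) h4'
      omega
    have key : ∀ H : Subgroup ↥(P : Subgroup G), Nat.card H = 2 →
        ∃ a : ↥(P : Subgroup G), a ≠ 1 ∧ a ^ 2 = 1 ∧ H = Subgroup.zpowers a := by
      intro H hH
      have hne : H ≠ ⊥ := by
        intro h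
        rw [h, Subgroup.card_bot] at hH
        omega
      obtain ⟨a, ha1⟩ := (Subgroup.ne_bot_iff_exists_ne_one).mp hne
      have ha2 : a ^ 2 = 1 := by
        have h1 := pow_card_eq_one' (G := ↥H) (x := a)
        rwa [hH] at h1
      have ha1' : (a : ↥(P : Subgroup G)) ≠ 1 := fun h => ha1 (Subtype.ext h)
      have ha2' : (a : ↥(P : Subgroup G)) ^ 2 = 1 := congrArg Subtype.val ha2
      refine ⟨a, ha1', ha2', ?_⟩
      symm
      apply Subgroup.eq_of_le_of_card_ge (Subgroup.zpowers_le.mpr a.2)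
      rw [Nat.card_zpowers, orderOf_eq_prime ha2' ha1', hH]
    have huniq : ∀ H K : Subgroup ↥(P : Subgroup G), Nat.card H = 2 → Nat.card K = 2 →
        H = K := by
      intro H K hH hK
      obtain ⟨a, ha1, ha2, rfl⟩ := key H hH
      obtain ⟨b, hb1, hb2, rfl⟩ := key K hK
      by_cases hab : a = b
      · rw [hab]
      · exfalso
        have h8 : (a * b) ^ 8 = 1 := by
          have h1 := pow_card_eq_one' (G := ↥(P : Subgroup G)) (x := a * b)
          rwa [hP8] at h1
        exact hC2 (a : G) (b : G) (congrArg Subtype.val ha2) (congrArg Subtype.val hb2)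
          (fun h => ha1 (Subtype.ext h)) (fun h => hb1 (Subtype.ext h))
          (fun h => hab (Subtype.ext h)) (congrArg Subtype.val h8)
    rcases Cfsg.Agent.S0016.result 2 P.isPGroup' huniq with hc | ⟨-, n, ⟨e⟩⟩
    · exact absurd hc hncyc
    · have hcard : Nat.card ↥(P : Subgroup G) = 4 * 2 ^ n := by
        rw [Nat.card_congr e.toEquiv, Nat.card_eq_fintype_card, QuaternionGroup.card]
      rw [hP8] at hcard
      have hn : n = 1 := by
        have h1 : 2 ^ n = 2 ^ 1 := by omega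
        exact Nat.pow_right_injective (le_refl 2) h1
      subst hn
      exact ⟨e⟩

/-! ### The order -/

theorem card_of_orbit {G α : Type*} [Group G] [MulAction G α] (H : Subgroup G) (a : α)
    (s : Set α) (n : ℕ) (hs : ∀ x, (∃ h ∈ H, h • a = x) ↔ x ∈ s)
    (hn : Nat.card ↥(H ⊓ MulAction.stabilizer G a) = n) : Nat.card H = s.ncard * n := by
  have h := card_eq_orbit_mul' H a
  have e : {x | ∃ h ∈ H, h • a = x} = s := Set.ext hs
  rw [e, hn] at h
  exact h

theorem exists_two {d : Finset GolayPt} (hd : d ∈ dodecads) (p q r : GolayPt) :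
    ∃ u v, u ∈ d ∧ v ∈ d ∧ u ≠ v ∧ u ≠ p ∧ u ≠ q ∧ u ≠ r ∧ v ≠ p ∧ v ≠ q ∧ v ≠ r := by
  have h1 : 2 ≤ (d \ {p, q, r}).card := by
    have h2 := Finset.le_card_sdiff ({p, q, r} : Finset GolayPt) d
    have h3 : ({p, q, r} : Finset GolayPt).card ≤ 3 := Finset.card_le_three
    have h4 := hd.2
    omega
  obtain ⟨u, hu, v, hv, huv⟩ := Finset.one_lt_card.mp (by omega : 1 < (d \ {p, q, r}).card)
  rw [Finset.mem_sdiff, Finset.mem_insert, Finset.mem_insert, Finset.mem_singleton, not_or,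
    not_or] at hu hv
  exact ⟨u, v, hu.1, hv.1, huv, hu.2.1, hu.2.2.1, hu.2.2.2, hv.2.1, hv.2.2.1, hv.2.2.2⟩

/-- A five-tuple of distinct points as an embedding. -/
def emb5 (a b c u v : GolayPt) (hab : a ≠ b) (hac : a ≠ c) (hau : a ≠ u) (hav : a ≠ v)
    (hbc : b ≠ c) (hbu : b ≠ u) (hbv : b ≠ v) (hcu : c ≠ u) (hcv : c ≠ v) (huv : u ≠ v) :
    Fin 5 ↪ GolayPt :=
  ⟨![a, b, c, u, v], by
    intro i j h
    fin_cases i <;> fin_cases j <;> simp_all⟩

theorem m12_three_trans (d : Finset GolayPt) (hd : d ∈ dodecads) (p q r p' q' r' : GolayPt)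
    (hp : p ∈ d) (hq : q ∈ d) (hr : r ∈ d) (hpq : p ≠ q) (hpr : p ≠ r) (hqr : q ≠ r)
    (hp' : p' ∈ d) (hq' : q' ∈ d) (hr' : r' ∈ d) (hpq' : p' ≠ q') (hpr' : p' ≠ r')
    (hqr' : q' ≠ r') :
    ∃ g ∈ M24, g • d = d ∧ g p = p' ∧ g q = q' ∧ g r = r' := by
  obtain ⟨u, v, hu, hv, huv, hup, huq, hur, hvp, hvq, hvr⟩ := exists_two hd p q r
  obtain ⟨u', v', hu', hv', huv', hup', huq', hur', hvp', hvq', hvr'⟩ := exists_two hd p' q' r'
  obtain ⟨g, hg, hgd, hgx⟩ := m12_exists d hd
    (emb5 p q r u v hpq hpr hup.symm hvp.symm hqr huq.symm hvq.symm hur.symm hvr.symm huv)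
    (emb5 p' q' r' u' v' hpq' hpr' hup'.symm hvp'.symm hqr' huq'.symm hvq'.symm hur'.symm
      hvr'.symm huv')
    (by
      intro i
      fin_cases i
      · exact hp
      · exact hq
      · exact hr
      · exact hu
      · exact hv)
    (by
      intro i
      fin_cases i
      · exact hp'
      · exact hq'
      · exact hr'
      · exact hu'
      · exact hv')
  exact ⟨g, hg, hgd, hgx 0, hgx 1, hgx 2⟩

theorem card_m9 (d : Finset GolayPt) (hd : d ∈ dodecads) (p q r : GolayPt) (hp : p ∈ d)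
    (hq : q ∈ d) (hr : r ∈ d) (hpq : p ≠ q) (hpr : p ≠ r) (hqr : q ≠ r) :
    Nat.card ↥(MulAction.stabilizer M24 d ⊓ MulAction.stabilizer M24 p
      ⊓ MulAction.stabilizer M24 q ⊓ MulAction.stabilizer M24 r) = 72 := by
  obtain ⟨u, v, hu, hv, huv, hup, huq, hur, hvp, hvq, hvr⟩ := exists_two hd p q r
  have hinj : Function.Injective ![u, v] := by
    intro i j h
    fin_cases i <;> fin_cases j <;> simp_all
  have e : ∀ z : Fin 2 ↪ GolayPt,
      (∃ h ∈ MulAction.stabilizer M24 d ⊓ MulAction.stabilizer M24 p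
        ⊓ MulAction.stabilizer M24 q ⊓ MulAction.stabilizer M24 r,
        h • (⟨![u, v], hinj⟩ : Fin 2 ↪ GolayPt) = z)
      ↔ z ∈ {z : Fin 2 ↪ GolayPt | ∀ i, z i ∈ d \ {p, q, r}} := by
    intro z
    constructor
    · rintro ⟨h, hh, rfl⟩ i
      obtain ⟨⟨⟨h1, h2⟩, h3⟩, h4⟩ := hh
      have hhd : (h : Equiv.Perm GolayPt) • d = d := MulAction.mem_stabilizer_iff.mp h1
      have hhp : (h : Equiv.Perm GolayPt) p = p := MulAction.mem_stabilizer_iff.mp h2
      have hhq : (h : Equiv.Perm GolayPt) q = q := MulAction.mem_stabilizer_iff.mp h3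
      have hhr : (h : Equiv.Perm GolayPt) r = r := MulAction.mem_stabilizer_iff.mp h4
      have key : ∀ w, w ∈ d → w ≠ p → w ≠ q → w ≠ r →
          (h : Equiv.Perm GolayPt) w ∈ d \ {p, q, r} := by
        intro w hw hwp hwq hwr
        rw [Finset.mem_sdiff, Finset.mem_insert, Finset.mem_insert, Finset.mem_singleton,
          not_or, not_or]
        refine ⟨apply_mem_of_smul_eq hhd hw, ?_, ?_, ?_⟩
        · intro e
          rw [← hhp] at e
          exact hwp ((h : Equiv.Perm GolayPt).injective e)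
        · intro e
          rw [← hhq] at e
          exact hwq ((h : Equiv.Perm GolayPt).injective e)
        · intro e
          rw [← hhr] at e
          exact hwr ((h : Equiv.Perm GolayPt).injective e)
      fin_cases i
      · exact key u hu hup huq hur
      · exact key v hv hvp hvq hvr
    · intro hz
      have hz0 := hz 0
      have hz1 := hz 1
      rw [Finset.mem_sdiff, Finset.mem_insert, Finset.mem_insert, Finset.mem_singleton,
        not_or, not_or] at hz0 hz1
      have hz01 : z 0 ≠ z 1 := fun e => absurd (z.injective e) (by decide)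
      obtain ⟨g, hg, hgd, hgx⟩ := m12_exists d hd
        (emb5 p q r u v hpq hpr hup.symm hvp.symm hqr huq.symm hvq.symm hur.symm hvr.symm huv)
        (emb5 p q r (z 0) (z 1) hpq hpr (Ne.symm hz0.2.1) (Ne.symm hz1.2.1) hqr
          (Ne.symm hz0.2.2.1) (Ne.symm hz1.2.2.1) (Ne.symm hz0.2.2.2) (Ne.symm hz1.2.2.2) hz01)
        (by
          intro i
          fin_cases i
          · exact hp
          · exact hq
          · exact hr
          · exact hu
          · exact hv)
        (by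
          intro i
          fin_cases i
          · exact hp
          · exact hq
          · exact hr
          · exact hz0.1
          · exact hz1.1)
      refine ⟨⟨g, hg⟩, ⟨⟨⟨MulAction.mem_stabilizer_iff.mpr hgd,
        MulAction.mem_stabilizer_iff.mpr (hgx 0)⟩, MulAction.mem_stabilizer_iff.mpr (hgx 1)⟩,
        MulAction.mem_stabilizer_iff.mpr (hgx 2)⟩, ?_⟩
      apply Function.Embedding.ext
      intro i
      fin_cases i
      · exact hgx 3
      · exact hgx 4
  have e2 : Nat.card ↥(MulAction.stabilizer M24 d ⊓ MulAction.stabilizer M24 p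
      ⊓ MulAction.stabilizer M24 q ⊓ MulAction.stabilizer M24 r
      ⊓ MulAction.stabilizer M24 (⟨![u, v], hinj⟩ : Fin 2 ↪ GolayPt)) = 1 := by
    rw [Subgroup.card_eq_one, eq_bot_iff]
    intro g hg
    obtain ⟨⟨⟨⟨h1, h2⟩, h3⟩, h4⟩, h5⟩ := hg
    have hbot := m12_stab_trivial d hd
      (emb5 p q r u v hpq hpr hup.symm hvp.symm hqr huq.symm hvq.symm hur.symm hvr.symm huv)
      (by
        intro i
        fin_cases i
        · exact hp
        · exact hq
        · exact hr
        · exact hu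
        · exact hv)
    rw [← hbot]
    refine ⟨h1, MulAction.mem_stabilizer_iff.mpr ?_⟩
    apply Function.Embedding.ext
    intro i
    have h5' := MulAction.mem_stabilizer_iff.mp h5
    fin_cases i
    · exact MulAction.mem_stabilizer_iff.mp h2
    · exact MulAction.mem_stabilizer_iff.mp h3
    · exact MulAction.mem_stabilizer_iff.mp h4
    · exact congrArg (fun z : Fin 2 ↪ GolayPt => z 0) h5'
    · exact congrArg (fun z : Fin 2 ↪ GolayPt => z 1) h5'
  have hc9 : (d \ {p, q, r}).card = 9 := by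
    have hsub : ({p, q, r} : Finset GolayPt) ⊆ d := by
      intro x hx
      rw [Finset.mem_insert, Finset.mem_insert, Finset.mem_singleton] at hx
      rcases hx with rfl | rfl | rfl
      · exact hp
      · exact hq
      · exact hr
    rw [Finset.card_sdiff_of_subset hsub, hd.2, Finset.card_eq_three.mpr ⟨p, q, r, hpq, hpr, hqr, rfl⟩]
  have h := card_of_orbit _ _ _ 1 e e2
  rw [ncard_embeddings_in, hc9] at h
  have h2 : Nat.descFactorial 9 2 = 72 := by decide
  rw [h2] at h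
  omega

/-! ### The elements as permutations -/

/-- The elements fixing a set and three points, as a set of permutations. -/
def m9Set (d : Finset GolayPt) (p q r : GolayPt) : Set (Equiv.Perm GolayPt) :=
  {g | g ∈ M24 ∧ g • d = d ∧ g p = p ∧ g q = q ∧ g r = r}

theorem coe_mem_m9Set {d : Finset GolayPt} {p q r : GolayPt}
    (g : ↥(MulAction.stabilizer M24 d ⊓ MulAction.stabilizer M24 p
      ⊓ MulAction.stabilizer M24 q ⊓ MulAction.stabilizer M24 r)) :
    ((g : M24) : Equiv.Perm GolayPt) ∈ m9Set d p q r := by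
  obtain ⟨⟨⟨h1, h2⟩, h3⟩, h4⟩ := g.2
  exact ⟨(g : M24).2, MulAction.mem_stabilizer_iff.mp h1, MulAction.mem_stabilizer_iff.mp h2,
    MulAction.mem_stabilizer_iff.mp h3, MulAction.mem_stabilizer_iff.mp h4⟩

theorem m9Set_ncard (d : Finset GolayPt) (hd : d ∈ dodecads) (p q r : GolayPt) (hp : p ∈ d)
    (hq : q ∈ d) (hr : r ∈ d) (hpq : p ≠ q) (hpr : p ≠ r) (hqr : q ≠ r) :
    (m9Set d p q r).ncard = 72 := by
  rw [← card_m9 d hd p q r hp hq hr hpq hpr hqr, ← Nat.card_coe_set_eq]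
  apply Nat.card_congr
  exact
    { toFun := fun x => ⟨⟨x.1, x.2.1⟩, ⟨⟨⟨MulAction.mem_stabilizer_iff.mpr x.2.2.1,
        MulAction.mem_stabilizer_iff.mpr x.2.2.2.1⟩,
        MulAction.mem_stabilizer_iff.mpr x.2.2.2.2.1⟩,
        MulAction.mem_stabilizer_iff.mpr x.2.2.2.2.2⟩⟩
      invFun := fun y => ⟨((y.1 : M24) : Equiv.Perm GolayPt), coe_mem_m9Set y⟩
      left_inv := fun x => rfl
      right_inv := fun y => rfl }

/-! ### The base configuration -/

theorem b_d_mem : support₂ (ofBits 340831) ∈ dodecads := by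
  rw [← comb_one]
  exact baseDodecad_mem

theorem b_pts : unpos 0 ∈ support₂ (ofBits 340831) ∧ unpos 1 ∈ support₂ (ofBits 340831)
    ∧ unpos 2 ∈ support₂ (ofBits 340831) := by
  rw [mem_support₂_ofBits, mem_support₂_ofBits, mem_support₂_ofBits]
  decide +kernel

theorem b_ne : unpos 0 ≠ unpos 1 ∧ unpos 0 ≠ unpos 2 ∧ unpos 1 ≠ unpos 2 := by decide +kernel

/-- The listed elements. -/
noncomputable def m9Elem (i : ℕ) : Equiv.Perm GolayPt := permT (m9Tab i)

theorem m9Elem_spec (i : ℕ) (hi : i < 72) :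
    tblOK (m9Tab i) = true
      ∧ m9Elem i ∈ m9Set (support₂ (ofBits 340831)) (unpos 0) (unpos 1) (unpos 2) := by
  have h := List.all_eq_true.mp m9_ok i (List.mem_range.mpr hi)
  simp only [Bool.and_eq_true] at h
  obtain ⟨⟨⟨⟨⟨hok, hc⟩, hd⟩, h0⟩, h1⟩, h2⟩ := h
  exact ⟨hok, permT_mem hok hc, permT_smul_of_pull' hok hd, permT_fix hok (by norm_num) h0,
    permT_fix hok (by norm_num) h1, permT_fix hok (by norm_num) h2⟩

theorem m9Elem_inj {i j : ℕ} (hi : i < 72) (hj : j < 72) (h : m9Elem i = m9Elem j) : i = j := by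
  by_contra hne
  wlog hlt : j < i generalizing i j
  · exact this hj hi h.symm (Ne.symm hne) (by omega)
  have h1 := List.all_eq_true.mp (List.all_eq_true.mp m9_distinct i (List.mem_range.mpr hi)) j
    (List.mem_range.mpr hlt)
  obtain ⟨p, hp, hpne⟩ := List.any_eq_true.mp h1
  rw [List.mem_range] at hp
  have e := congrArg (fun g : Equiv.Perm GolayPt => pos (g (unpos p))) h
  simp only [m9Elem] at e
  rw [pos_permT (m9Elem_spec i hi).1, pos_permT (m9Elem_spec j hj).1, pos_unpos p hp] at e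
  rw [e, Nat.beq_refl] at hpne
  exact absurd hpne (by decide)

theorem m9Set_base :
    m9Set (support₂ (ofBits 340831)) (unpos 0) (unpos 1) (unpos 2)
      = m9Elem '' ↑(Finset.range 72) := by
  symm
  apply Set.eq_of_subset_of_ncard_le
  · rintro _ ⟨i, hi, rfl⟩
    exact (m9Elem_spec i (Finset.mem_range.mp (Finset.mem_coe.mp hi))).2
  · rw [m9Set_ncard _ b_d_mem _ _ _ b_pts.1 b_pts.2.1 b_pts.2.2 b_ne.1 b_ne.2.1 b_ne.2.2,
      Set.InjOn.ncard_image, Set.ncard_coe_finset, Finset.card_range]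
    intro i hi j hj h
    exact m9Elem_inj (Finset.mem_range.mp (Finset.mem_coe.mp hi))
      (Finset.mem_range.mp (Finset.mem_coe.mp hj)) h
  · exact Set.toFinite _

theorem m9_base_exists (g : Equiv.Perm GolayPt)
    (hg : g ∈ m9Set (support₂ (ofBits 340831)) (unpos 0) (unpos 1) (unpos 2)) :
    ∃ i < 72, g = m9Elem i := by
  rw [m9Set_base] at hg
  obtain ⟨i, hi, rfl⟩ := hg
  exact ⟨i, Finset.mem_range.mp (Finset.mem_coe.mp hi), rfl⟩

theorem m9_base_p1 (g : Equiv.Perm GolayPt)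
    (hg : g ∈ m9Set (support₂ (ofBits 340831)) (unpos 0) (unpos 1) (unpos 2))
    (h9 : g ^ 9 = 1) : g ^ 3 = 1 := by
  obtain ⟨i, hi, rfl⟩ := m9_base_exists g hg
  have hok := (m9Elem_spec i hi).1
  have h1 := List.all_eq_true.mp m9_p1 i (List.mem_range.mpr hi)
  rw [m9Elem, permT_pow_eq_one_iff hok] at h9 ⊢
  rw [h9] at h1
  simpa using h1

theorem m9_base_p3 (g : Equiv.Perm GolayPt)
    (hg : g ∈ m9Set (support₂ (ofBits 340831)) (unpos 0) (unpos 1) (unpos 2))
    (h8 : g ^ 8 = 1) : g ^ 4 = 1 := by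
  obtain ⟨i, hi, rfl⟩ := m9_base_exists g hg
  have hok := (m9Elem_spec i hi).1
  have h1 := List.all_eq_true.mp m9_p3 i (List.mem_range.mpr hi)
  rw [m9Elem, permT_pow_eq_one_iff hok] at h8 ⊢
  rw [h8] at h1
  simpa using h1

theorem m9_base_p2 :
    {g | g ∈ m9Set (support₂ (ofBits 340831)) (unpos 0) (unpos 1) (unpos 2) ∧ g ^ 9 = 1}.ncard
      ≤ 9 := by
  have hsub : {g | g ∈ m9Set (support₂ (ofBits 340831)) (unpos 0) (unpos 1) (unpos 2)
      ∧ g ^ 9 = 1}
      ⊆ m9Elem '' ↑((List.range 72).filter (fun i => isId (m9Tab i) 9)).toFinset := by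
    rintro g ⟨hg, h9⟩
    obtain ⟨i, hi, rfl⟩ := m9_base_exists g hg
    have hok := (m9Elem_spec i hi).1
    rw [m9Elem, permT_pow_eq_one_iff hok] at h9
    refine ⟨i, ?_, rfl⟩
    rw [Finset.mem_coe, List.mem_toFinset, List.mem_filter, List.mem_range]
    exact ⟨hi, h9⟩
  have h1 := Set.ncard_le_ncard hsub (Set.toFinite _)
  have h2 := Set.ncard_image_le (f := m9Elem)
    (s := ↑((List.range 72).filter (fun i => isId (m9Tab i) 9)).toFinset) (Set.toFinite _)
  rw [Set.ncard_coe_finset] at h2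
  have h3 := List.toFinset_card_le ((List.range 72).filter (fun i => isId (m9Tab i) 9))
  have h4 := Nat.le_of_ble_eq_true m9_p2
  omega

theorem m9_base_p4 (a b : Equiv.Perm GolayPt)
    (ha : a ∈ m9Set (support₂ (ofBits 340831)) (unpos 0) (unpos 1) (unpos 2))
    (hb : b ∈ m9Set (support₂ (ofBits 340831)) (unpos 0) (unpos 1) (unpos 2))
    (ha2 : a ^ 2 = 1) (hb2 : b ^ 2 = 1) (ha1 : a ≠ 1) (hb1 : b ≠ 1) (hab : a ≠ b) :
    (a * b) ^ 8 ≠ 1 := by
  obtain ⟨i, hi, rfl⟩ := m9_base_exists a ha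
  obtain ⟨j, hj, rfl⟩ := m9_base_exists b hb
  have hoki := (m9Elem_spec i hi).1
  have hokj := (m9Elem_spec j hj).1
  have small : ∀ k, k < 72 → m9Elem k ^ 2 = 1 → m9Elem k ≠ 1 → k < 9 := by
    intro k hk h2 h1
    by_contra hk9
    have hokk := (m9Elem_spec k hk).1
    have hc := List.all_eq_true.mp m9_p4a (k - 9) (List.mem_range.mpr (by omega))
    rw [show k - 9 + 9 = k by omega] at hc
    rw [m9Elem, permT_pow_eq_one_iff hokk] at h2
    rw [h2] at hc
    have hc' : isId (m9Tab k) 1 = true := by simpa using hc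
    rw [← permT_pow_eq_one_iff hokk, pow_one] at hc'
    exact h1 hc'
  have hi9 := small i hi ha2 ha1
  have hj9 := small j hj hb2 hb1
  have hc := List.all_eq_true.mp (List.all_eq_true.mp m9_p4b i (List.mem_range.mpr hi9)) j
    (List.mem_range.mpr hj9)
  intro h8
  rw [m9Elem, m9Elem, permT_mul_pow_eq_one_iff hoki hokj] at h8
  rw [h8] at hc
  have hij : i = j := by
    have hc' : Nat.beq i j = true := by simpa using hc
    exact Nat.eq_of_beq_eq_true hc'
  exact hab (by rw [hij])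

/-! ### Transport -/

theorem m9_transport (d : Finset GolayPt) (hd : d ∈ dodecads) (p q r : GolayPt) (hp : p ∈ d)
    (hq : q ∈ d) (hr : r ∈ d) (hpq : p ≠ q) (hpr : p ≠ r) (hqr : q ≠ r) :
    ∃ t : Equiv.Perm GolayPt, ∀ g, g ∈ m9Set d p q r ↔
      t⁻¹ * g * t ∈ m9Set (support₂ (ofBits 340831)) (unpos 0) (unpos 1) (unpos 2) := by
  obtain ⟨t1, ht1⟩ := dodecads_transitive _ d b_d_mem hd
  have ht1' : (t1 : Equiv.Perm GolayPt) • support₂ (ofBits 340831) = d := ht1
  have hin : ∀ x, x ∈ support₂ (ofBits 340831) → (t1 : Equiv.Perm GolayPt) x ∈ d := by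
    intro x hx
    have h1 := Finset.smul_mem_smul_finset (a := (t1 : Equiv.Perm GolayPt)) hx
    rw [ht1'] at h1
    exact h1
  have hne : ∀ x y : GolayPt, x ≠ y → (t1 : Equiv.Perm GolayPt) x ≠ (t1 : Equiv.Perm GolayPt) y :=
    fun x y hxy e => hxy ((t1 : Equiv.Perm GolayPt).injective e)
  obtain ⟨h, hh, hs, h0, h1, h2⟩ := m12_three_trans d hd _ _ _ p q r (hin _ b_pts.1)
    (hin _ b_pts.2.1) (hin _ b_pts.2.2) (hne _ _ b_ne.1) (hne _ _ b_ne.2.1) (hne _ _ b_ne.2.2)
    hp hq hr hpq hpr hqr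
  have htm : h * (t1 : Equiv.Perm GolayPt) ∈ M24 := mul_mem hh t1.2
  have htd : (h * (t1 : Equiv.Perm GolayPt)) • support₂ (ofBits 340831) = d := by
    rw [mul_smul, ht1', hs]
  have ht0 : (h * (t1 : Equiv.Perm GolayPt)) (unpos 0) = p := h0
  have ht1p : (h * (t1 : Equiv.Perm GolayPt)) (unpos 1) = q := h1
  have ht2 : (h * (t1 : Equiv.Perm GolayPt)) (unpos 2) = r := h2
  generalize h * (t1 : Equiv.Perm GolayPt) = t at htm htd ht0 ht1p ht2
  refine ⟨t, fun g => ⟨?_, ?_⟩⟩
  · rintro ⟨hg, hgd, hgp, hgq, hgr⟩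
    refine ⟨mul_mem (mul_mem (inv_mem htm) hg) htm, ?_, ?_, ?_, ?_⟩
    · rw [mul_smul, mul_smul, htd, hgd, ← htd, inv_smul_smul]
    · rw [Equiv.Perm.mul_apply, Equiv.Perm.mul_apply, ht0, hgp, ← ht0]
      exact t.symm_apply_apply _
    · rw [Equiv.Perm.mul_apply, Equiv.Perm.mul_apply, ht1p, hgq, ← ht1p]
      exact t.symm_apply_apply _
    · rw [Equiv.Perm.mul_apply, Equiv.Perm.mul_apply, ht2, hgr, ← ht2]
      exact t.symm_apply_apply _
  · rintro ⟨hg, hgd, hgp, hgq, hgr⟩
    have hgm : g ∈ M24 := by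
      have h1 := mul_mem (mul_mem htm hg) (inv_mem htm)
      have e : t * (t⁻¹ * g * t) * t⁻¹ = g := by group
      rwa [e] at h1
    have key : ∀ x : GolayPt, (t⁻¹ * g * t) x = x → g (t x) = t x := by
      intro x hx
      rw [Equiv.Perm.mul_apply, Equiv.Perm.mul_apply] at hx
      have h1 : t (t⁻¹ (g (t x))) = t x := congrArg t hx
      exact (t.apply_symm_apply (g (t x))).symm.trans h1
    refine ⟨hgm, ?_, ?_, ?_, ?_⟩
    · rw [mul_smul, mul_smul, htd, inv_smul_eq_iff, htd] at hgd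
      exact hgd
    · rw [← ht0]
      exact key _ hgp
    · rw [← ht1p]
      exact key _ hgq
    · rw [← ht2]
      exact key _ hgr

theorem m9_final (d : Finset GolayPt) (hd : d ∈ dodecads) (p q r : GolayPt) (hp : p ∈ d)
    (hq : q ∈ d) (hr : r ∈ d) (hpq : p ≠ q) (hpr : p ≠ r) (hqr : q ≠ r)
    [Fact (Nat.Prime 3)] [Fact (Nat.Prime 2)] :
    (∀ Q : Sylow 3 ↥(MulAction.stabilizer M24 d ⊓ MulAction.stabilizer M24 p
        ⊓ MulAction.stabilizer M24 q ⊓ MulAction.stabilizer M24 r),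
        (Q : Subgroup ↥(MulAction.stabilizer M24 d ⊓ MulAction.stabilizer M24 p
          ⊓ MulAction.stabilizer M24 q ⊓ MulAction.stabilizer M24 r)).Normal ∧ Nat.card ↥Q = 9
        ∧ ∀ x ∈ (Q : Subgroup ↥(MulAction.stabilizer M24 d ⊓ MulAction.stabilizer M24 p
          ⊓ MulAction.stabilizer M24 q ⊓ MulAction.stabilizer M24 r)), x ^ 3 = 1)
      ∧ ∀ P : Sylow 2 ↥(MulAction.stabilizer M24 d ⊓ MulAction.stabilizer M24 p
        ⊓ MulAction.stabilizer M24 q ⊓ MulAction.stabilizer M24 r),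
        Nonempty (↥P ≃* QuaternionGroup 2) := by
  obtain ⟨t, ht⟩ := m9_transport d hd p q r hp hq hr hpq hpr hqr
  have hcoe : ∀ (g : ↥(MulAction.stabilizer M24 d ⊓ MulAction.stabilizer M24 p
      ⊓ MulAction.stabilizer M24 q ⊓ MulAction.stabilizer M24 r)) (n : ℕ),
      g ^ n = 1 ↔ ((g : M24) : Equiv.Perm GolayPt) ^ n = 1 := by
    intro g n
    constructor
    · intro h
      exact congrArg (fun x : ↥(MulAction.stabilizer M24 d ⊓ MulAction.stabilizer M24 p
        ⊓ MulAction.stabilizer M24 q ⊓ MulAction.stabilizer M24 r) =>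
        ((x : M24) : Equiv.Perm GolayPt)) h
    · intro h
      exact Subtype.ext (Subtype.ext h)
  apply m9_structure (card_m9 d hd p q r hp hq hr hpq hpr hqr)
  · intro g h9
    rw [hcoe] at h9 ⊢
    have h1 := m9_base_p1 _ ((ht _).mp (coe_mem_m9Set g)) ((conj_pow_eq_one t _ 9).mpr h9)
    exact (conj_pow_eq_one t _ 3).mp h1
  · have hinj : Function.Injective (fun g : ↥(MulAction.stabilizer M24 d
        ⊓ MulAction.stabilizer M24 p ⊓ MulAction.stabilizer M24 q ⊓ MulAction.stabilizer M24 r) =>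
        t⁻¹ * ((g : M24) : Equiv.Perm GolayPt) * t) := by
      intro a b hab
      have h1 : ((a : M24) : Equiv.Perm GolayPt) = ((b : M24) : Equiv.Perm GolayPt) := by
        simpa using hab
      exact Subtype.ext (Subtype.ext h1)
    rw [← Set.ncard_image_of_injective _ hinj]
    refine le_trans (Set.ncard_le_ncard ?_ (Set.toFinite _)) m9_base_p2
    rintro _ ⟨g, hg, rfl⟩
    have hg' : g ^ 9 = 1 := hg
    rw [hcoe] at hg'
    exact ⟨(ht _).mp (coe_mem_m9Set g), (conj_pow_eq_one t _ 9).mpr hg'⟩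
  · intro g h8
    rw [hcoe] at h8 ⊢
    have h1 := m9_base_p3 _ ((ht _).mp (coe_mem_m9Set g)) ((conj_pow_eq_one t _ 8).mpr h8)
    exact (conj_pow_eq_one t _ 4).mp h1
  · intro a b ha2 hb2 ha1 hb1 hab h8
    rw [hcoe] at ha2 hb2
    have h8' : (((a : M24) : Equiv.Perm GolayPt) * ((b : M24) : Equiv.Perm GolayPt)) ^ 8 = 1 :=
      (hcoe (a * b) 8).mp h8
    refine m9_base_p4 _ _ ((ht _).mp (coe_mem_m9Set a)) ((ht _).mp (coe_mem_m9Set b))
      ((conj_pow_eq_one t _ 2).mpr ha2) ((conj_pow_eq_one t _ 2).mpr hb2) ?_ ?_ ?_ ?_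
    · intro e
      apply ha1
      have e2 : ((a : M24) : Equiv.Perm GolayPt) = 1 := by
        have e3 : ((a : M24) : Equiv.Perm GolayPt)
            = t * (t⁻¹ * ((a : M24) : Equiv.Perm GolayPt) * t) * t⁻¹ := by group
        rw [e3, e]
        group
      exact Subtype.ext (Subtype.ext e2)
    · intro e
      apply hb1
      have e2 : ((b : M24) : Equiv.Perm GolayPt) = 1 := by
        have e3 : ((b : M24) : Equiv.Perm GolayPt)
            = t * (t⁻¹ * ((b : M24) : Equiv.Perm GolayPt) * t) * t⁻¹ := by group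
        rw [e3, e]
        group
      exact Subtype.ext (Subtype.ext e2)
    · intro e
      apply hab
      have e2 : ((a : M24) : Equiv.Perm GolayPt) = ((b : M24) : Equiv.Perm GolayPt) := by
        simpa using e
      exact Subtype.ext (Subtype.ext e2)
    · have e3 : t⁻¹ * ((a : M24) : Equiv.Perm GolayPt) * t
          * (t⁻¹ * ((b : M24) : Equiv.Perm GolayPt) * t)
          = t⁻¹ * (((a : M24) : Equiv.Perm GolayPt) * ((b : M24) : Equiv.Perm GolayPt)) * t := by
        group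
      rw [e3]
      exact (conj_pow_eq_one t _ 8).mpr h8'

end Cfsg.Agent.Helper1.Golay
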