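import Mathlib
import Cfsg.Agent.Helper1.Sx1598Tab
import Cfsg.Agent.Helper1.Quart
import Cfsg.Agent.Helper1.Sx5619
import Cfsg.Agent.Helper1.Golay9

set_option autoImplicit false

namespace Cfsg.Agent.Helper1.Golay

open Cfsg
open scoped Pointwise
open Matrix

theorem card_quartet_stab (d : Finset GolayPt) (hd : d ∈ dodecads) (Q : Finset (Finset GolayPt))
    (hQ : Q ∈ quartets d) :
    Nat.card ↥(MulAction.stabilizer M24 d ⊓ MulAction.stabilizer M24 Q) = 432 := by
  have hs : ∀ X : Finset (Finset GolayPt),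
      (∃ h ∈ MulAction.stabilizer M24 d, h • Q = X) ↔ X ∈ quartets d := by
    intro X
    constructor
    · rintro ⟨g, hg, rfl⟩
      have h1 := quartets_smul g.2 hQ
      have h2 : (g : Equiv.Perm GolayPt) • d = d := MulAction.mem_stabilizer_iff.mp hg
      rw [h2] at h1
      exact h1
    · intro hX
      obtain ⟨g, hg, hgd, hgQ⟩ := quartets_trans d hd Q X hQ hX
      exact ⟨⟨g, hg⟩, MulAction.mem_stabilizer_iff.mpr hgd, hgQ⟩
  have h := card_of_orbit (MulAction.stabilizer M24 d) Q (quartets d) _ hs rfl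
  rw [card_stabilizer_dodecad d hd, quartets_ncard d hd] at h
  omega

/-- The base stabiliser. -/
noncomputable def H98 : Subgroup ↥M24 :=
  MulAction.stabilizer M24 (support₂ (ofBits 340831)) ⊓ MulAction.stabilizer M24 (famOf (qTb 0))

theorem mem_H98 (g : ↥M24) : g ∈ H98 ↔
    (g : Equiv.Perm GolayPt) • support₂ (ofBits 340831) = support₂ (ofBits 340831)
      ∧ (g : Equiv.Perm GolayPt) • famOf (qTb 0) = famOf (qTb 0) := by
  rw [H98, Subgroup.mem_inf, MulAction.mem_stabilizer_iff, MulAction.mem_stabilizer_iff]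
  rfl

theorem card_H98 : Nat.card ↥H98 = 432 :=
  card_quartet_stab _ q_d_mem _ (q_sound 0 (by norm_num))

/-- The listed elements. -/
noncomputable def E98 (i : ℕ) : ↥M24 := by
  classical
  exact if h : permT (qHTab i) ∈ M24 then ⟨permT (qHTab i), h⟩ else 1

theorem E98_spec (i : ℕ) (hi : i < 432) :
    tblOK (qHTab i) = true ∧ ((E98 i : ↥M24) : Equiv.Perm GolayPt) = permT (qHTab i)
      ∧ E98 i ∈ H98 := by
  have h := List.all_eq_true.mp q_h i (List.mem_range.mpr hi)
  simp only [Bool.and_eq_true] at h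
  obtain ⟨⟨⟨hok, hc⟩, hd⟩, hf⟩ := h
  have hcoe : ((E98 i : ↥M24) : Equiv.Perm GolayPt) = permT (qHTab i) := by
    rw [E98, dif_pos (permT_mem hok hc)]
  refine ⟨hok, hcoe, ?_⟩
  rw [mem_H98, hcoe]
  refine ⟨permT_smul_of_pull' hok hd, ?_⟩
  have e1 := famOf_pullFam (permT (qHTab i)) (qHTab i) (pos_permT hok) (qTb 0)
  rw [famOf_eq_of_famEq hf] at e1
  exact (inv_smul_eq_iff.mp e1.symm).symm

theorem E98_inj {i j : ℕ} (hi : i < 432) (hj : j < 432) (h : E98 i = E98 j) : i = j := by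
  by_contra hne
  wlog hlt : j < i generalizing i j
  · exact this hj hi h.symm (Ne.symm hne) (by omega)
  have h1 := List.all_eq_true.mp (List.all_eq_true.mp q_hd i (List.mem_range.mpr hi)) j
    (List.mem_range.mpr hlt)
  obtain ⟨p, hp, hpne⟩ := List.any_eq_true.mp h1
  rw [List.mem_range] at hp
  have e : pos (((E98 i : ↥M24) : Equiv.Perm GolayPt) (unpos p))
      = pos (((E98 j : ↥M24) : Equiv.Perm GolayPt) (unpos p)) := by rw [h]
  rw [(E98_spec i hi).2.1, (E98_spec j hj).2.1, pos_permT (E98_spec i hi).1,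
    pos_permT (E98_spec j hj).1, pos_unpos p hp] at e
  rw [e, Nat.beq_refl] at hpne
  exact absurd hpne (by decide)

theorem H98_eq : (H98 : Set ↥M24) = E98 '' ↑(Finset.range 432) := by
  symm
  apply Set.eq_of_subset_of_ncard_le
  · rintro _ ⟨i, hi, rfl⟩
    exact (E98_spec i (Finset.mem_range.mp (Finset.mem_coe.mp hi))).2.2
  · rw [Set.InjOn.ncard_image, Set.ncard_coe_finset, Finset.card_range]
    · have h3 := Nat.card_coe_set_eq (H98 : Set ↥M24)
      rw [← h3]
      exact le_of_eq card_H98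
    · intro i hi j hj h
      exact E98_inj (Finset.mem_range.mp (Finset.mem_coe.mp hi))
        (Finset.mem_range.mp (Finset.mem_coe.mp hj)) h
  · exact Set.toFinite _

theorem H98_exists (g : ↥H98) :
    ∃ i, i < 432 ∧ ((g : ↥M24) : Equiv.Perm GolayPt) = permT (qHTab i) := by
  have hg : (g : ↥M24) ∈ (H98 : Set ↥M24) := g.2
  rw [H98_eq] at hg
  obtain ⟨i, hi, e⟩ := hg
  refine ⟨i, Finset.mem_range.mp (Finset.mem_coe.mp hi), ?_⟩
  rw [← e]
  exact (E98_spec i (Finset.mem_range.mp (Finset.mem_coe.mp hi))).2.1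

/-- The index of an element. -/
noncomputable def idx98 (g : ↥H98) : ℕ := Classical.choose (H98_exists g)

theorem idx98_lt (g : ↥H98) : idx98 g < 432 := (Classical.choose_spec (H98_exists g)).1

theorem idx98_spec (g : ↥H98) :
    ((g : ↥M24) : Equiv.Perm GolayPt) = permT (qHTab (idx98 g)) :=
  (Classical.choose_spec (H98_exists g)).2

/-! ### The normal subgroup of order nine -/

theorem qa_ok : tblOK qaT = true := (E98_spec 17 (by norm_num)).1

theorem qb_ok : tblOK qbT = true := (E98_spec 75 (by norm_num)).1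

theorem qa_pow : permT qaT ^ 3 = 1 := by
  have h := qab_ok
  simp only [Bool.and_eq_true] at h
  exact (permT_pow_eq_one_iff qa_ok 3).mpr h.1.1

theorem qb_pow : permT qbT ^ 3 = 1 := by
  have h := qab_ok
  simp only [Bool.and_eq_true] at h
  exact (permT_pow_eq_one_iff qb_ok 3).mpr h.1.2

theorem qab_comm : permT qaT * permT qbT = permT qbT * permT qaT := by
  have h := qab_ok
  simp only [Bool.and_eq_true] at h
  apply perm_ext_pos
  intro p
  rw [pos_permT_mul qa_ok qb_ok, pos_permT_mul qb_ok qa_ok]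
  exact Nat.eq_of_beq_eq_true (List.all_eq_true.mp h.2 (pos p) (List.mem_range.mpr (pos_lt p)))

/-- The elements of the normal subgroup, by coordinates. -/
noncomputable def eP98 (v : Fin 2 → ZMod 3) : Equiv.Perm GolayPt :=
  permT qaT ^ (v 0).val * permT qbT ^ (v 1).val

theorem pow_val_add {g : Equiv.Perm GolayPt} (hg : g ^ 3 = 1) (x y : ZMod 3) :
    g ^ (x + y).val = g ^ x.val * g ^ y.val := by
  rw [← pow_add, ZMod.val_add]
  exact (pow_eq_pow_mod _ hg).symm

theorem eP_add (v w : Fin 2 → ZMod 3) : eP98 (v + w) = eP98 v * eP98 w := by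
  unfold eP98
  rw [Pi.add_apply, Pi.add_apply, pow_val_add qa_pow, pow_val_add qb_pow]
  have hc : Commute (permT qaT) (permT qbT) := qab_comm
  have hc' : Commute (permT qaT ^ (w 0).val) (permT qbT ^ (v 1).val) := hc.pow_pow _ _
  rw [mul_assoc, ← mul_assoc (permT qaT ^ (w 0).val), hc'.eq, mul_assoc (permT qbT ^ (v 1).val),
    ← mul_assoc]

theorem eP_zero : eP98 0 = 1 := by
  simp [eP98]

theorem eP_nsmul (n : ℕ) (c : Fin 2 → ZMod 3) : eP98 (n • c) = eP98 c ^ n := by
  induction n with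
  | zero => rw [zero_smul, pow_zero, eP_zero]
  | succ k ih => rw [succ_nsmul, eP_add, ih, pow_succ]

theorem pos_eP (x y : ℕ) (p : GolayPt) :
    pos ((permT qaT ^ x * permT qbT ^ y) p) = qE x y (pos p) := by
  rw [Equiv.Perm.mul_apply, pos_permT_pow qa_ok, pos_permT_pow qb_ok]
  rfl

theorem eP_eq_one {v : Fin 2 → ZMod 3} (h : eP98 v = 1) : v = 0 := by
  have hx : (v 0).val < 3 := ZMod.val_lt _
  have hy : (v 1).val < 3 := ZMod.val_lt _
  have h1 := List.all_eq_true.mp (List.all_eq_true.mp qE_inj (v 0).val (List.mem_range.mpr hx))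
    (v 1).val (List.mem_range.mpr hy)
  simp only [Bool.or_eq_true, Bool.and_eq_true] at h1
  rcases h1 with ⟨h0, h0'⟩ | h1
  · have e0 : (v 0).val = 0 := Nat.eq_of_beq_eq_true h0
    have e1 : (v 1).val = 0 := Nat.eq_of_beq_eq_true h0'
    ext k
    fin_cases k
    · exact (ZMod.val_eq_zero _).mp e0
    · exact (ZMod.val_eq_zero _).mp e1
  · exfalso
    obtain ⟨j, hj, hne⟩ := List.any_eq_true.mp h1
    rw [List.mem_range] at hj
    have e : pos (eP98 v (unpos j)) = pos (unpos j) := by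
      rw [h]
      rfl
    rw [eP98, pos_eP, pos_unpos j hj] at e
    rw [e, Nat.beq_refl] at hne
    exact absurd hne (by decide)

theorem eP_inj {v w : Fin 2 → ZMod 3} (h : eP98 v = eP98 w) : v = w := by
  have h1 : eP98 (v - w) * eP98 w = eP98 v := by rw [← eP_add, sub_add_cancel]
  rw [h] at h1
  have h2 : eP98 (v - w) = 1 := mul_right_cancel (h1.trans (one_mul _).symm)
  exact sub_eq_zero.mp (eP_eq_one h2)

/-- The matrix of the `i`-th element. -/
def Mat98 (i : ℕ) : Matrix (Fin 2) (Fin 2) (ZMod 3) :=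
  !![(qM i 0 : ZMod 3), (qM i 2 : ZMod 3); (qM i 1 : ZMod 3), (qM i 3 : ZMod 3)]

theorem qM_spec (i : ℕ) (hi : i < 432) :
    qM i 0 < 3 ∧ qM i 1 < 3 ∧ qM i 2 < 3 ∧ qM i 3 < 3
    ∧ permT (qHTab i) * permT qaT
        = permT qaT ^ (qM i 0) * permT qbT ^ (qM i 1) * permT (qHTab i)
    ∧ permT (qHTab i) * permT qbT
        = permT qaT ^ (qM i 2) * permT qbT ^ (qM i 3) * permT (qHTab i) := by
  have h := List.all_eq_true.mp qM_ok i (List.mem_range.mpr hi)
  simp only [Bool.and_eq_true] at h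
  obtain ⟨⟨⟨⟨h0, h1⟩, h2⟩, h3⟩, h4⟩ := h
  have hok := (E98_spec i hi).1
  refine ⟨Nat.blt_eq.mp h0, Nat.blt_eq.mp h1, Nat.blt_eq.mp h2, Nat.blt_eq.mp h3, ?_, ?_⟩
  · apply perm_ext_pos
    intro p
    have h5 := List.all_eq_true.mp h4 (pos p) (List.mem_range.mpr (pos_lt p))
    simp only [Bool.and_eq_true] at h5
    rw [pos_permT_mul hok qa_ok, Equiv.Perm.mul_apply, pos_eP, pos_permT hok]
    exact Nat.eq_of_beq_eq_true h5.1
  · apply perm_ext_pos
    intro p
    have h5 := List.all_eq_true.mp h4 (pos p) (List.mem_range.mpr (pos_lt p))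
    simp only [Bool.and_eq_true] at h5
    rw [pos_permT_mul hok qb_ok, Equiv.Perm.mul_apply, pos_eP, pos_permT hok]
    exact Nat.eq_of_beq_eq_true h5.2

theorem conj_eP (i : ℕ) (hi : i < 432) (v : Fin 2 → ZMod 3) :
    permT (qHTab i) * eP98 v * (permT (qHTab i))⁻¹ = eP98 (Mat98 i *ᵥ v) := by
  obtain ⟨l0, l1, l2, l3, hA, hB⟩ := qM_spec i hi
  have cA : permT (qHTab i) * permT qaT * (permT (qHTab i))⁻¹
      = eP98 ![(qM i 0 : ZMod 3), (qM i 1 : ZMod 3)] := by
    rw [hA, mul_inv_cancel_right, eP98]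
    simp [ZMod.val_natCast_of_lt l0, ZMod.val_natCast_of_lt l1]
  have cB : permT (qHTab i) * permT qbT * (permT (qHTab i))⁻¹
      = eP98 ![(qM i 2 : ZMod 3), (qM i 3 : ZMod 3)] := by
    rw [hB, mul_inv_cancel_right, eP98]
    simp [ZMod.val_natCast_of_lt l2, ZMod.val_natCast_of_lt l3]
  have e1 : permT (qHTab i) * eP98 v * (permT (qHTab i))⁻¹
      = (permT (qHTab i) * permT qaT * (permT (qHTab i))⁻¹) ^ (v 0).val
        * (permT (qHTab i) * permT qbT * (permT (qHTab i))⁻¹) ^ (v 1).val := by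
    rw [conj_pow, conj_pow, eP98]
    group
  rw [e1, cA, cB, ← eP_nsmul, ← eP_nsmul, ← eP_add]
  congr 1
  ext k
  fin_cases k
  · simp [Mat98, Matrix.mulVec, dotProduct, Fin.sum_univ_two]
    ring
  · simp [Mat98, Matrix.mulVec, dotProduct, Fin.sum_univ_two]
    ring

theorem mat_ext98 {A B : Matrix (Fin 2) (Fin 2) (ZMod 3)}
    (h : ∀ v : Fin 2 → ZMod 3, A *ᵥ v = B *ᵥ v) : A = B := by
  ext i j
  have h1 := congrFun (h (Pi.single j 1)) i
  rw [Matrix.mulVec_single_one, Matrix.mulVec_single_one] at h1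
  exact h1

theorem conj98 (g : ↥H98) (v : Fin 2 → ZMod 3) :
    ((g : ↥M24) : Equiv.Perm GolayPt) * eP98 v * ((g : ↥M24) : Equiv.Perm GolayPt)⁻¹
      = eP98 (Mat98 (idx98 g) *ᵥ v) := by
  have h := conj_eP _ (idx98_lt g) v
  rw [← idx98_spec g] at h
  exact h

/-- The action on the normal subgroup, as matrices. -/
noncomputable def phi98 : ↥H98 →* Matrix (Fin 2) (Fin 2) (ZMod 3) where
  toFun g := Mat98 (idx98 g)
  map_one' := by
    apply mat_ext98
    intro v
    apply eP_inj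
    rw [← conj98 1 v, Matrix.one_mulVec]
    simp
  map_mul' g g' := by
    apply mat_ext98
    intro v
    apply eP_inj
    rw [← conj98 (g * g') v, ← Matrix.mulVec_mulVec, ← conj98 g, ← conj98 g']
    simp only [Subgroup.coe_mul]
    group

/-- The action on the normal subgroup, as invertible matrices. -/
noncomputable def phi98' : ↥H98 →* Matrix.GeneralLinearGroup (Fin 2) (ZMod 3) :=
  phi98.toHomUnits

theorem cast3_inj {a b : ℕ} (ha : a < 3) (hb : b < 3) (h : (a : ZMod 3) = (b : ZMod 3)) :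
    a = b := by
  have h1 := congrArg ZMod.val h
  rwa [ZMod.val_natCast_of_lt ha, ZMod.val_natCast_of_lt hb] at h1

theorem Mat98_eq_one (i : ℕ) (hi : i < 432) :
    Mat98 i = 1 ↔ (qM i 0 = 1 ∧ qM i 1 = 0 ∧ qM i 2 = 0 ∧ qM i 3 = 1) := by
  obtain ⟨l0, l1, l2, l3, -, -⟩ := qM_spec i hi
  constructor
  · intro h
    have e00 : (qM i 0 : ZMod 3) = 1 := congrFun (congrFun h 0) 0
    have e10 : (qM i 1 : ZMod 3) = 0 := congrFun (congrFun h 1) 0
    have e01 : (qM i 2 : ZMod 3) = 0 := congrFun (congrFun h 0) 1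
    have e11 : (qM i 3 : ZMod 3) = 1 := congrFun (congrFun h 1) 1
    refine ⟨cast3_inj l0 (by norm_num) (by rw [e00, Nat.cast_one]),
      cast3_inj l1 (by norm_num) (by rw [e10, Nat.cast_zero]),
      cast3_inj l2 (by norm_num) (by rw [e01, Nat.cast_zero]),
      cast3_inj l3 (by norm_num) (by rw [e11, Nat.cast_one])⟩
  · rintro ⟨h0, h1, h2, h3⟩
    rw [Mat98, h0, h1, h2, h3]
    ext a b
    fin_cases a <;> fin_cases b <;> simp

theorem phi98'_ker (g : ↥H98) : g ∈ phi98'.ker ↔ Mat98 (idx98 g) = 1 := by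
  rw [MonoidHom.mem_ker]
  constructor
  · intro h
    exact congrArg (fun u : Matrix.GeneralLinearGroup (Fin 2) (ZMod 3) =>
      (u : Matrix (Fin 2) (Fin 2) (ZMod 3))) h
  · intro h
    apply Units.ext
    exact h

/-- The listed elements, in the base stabiliser. -/
noncomputable def E98' (i : ℕ) : ↥H98 := by
  classical
  exact if h : E98 i ∈ H98 then ⟨E98 i, h⟩ else 1

theorem E98'_coe (i : ℕ) (hi : i < 432) : ((E98' i : ↥H98) : ↥M24) = E98 i := by
  rw [E98', dif_pos (E98_spec i hi).2.2]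

theorem idx98_E98' (i : ℕ) (hi : i < 432) : idx98 (E98' i) = i := by
  have h1 := idx98_spec (E98' i)
  rw [E98'_coe i hi, (E98_spec i hi).2.1] at h1
  have h2 : E98 (idx98 (E98' i)) = E98 i := by
    apply Subtype.ext
    rw [(E98_spec _ (idx98_lt _)).2.1, (E98_spec i hi).2.1]
    exact h1.symm
  exact E98_inj (idx98_lt _) hi h2

theorem E98'_idx98 (g : ↥H98) : E98' (idx98 g) = g := by
  apply Subtype.ext
  apply Subtype.ext
  rw [E98'_coe _ (idx98_lt g), (E98_spec _ (idx98_lt g)).2.1]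
  exact (idx98_spec g).symm

theorem card_ker98 : Nat.card ↥phi98'.ker = 9 := by
  have e : (phi98'.ker : Set ↥H98) = E98' '' ↑((List.range 432).filter
      (fun i => Nat.beq (qM i 0) 1 && Nat.beq (qM i 1) 0 && Nat.beq (qM i 2) 0
        && Nat.beq (qM i 3) 1)).toFinset := by
    ext g
    rw [SetLike.mem_coe, phi98'_ker, Mat98_eq_one _ (idx98_lt g)]
    constructor
    · rintro ⟨h0, h1, h2, h3⟩
      refine ⟨idx98 g, ?_, E98'_idx98 g⟩
      rw [Finset.mem_coe, List.mem_toFinset, List.mem_filter, List.mem_range]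
      refine ⟨idx98_lt g, ?_⟩
      rw [h0, h1, h2, h3]
      rfl
    · rintro ⟨i, hi, rfl⟩
      rw [Finset.mem_coe, List.mem_toFinset, List.mem_filter, List.mem_range] at hi
      obtain ⟨hi1, hi2⟩ := hi
      simp only [Bool.and_eq_true] at hi2
      rw [idx98_E98' i hi1]
      exact ⟨Nat.eq_of_beq_eq_true hi2.1.1.1, Nat.eq_of_beq_eq_true hi2.1.1.2,
        Nat.eq_of_beq_eq_true hi2.1.2, Nat.eq_of_beq_eq_true hi2.2⟩
  rw [show Nat.card ↥phi98'.ker = (phi98'.ker : Set ↥H98).ncard from Nat.card_coe_set_eq _, e,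
    Set.InjOn.ncard_image, Set.ncard_coe_finset,
    List.toFinset_card_of_nodup (List.Nodup.filter _ List.nodup_range)]
  · exact Nat.eq_of_beq_eq_true qM_ker
  · intro i hi j hj h
    rw [Finset.mem_coe, List.mem_toFinset, List.mem_filter, List.mem_range] at hi hj
    have h1 := congrArg idx98 h
    rwa [idx98_E98' i hi.1, idx98_E98' j hj.1] at h1

theorem quot98 :
    Nonempty (↥H98 ⧸ phi98'.ker ≃* Matrix.GeneralLinearGroup (Fin 2) (ZMod 3)) := by
  have hinj := QuotientGroup.kerLift_injective phi98'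
  have h1 := Subgroup.card_eq_card_quotient_mul_card_subgroup phi98'.ker
  rw [card_H98, card_ker98] at h1
  have hGL : Nat.card (Matrix.GeneralLinearGroup (Fin 2) (ZMod 3)) = 48 := by
    rw [Matrix.card_GL_field]
    simp [Fin.prod_univ_two, ZMod.card]
  have hbij : Function.Bijective (QuotientGroup.kerLift phi98') :=
    hinj.bijective_of_nat_card_le (by rw [hGL]; omega)
  exact ⟨MulEquiv.ofBijective (QuotientGroup.kerLift phi98') hbij⟩

theorem base98 : ∃ (N : Subgroup ↥H98) (_ : N.Normal), Nat.card N = 9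
    ∧ Nonempty (↥H98 ⧸ N ≃* Matrix.GeneralLinearGroup (Fin 2) (ZMod 3)) :=
  ⟨phi98'.ker, MonoidHom.normal_ker phi98', card_ker98, quot98⟩

/-! ### Transitivity -/

theorem trans98 (p q : GolayPt) (hp : p ∈ support₂ (ofBits 340831))
    (hq : q ∈ support₂ (ofBits 340831)) :
    ∃ g ∈ H98, ((g : ↥M24) : Equiv.Perm GolayPt) p = q := by
  have key : ∀ r ∈ support₂ (ofBits 340831),
      ∃ g ∈ H98, ((g : ↥M24) : Equiv.Perm GolayPt) (unpos 0) = r := by
    intro r hr
    have hr' := pos_mem_qPos hr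
    obtain ⟨k, hk, e⟩ := List.getElem_of_mem hr'
    have hk12 : k < 12 := hk
    have h := List.all_eq_true.mp qTri_ok k (List.mem_range.mpr hk12)
    simp only [Bool.and_eq_true] at h
    obtain ⟨h1, h2⟩ := h
    have hi := Nat.blt_eq.mp h1
    obtain ⟨hok, hcoe, hmem⟩ := E98_spec (qTri k) hi
    refine ⟨E98 (qTri k), hmem, ?_⟩
    apply pos_injective
    rw [hcoe, pos_permT hok, pos_unpos 0 (by norm_num), Nat.eq_of_beq_eq_true h2,
      List.getD_eq_getElem _ _ hk, e]
  obtain ⟨g1, hg1, e1⟩ := key p hp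
  obtain ⟨g2, hg2, e2⟩ := key q hq
  refine ⟨g2 * g1⁻¹, mul_mem hg2 (inv_mem hg1), ?_⟩
  rw [Subgroup.coe_mul, Subgroup.coe_inv, Equiv.Perm.mul_apply, ← e1]
  have e3 : ((g1 : ↥M24) : Equiv.Perm GolayPt)⁻¹ (((g1 : ↥M24) : Equiv.Perm GolayPt) (unpos 0))
      = unpos 0 := by simp
  rw [e3, e2]

/-! ### The general statement -/

/-- The statement for a subgroup and a point set. -/
def Stmt1598 (K : Subgroup ↥M24) (d : Finset GolayPt) : Prop :=
  Nat.card ↥K = 432
    ∧ (∃ (N : Subgroup ↥K) (_ : N.Normal), Nat.card N = 9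
      ∧ Nonempty (↥K ⧸ N ≃* Matrix.GeneralLinearGroup (Fin 2) (ZMod 3)))
    ∧ ∀ p ∈ d, ∀ q ∈ d, ∃ g ∈ K, ((g : ↥M24) : Equiv.Perm GolayPt) p = q

theorem transport98 (s : ↥M24) :
    Stmt1598 (H98.map (MulAut.conj s).toMonoidHom)
      ((s : Equiv.Perm GolayPt) • support₂ (ofBits 340831)) := by
  refine ⟨?_, ?_, ?_⟩
  · rw [Subgroup.card_map_of_injective (MulAut.conj s).injective]
    exact card_H98
  · obtain ⟨N, hN, hc, ⟨e⟩⟩ := base98
    let ψ : ↥H98 ≃* ↥(H98.map (MulAut.conj s).toMonoidHom) := (MulAut.conj s).subgroupMap H98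
    have hN' : (N.map ψ.toMonoidHom).Normal := Subgroup.Normal.map hN ψ.toMonoidHom ψ.surjective
    refine ⟨N.map ψ.toMonoidHom, hN', ?_, ?_⟩
    · rw [Subgroup.card_map_of_injective ψ.injective]
      exact hc
    · exact ⟨(QuotientGroup.congr N (N.map ψ.toMonoidHom) ψ rfl).symm.trans e⟩
  · intro p hp q hq
    have hp' : (s : Equiv.Perm GolayPt)⁻¹ p ∈ support₂ (ofBits 340831) := by
      obtain ⟨x, hx, rfl⟩ := Finset.mem_smul_finset.mp hp
      have e3 : ((s : ↥M24) : Equiv.Perm GolayPt)⁻¹ (((s : ↥M24) : Equiv.Perm GolayPt) • x) = x := by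
        simp
      rw [e3]
      exact hx
    have hq' : (s : Equiv.Perm GolayPt)⁻¹ q ∈ support₂ (ofBits 340831) := by
      obtain ⟨x, hx, rfl⟩ := Finset.mem_smul_finset.mp hq
      have e3 : ((s : ↥M24) : Equiv.Perm GolayPt)⁻¹ (((s : ↥M24) : Equiv.Perm GolayPt) • x) = x := by
        simp
      rw [e3]
      exact hx
    obtain ⟨g, hg, e⟩ := trans98 _ _ hp' hq'
    refine ⟨MulAut.conj s g, Subgroup.mem_map_of_mem _ hg, ?_⟩
    show ((s * g * s⁻¹ : ↥M24) : Equiv.Perm GolayPt) p = q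
    rw [Subgroup.coe_mul, Subgroup.coe_mul, Subgroup.coe_inv, Equiv.Perm.mul_apply,
      Equiv.Perm.mul_apply, e]
    simp

theorem final1598 (d : Finset GolayPt) (hd : d ∈ dodecads) (Q : Finset (Finset GolayPt))
    (hQ : Q ∈ quartets d) :
    Stmt1598 (MulAction.stabilizer M24 d ⊓ MulAction.stabilizer M24 Q) d := by
  obtain ⟨t, ht, htd⟩ := exists_to_dodecad hd
  have hQ' : t⁻¹ • Q ∈ quartets (support₂ (ofBits 340831)) := by
    have h1 := quartets_smul (inv_mem ht) hQ
    rwa [← htd, inv_smul_smul] at h1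
  obtain ⟨h, hh, hhd, hhQ⟩ := quartets_trans _ q_d_mem _ _ (q_sound 0 (by norm_num)) hQ'
  have hsd : (⟨t * h, mul_mem ht hh⟩ : ↥M24) • support₂ (ofBits 340831) = d := by
    show (t * h) • support₂ (ofBits 340831) = d
    rw [mul_smul, hhd, htd]
  have hsQ : (⟨t * h, mul_mem ht hh⟩ : ↥M24) • famOf (qTb 0) = Q := by
    show (t * h) • famOf (qTb 0) = Q
    rw [mul_smul, hhQ, smul_inv_smul]
  have e1 : MulAction.stabilizer M24 d ⊓ MulAction.stabilizer M24 Q
      = H98.map (MulAut.conj (⟨t * h, mul_mem ht hh⟩ : ↥M24)).toMonoidHom := by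
    rw [H98, Subgroup.map_inf _ _ _ (MulAut.conj _).injective,
      ← MulAction.stabilizer_smul_eq_stabilizer_map_conj,
      ← MulAction.stabilizer_smul_eq_stabilizer_map_conj, hsd, hsQ]
  have h2 := transport98 ⟨t * h, mul_mem ht hh⟩
  have hsd' : ((⟨t * h, mul_mem ht hh⟩ : ↥M24) : Equiv.Perm GolayPt) • support₂ (ofBits 340831)
      = d := hsd
  rw [hsd'] at h2
  rw [e1]
  exact h2

end Cfsg.Agent.Helper1.Golay
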