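import Mathlib
import Cfsg.Agent.Helper1.Sx1601Tab
import Cfsg.Agent.Helper1.Sx1603
import Cfsg.Agent.S0243

set_option autoImplicit false

namespace Cfsg.Agent.Helper1.Golay

open Cfsg
open scoped Pointwise
open Matrix

/-- The base stabiliser. -/
noncomputable def H01 : Subgroup ↥M24 := M11b ⊓ MulAction.stabilizer M24 (unpos 5)

theorem mem_H01 (g : ↥M24) :
    g ∈ H01 ↔ g ∈ M11b ∧ (g : Equiv.Perm GolayPt) (unpos 5) = unpos 5 := by
  rw [H01, Subgroup.mem_inf, MulAction.mem_stabilizer_iff]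
  rfl

theorem ht_spec (i : ℕ) (hi : i < 12) :
    tblOK (htTab i) = true
      ∧ ∃ hm : permT (htTab i) ∈ M24, (⟨permT (htTab i), hm⟩ : ↥M24) ∈ M11b := by
  have h := List.all_eq_true.mp ht_ok i (List.mem_range.mpr hi)
  simp only [Bool.and_eq_true] at h
  obtain ⟨⟨⟨hok, hc⟩, hd⟩, hp⟩ := h
  exact ⟨hok, tab_mem_M11b hok hc hd hp⟩

theorem ht_mono (i j : ℕ) (hij : i < j) (hj : j < 12) :
    look (htTab i) 5 < look (htTab j) 5 := by
  apply lt_of_chain03 (fun i => look (htTab i) 5) 12 _ i j hij hj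
  intro k hk
  exact Nat.blt_eq.mp (List.all_eq_true.mp ht_lt k (List.mem_range.mpr (by omega)))

theorem ht_trans (x : GolayPt) (hx : x ∉ support₂ (ofBits 340831)) :
    ∃ t : ↥M24, t ∈ M11b ∧ (t : Equiv.Perm GolayPt) (unpos 5) = x := by
  have h := List.all_eq_true.mp ht_cover (pos x) (List.mem_range.mpr (pos_lt x))
  simp only [Bool.or_eq_true] at h
  rcases h with h | h
  · exact absurd ((mem_support₂_ofBits _ _).mpr h) hx
  · obtain ⟨i, hi, e⟩ := List.any_eq_true.mp h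
    rw [List.mem_range] at hi
    obtain ⟨hok, hm, hmem⟩ := ht_spec i hi
    refine ⟨⟨permT (htTab i), hm⟩, hmem, ?_⟩
    apply pos_injective
    show pos (permT (htTab i) (unpos 5)) = pos x
    rw [pos_permT hok, pos_unpos 5 (by norm_num)]
    exact Nat.eq_of_beq_eq_true e

theorem card_H01_le' : Nat.card ↥(M11b ⊓ MulAction.stabilizer ↥M24 (unpos 5)) ≤ 660 := by
  have h := card_eq_orbit_mul' M11b (unpos 5)
  rw [card_M11b] at h
  have h12 : 12 ≤ {x | ∃ h ∈ M11b, h • unpos 5 = x}.ncard := by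
    have hinj : Set.InjOn (fun i => permT (htTab i) (unpos 5))
        (↑(Finset.range 12) : Set ℕ) := by
      intro i hi j hj e
      have hi' := Finset.mem_range.mp (Finset.mem_coe.mp hi)
      have hj' := Finset.mem_range.mp (Finset.mem_coe.mp hj)
      have e2 : pos (permT (htTab i) (unpos 5)) = pos (permT (htTab j) (unpos 5)) :=
        congrArg pos e
      rw [pos_permT (ht_spec i hi').1, pos_permT (ht_spec j hj').1,
        pos_unpos 5 (by norm_num)] at e2
      rcases Nat.lt_trichotomy i j with hlt | heq | hgt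
      · exact absurd e2 (Nat.ne_of_lt (ht_mono i j hlt hj'))
      · exact heq
      · exact absurd e2.symm (Nat.ne_of_lt (ht_mono j i hgt hi'))
    have hsub : (fun i => permT (htTab i) (unpos 5)) '' (↑(Finset.range 12) : Set ℕ)
        ⊆ {x | ∃ h ∈ M11b, h • unpos 5 = x} := by
      rintro _ ⟨i, hi, rfl⟩
      obtain ⟨hok, hm, hmem⟩ := ht_spec i (Finset.mem_range.mp (Finset.mem_coe.mp hi))
      exact ⟨⟨permT (htTab i), hm⟩, hmem, rfl⟩
    have h1 := Set.ncard_le_ncard hsub (Set.toFinite _)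
    rw [Set.InjOn.ncard_image hinj, Set.ncard_coe_finset, Finset.card_range] at h1
    exact h1
  by_contra hcon
  have h2 : 661 ≤ Nat.card ↥(M11b ⊓ MulAction.stabilizer ↥M24 (unpos 5)) := by omega
  have h3 := Nat.mul_le_mul h12 h2
  omega

theorem card_H01_le : Nat.card ↥H01 ≤ 660 := card_H01_le'

theorem h_spec (i : ℕ) (hi : i < 660) :
    tblOK (hTab01 i) = true
      ∧ ∃ hm : permT (hTab01 i) ∈ M24, (⟨permT (hTab01 i), hm⟩ : ↥M24) ∈ H01 := by
  have h := List.all_eq_true.mp h_ok i (List.mem_range.mpr hi)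
  simp only [Bool.and_eq_true] at h
  obtain ⟨⟨⟨⟨hok, hc⟩, hd⟩, hp⟩, hq⟩ := h
  obtain ⟨hm, hmem⟩ := tab_mem_M11b hok hc hd hp
  refine ⟨hok, hm, ?_⟩
  rw [mem_H01]
  exact ⟨hmem, permT_fix hok (by norm_num) hq⟩

/-- The listed elements. -/
noncomputable def hE01 (i : ℕ) : ↥H01 := by
  classical
  exact if h : ∃ hm : permT (hTab01 i) ∈ M24, (⟨permT (hTab01 i), hm⟩ : ↥M24) ∈ H01
    then ⟨⟨permT (hTab01 i), h.choose⟩, h.choose_spec⟩ else 1

theorem hE_coe (i : ℕ) (hi : i < 660) :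
    (((hE01 i : ↥H01) : ↥M24) : Equiv.Perm GolayPt) = permT (hTab01 i) := by
  rw [hE01, dif_pos (h_spec i hi).2]

theorem look_eq_of_permT_eq {t t' : ℕ} (hok : tblOK t = true) (hok' : tblOK t' = true)
    (h : permT t = permT t') (b : ℕ) (hb : b < 24) : look t b = look t' b := by
  have e : pos (permT t (unpos b)) = pos (permT t' (unpos b)) := by rw [h]
  rwa [pos_permT hok, pos_permT hok', pos_unpos b hb] at e

theorem hKey_mono (i j : ℕ) (hij : i < j) (hj : j < 660) :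
    hKey (hTab01 i) < hKey (hTab01 j) := by
  apply lt_of_chain03 (fun i => hKey (hTab01 i)) 660 _ i j hij hj
  intro k hk
  exact Nat.blt_eq.mp (List.all_eq_true.mp h_lt k (List.mem_range.mpr (by omega)))

theorem hE01_inj {i j : ℕ} (hi : i < 660) (hj : j < 660) (h : hE01 i = hE01 j) : i = j := by
  have e : permT (hTab01 i) = permT (hTab01 j) := by rw [← hE_coe i hi, ← hE_coe j hj, h]
  have hk : hKey (hTab01 i) = hKey (hTab01 j) := by
    unfold hKey
    rw [look_eq_of_permT_eq (h_spec i hi).1 (h_spec j hj).1 e 1 (by norm_num),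
      look_eq_of_permT_eq (h_spec i hi).1 (h_spec j hj).1 e 2 (by norm_num),
      look_eq_of_permT_eq (h_spec i hi).1 (h_spec j hj).1 e 4 (by norm_num)]
  rcases Nat.lt_trichotomy i j with hlt | heq | hgt
  · exact absurd hk (Nat.ne_of_lt (hKey_mono i j hlt hj))
  · exact heq
  · exact absurd hk.symm (Nat.ne_of_lt (hKey_mono j i hgt hi))

theorem H01_univ : (Set.univ : Set ↥H01) = hE01 '' ↑(Finset.range 660) := by
  symm
  apply Set.eq_of_subset_of_ncard_le (Set.subset_univ _)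
  · rw [Set.InjOn.ncard_image, Set.ncard_coe_finset, Finset.card_range, Set.ncard_univ]
    · exact card_H01_le
    · intro i hi j hj h
      exact hE01_inj (Finset.mem_range.mp (Finset.mem_coe.mp hi))
        (Finset.mem_range.mp (Finset.mem_coe.mp hj)) h

theorem card_H01 : Nat.card ↥H01 = 660 := by
  rw [← Set.ncard_univ, H01_univ, Set.InjOn.ncard_image, Set.ncard_coe_finset,
    Finset.card_range]
  intro i hi j hj h
  exact hE01_inj (Finset.mem_range.mp (Finset.mem_coe.mp hi))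
    (Finset.mem_range.mp (Finset.mem_coe.mp hj)) h

theorem H01_exists (g : ↥H01) : ∃ i, i < 660 ∧ hE01 i = g := by
  have hg : g ∈ (Set.univ : Set ↥H01) := Set.mem_univ g
  rw [H01_univ] at hg
  obtain ⟨i, hi, e⟩ := hg
  exact ⟨i, Finset.mem_range.mp (Finset.mem_coe.mp hi), e⟩

/-- The index of an element. -/
noncomputable def hIdx (g : ↥H01) : ℕ := Classical.choose (H01_exists g)

theorem hIdx_lt (g : ↥H01) : hIdx g < 660 := (Classical.choose_spec (H01_exists g)).1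

theorem hIdx_spec (g : ↥H01) : hE01 (hIdx g) = g := (Classical.choose_spec (H01_exists g)).2

theorem hIdx_hE (i : ℕ) (hi : i < 660) : hIdx (hE01 i) = i :=
  hE01_inj (hIdx_lt _) hi (hIdx_spec _)

/-! ### The matrices -/

/-- The matrix of the `i`-th element. -/
def hMat (i : ℕ) : Matrix (Fin 2) (Fin 2) (ZMod 11) :=
  !![(hM i 0 : ZMod 11), (hM i 1 : ZMod 11); (hM i 2 : ZMod 11), (hM i 3 : ZMod 11)]

theorem hMat_det (i : ℕ) (hi : i < 660) : (hMat i).det = 1 := by
  have h := List.all_eq_true.mp hM_ok i (List.mem_range.mpr hi)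
  simp only [Bool.and_eq_true] at h
  have h1 := Nat.eq_of_beq_eq_true h.2
  have h2 : ((hM i 0 * hM i 3 : ℕ) : ZMod 11) = ((hM i 1 * hM i 2 + 1 : ℕ) : ZMod 11) :=
    (ZMod.natCast_eq_natCast_iff' _ _ 11).mpr h1
  push_cast at h2
  rw [hMat, Matrix.det_fin_two_of]
  linear_combination h2

theorem hA_exists (i : ℕ) : ∃ A : Matrix.SpecialLinearGroup (Fin 2) (ZMod 11),
    i < 660 → (A : Matrix (Fin 2) (Fin 2) (ZMod 11)) = hMat i := by
  by_cases hi : i < 660
  · exact ⟨⟨hMat i, hMat_det i hi⟩, fun _ => rfl⟩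
  · exact ⟨1, fun h => absurd h hi⟩

/-- The matrix of the `i`-th element, in the special linear group. -/
noncomputable def hA (i : ℕ) : Matrix.SpecialLinearGroup (Fin 2) (ZMod 11) :=
  Classical.choose (hA_exists i)

theorem hA_coe (i : ℕ) (hi : i < 660) :
    ((hA i : Matrix.SpecialLinearGroup (Fin 2) (ZMod 11)) : Matrix (Fin 2) (Fin 2) (ZMod 11))
      = hMat i :=
  Classical.choose_spec (hA_exists i) hi

/-- The class of the `i`-th matrix. -/
noncomputable def hMu (i : ℕ) : Matrix.ProjectiveSpecialLinearGroup (Fin 2) (ZMod 11) :=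
  QuotientGroup.mk (hA i)

theorem hSc_exists (σ : ZMod 11) (hσ : σ * σ = 1) :
    ∃ Z : Matrix.SpecialLinearGroup (Fin 2) (ZMod 11),
      (Z : Matrix (Fin 2) (Fin 2) (ZMod 11)) = !![σ, 0; 0, σ]
      ∧ Z ∈ Subgroup.center (Matrix.SpecialLinearGroup (Fin 2) (ZMod 11)) := by
  have hdet : (!![σ, 0; 0, σ] : Matrix (Fin 2) (Fin 2) (ZMod 11)).det = 1 := by
    rw [Matrix.det_fin_two_of]
    linear_combination hσ
  refine ⟨⟨!![σ, 0; 0, σ], hdet⟩, rfl, ?_⟩
  refine Matrix.SpecialLinearGroup.mem_center_iff.mpr ⟨σ, ?_, ?_⟩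
  · rw [Fintype.card_fin, pow_two]
    exact hσ
  · ext a b
    fin_cases a <;> fin_cases b <;> simp

theorem hMu_rel (k i g σ : ℕ) (hk : k < 660) (hi : i < 660) (hg : g < 660)
    (hσ : (σ : ZMod 11) * (σ : ZMod 11) = 1)
    (h0 : hM k 0 = (σ * (hM i 0 * hM g 0 + hM i 1 * hM g 2)) % 11)
    (h1 : hM k 1 = (σ * (hM i 0 * hM g 1 + hM i 1 * hM g 3)) % 11)
    (h2 : hM k 2 = (σ * (hM i 2 * hM g 0 + hM i 3 * hM g 2)) % 11)
    (h3 : hM k 3 = (σ * (hM i 2 * hM g 1 + hM i 3 * hM g 3)) % 11) :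
    hMu k = hMu i * hMu g := by
  obtain ⟨Z, hZc, hZ⟩ := hSc_exists (σ : ZMod 11) hσ
  have hprod : hA k = Z * (hA i * hA g) := by
    apply Subtype.ext
    show (hA k : Matrix (Fin 2) (Fin 2) (ZMod 11))
      = (Z : Matrix (Fin 2) (Fin 2) (ZMod 11))
        * ((hA i : Matrix (Fin 2) (Fin 2) (ZMod 11)) * (hA g : Matrix (Fin 2) (Fin 2) (ZMod 11)))
    rw [hZc, hA_coe k hk, hA_coe i hi, hA_coe g hg]
    unfold hMat
    rw [h0, h1, h2, h3, Matrix.mul_fin_two, Matrix.mul_fin_two]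
    simp only [ZMod.natCast_mod, Nat.cast_add, Nat.cast_mul, zero_mul, add_zero, zero_add]
  rw [hMu, hMu, hMu, hprod, QuotientGroup.mk_mul, QuotientGroup.mk_mul,
    (QuotientGroup.eq_one_iff _).mpr hZ, one_mul]

theorem hR_spec (i s : ℕ) (hi : i < 660) (hs : s < 2) :
    hR i s < 660 ∧ hGen s < 660 ∧ hE01 (hR i s) = hE01 i * hE01 (hGen s)
      ∧ hMu (hR i s) = hMu i * hMu (hGen s) := by
  have h := List.all_eq_true.mp (List.all_eq_true.mp hR_ok i (List.mem_range.mpr hi)) s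
    (List.mem_range.mpr hs)
  simp only [Bool.and_eq_true] at h
  obtain ⟨⟨⟨⟨⟨⟨⟨hlt, hg⟩, hperm⟩, hsg⟩, h0⟩, h1⟩, h2⟩, h3⟩ := h
  have hlt' := Nat.blt_eq.mp hlt
  have hg' := Nat.blt_eq.mp hg
  refine ⟨hlt', hg', ?_, ?_⟩
  · apply Subtype.ext
    apply Subtype.ext
    simp only [Subgroup.coe_mul]
    rw [hE_coe _ hlt', hE_coe i hi, hE_coe _ hg']
    apply perm_ext_pos
    intro p
    rw [pos_permT (h_spec _ hlt').1, pos_permT_mul (h_spec i hi).1 (h_spec _ hg').1]
    exact Nat.eq_of_beq_eq_true (List.all_eq_true.mp hperm (pos p) (List.mem_range.mpr (pos_lt p)))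
  · have hσ : ((hS i s : ℕ) : ZMod 11) * ((hS i s : ℕ) : ZMod 11) = 1 := by
      have e := (ZMod.natCast_eq_natCast_iff' (hS i s * hS i s) 1 11).mpr
        (Nat.eq_of_beq_eq_true hsg)
      push_cast at e
      exact e
    exact hMu_rel _ _ _ _ hlt' hi hg' hσ (Nat.eq_of_beq_eq_true h0) (Nat.eq_of_beq_eq_true h1)
      (Nat.eq_of_beq_eq_true h2) (Nat.eq_of_beq_eq_true h3)

/-! ### The homomorphism -/

/-- The candidate isomorphism. -/
noncomputable def hPhi (g : ↥H01) : Matrix.ProjectiveSpecialLinearGroup (Fin 2) (ZMod 11) :=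
  hMu (hIdx g)

theorem hPhi_hE (i : ℕ) (hi : i < 660) : hPhi (hE01 i) = hMu i := by
  rw [hPhi, hIdx_hE i hi]

theorem hPhi_gen (g : ↥H01) (s : ℕ) (hs : s < 2) :
    hPhi (g * hE01 (hGen s)) = hPhi g * hMu (hGen s) := by
  obtain ⟨hlt, hg, hmul, hmu⟩ := hR_spec (hIdx g) s (hIdx_lt g) hs
  rw [hIdx_spec] at hmul
  rw [← hmul, hPhi_hE _ hlt, hmu]
  rfl

theorem hE_zero : hE01 0 = 1 := by
  apply Subtype.ext
  apply Subtype.ext
  rw [hE_coe 0 (by norm_num)]
  have h1 := (permT_pow_eq_one_iff (h_spec 0 (by norm_num)).1 1).mpr h_one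
  rw [pow_one] at h1
  exact h1

theorem hMu_zero : hMu 0 = 1 := by
  have h := hM_one
  simp only [Bool.and_eq_true] at h
  obtain ⟨⟨⟨h0, h1⟩, h2⟩, h3⟩ := h
  have e : hA 0 = 1 := by
    apply Subtype.ext
    rw [hA_coe 0 (by norm_num), hMat, Nat.eq_of_beq_eq_true h0, Nat.eq_of_beq_eq_true h1,
      Nat.eq_of_beq_eq_true h2, Nat.eq_of_beq_eq_true h3]
    ext a b
    fin_cases a <;> fin_cases b <;> simp
  rw [hMu, e]
  rfl

theorem hSel_lt (j : ℕ) : hSel j < 2 := by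
  unfold hSel
  exact Nat.lt_succ_of_le Nat.and_le_right

theorem hPhi_mul_aux : ∀ n j, j < 660 → hLev j ≤ n →
    ∀ g : ↥H01, hPhi (g * hE01 j) = hPhi g * hMu j := by
  intro n
  induction n with
  | zero =>
    intro j hj hl g
    have h := List.all_eq_true.mp hP_ok j (List.mem_range.mpr hj)
    simp only [Bool.and_eq_true, Bool.or_eq_true] at h
    rcases h with h | ⟨⟨-, h2⟩, -⟩
    · rw [Nat.eq_of_beq_eq_true h, hE_zero, hMu_zero, mul_one, mul_one]
    · have h4 := Nat.blt_eq.mp h2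
      omega
  | succ n ih =>
    intro j hj hl g
    have h := List.all_eq_true.mp hP_ok j (List.mem_range.mpr hj)
    simp only [Bool.and_eq_true, Bool.or_eq_true] at h
    rcases h with h | ⟨⟨h1, h2⟩, h3⟩
    · rw [Nat.eq_of_beq_eq_true h, hE_zero, hMu_zero, mul_one, mul_one]
    · have hp := Nat.blt_eq.mp h1
      have hl' := Nat.blt_eq.mp h2
      have hsel : hSel j < 2 := hSel_lt j
      obtain ⟨-, hg, hmul, hmu⟩ := hR_spec (hPar j) (hSel j) hp hsel
      rw [Nat.eq_of_beq_eq_true h3] at hmul hmu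
      rw [hmul, hmu, ← mul_assoc, hPhi_gen _ _ hsel, ih (hPar j) hp (by omega) g, mul_assoc]

theorem hPhi_mul (g g' : ↥H01) : hPhi (g * g') = hPhi g * hPhi g' := by
  have h := hPhi_mul_aux (hLev (hIdx g')) (hIdx g') (hIdx_lt g') le_rfl g
  rw [hIdx_spec] at h
  exact h

/-- The isomorphism, as a homomorphism. -/
noncomputable def hPhiHom : ↥H01 →* Matrix.ProjectiveSpecialLinearGroup (Fin 2) (ZMod 11) :=
  MonoidHom.mk' hPhi hPhi_mul

theorem cast11_inj {a b : ℕ} (ha : a < 11) (hb : b < 11) (h : (a : ZMod 11) = (b : ZMod 11)) :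
    a = b := by
  have h1 := congrArg ZMod.val h
  rwa [ZMod.val_natCast_of_lt ha, ZMod.val_natCast_of_lt hb] at h1

theorem hPhi_ker (g : ↥H01) (h : hPhi g = 1) : g = 1 := by
  have hi := hIdx_lt g
  have hc : hA (hIdx g) ∈ Subgroup.center (Matrix.SpecialLinearGroup (Fin 2) (ZMod 11)) :=
    (QuotientGroup.eq_one_iff _).mp h
  rw [Matrix.SpecialLinearGroup.mem_center_iff] at hc
  obtain ⟨r, -, hr⟩ := hc
  rw [hA_coe _ hi] at hr
  have b := List.all_eq_true.mp hM_ok _ (List.mem_range.mpr hi)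
  simp only [Bool.and_eq_true] at b
  obtain ⟨⟨⟨⟨b0, b1⟩, b2⟩, b3⟩, -⟩ := b
  have e01 : (hM (hIdx g) 1 : ZMod 11) = ((0 : ℕ) : ZMod 11) := by
    have h5 : (Matrix.scalar (Fin 2) r) 0 1 = hMat (hIdx g) 0 1 := by rw [hr]
    rw [Matrix.scalar_apply, Matrix.diagonal_apply_ne _ (by decide)] at h5
    rw [Nat.cast_zero]
    exact h5.symm
  have e10 : (hM (hIdx g) 2 : ZMod 11) = ((0 : ℕ) : ZMod 11) := by
    have h5 : (Matrix.scalar (Fin 2) r) 1 0 = hMat (hIdx g) 1 0 := by rw [hr]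
    rw [Matrix.scalar_apply, Matrix.diagonal_apply_ne _ (by decide)] at h5
    rw [Nat.cast_zero]
    exact h5.symm
  have e00 : (hM (hIdx g) 0 : ZMod 11) = (hM (hIdx g) 3 : ZMod 11) := by
    have h5 : (Matrix.scalar (Fin 2) r) 0 0 = hMat (hIdx g) 0 0 := by rw [hr]
    have h6 : (Matrix.scalar (Fin 2) r) 1 1 = hMat (hIdx g) 1 1 := by rw [hr]
    rw [Matrix.scalar_apply, Matrix.diagonal_apply_eq] at h5 h6
    exact h5.symm.trans h6
  have n1 := cast11_inj (Nat.blt_eq.mp b1) (by norm_num) e01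
  have n2 := cast11_inj (Nat.blt_eq.mp b2) (by norm_num) e10
  have n0 := cast11_inj (Nat.blt_eq.mp b0) (Nat.blt_eq.mp b3) e00
  have k := List.all_eq_true.mp hM_ker _ (List.mem_range.mpr hi)
  rw [n1, n2, n0, Nat.beq_refl, Nat.beq_refl] at k
  have k' : Nat.beq (hIdx g) 0 = true := by simpa using k
  rw [← hIdx_spec g, Nat.eq_of_beq_eq_true k', hE_zero]

theorem base1601 :
    Nonempty (↥H01 ≃* Matrix.ProjectiveSpecialLinearGroup (Fin 2) (ZMod 11)) := by
  have hinj : Function.Injective hPhiHom := by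
    rw [injective_iff_map_eq_one]
    intro g hg
    exact hPhi_ker g hg
  have hcard : Nat.card (Matrix.ProjectiveSpecialLinearGroup (Fin 2) (ZMod 11)) = 660 := by
    have : Fact (Nat.Prime 11) := ⟨by norm_num⟩
    have h := Cfsg.Agent.S0243.result (F := ZMod 11) (q := 11) (ZMod.card 11) 2 (by norm_num)
    rw [Fin.prod_univ_two] at h
    norm_num at h
    rw [Nat.card_eq_fintype_card]
    omega
  have hbij : Function.Bijective hPhiHom :=
    hinj.bijective_of_nat_card_le (by rw [hcard, card_H01])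
  exact ⟨MulEquiv.ofBijective hPhiHom hbij⟩

/-! ### The general statement -/

theorem exists_s1 (d : Finset GolayPt) (hd : d ∈ dodecads) (p : GolayPt) (hp : p ∈ d) :
    ∃ s : ↥M24, s • support₂ (ofBits 340831) = d ∧ s • unpos 0 = p := by
  obtain ⟨g, hg⟩ := dodecads_transitive _ d g_d_mem hd
  have hg' : (g : Equiv.Perm GolayPt) • support₂ (ofBits 340831) = d := hg
  have hp1 : (g : Equiv.Perm GolayPt) (unpos 0) ∈ d := by
    rw [← hg']
    exact Finset.mem_smul_finset.mpr ⟨unpos 0, g_p_mem, rfl⟩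
  obtain ⟨h, hh, hhd, hhp⟩ := dodecad_stab_trans d hd _ p hp1 hp
  refine ⟨⟨h, hh⟩ * g, ?_, ?_⟩
  · rw [mul_smul, hg]
    exact hhd
  · rw [mul_smul]
    exact hhp

theorem exists_s2 (d : Finset GolayPt) (hd : d ∈ dodecads) (p q : GolayPt) (hp : p ∈ d)
    (hq : q ∉ d) :
    ∃ s : ↥M24, s • support₂ (ofBits 340831) = d ∧ s • unpos 0 = p ∧ s • unpos 5 = q := by
  obtain ⟨s, hsd, hsp⟩ := exists_s1 d hd p hp
  have hsd' : (s : Equiv.Perm GolayPt) • support₂ (ofBits 340831) = d := hsd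
  have hsp' : (s : Equiv.Perm GolayPt) (unpos 0) = p := hsp
  have e3 : (s : Equiv.Perm GolayPt) ((s : Equiv.Perm GolayPt)⁻¹ q) = q := by simp
  have hq' : (s : Equiv.Perm GolayPt)⁻¹ q ∉ support₂ (ofBits 340831) := by
    intro hmem
    apply hq
    have h1 : (s : Equiv.Perm GolayPt) ((s : Equiv.Perm GolayPt)⁻¹ q)
        ∈ (s : Equiv.Perm GolayPt) • support₂ (ofBits 340831) :=
      Finset.mem_smul_finset.mpr ⟨_, hmem, rfl⟩
    rw [e3, hsd'] at h1
    exact h1
  obtain ⟨t, ht, htq⟩ := ht_trans _ hq'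
  obtain ⟨htd, htp⟩ := (mem_M11b t).mp ht
  refine ⟨s * t, ?_, ?_, ?_⟩
  · show ((s : Equiv.Perm GolayPt) * (t : Equiv.Perm GolayPt)) • support₂ (ofBits 340831) = d
    rw [mul_smul, htd, hsd']
  · show (s : Equiv.Perm GolayPt) ((t : Equiv.Perm GolayPt) (unpos 0)) = p
    rw [htp, hsp']
  · show (s : Equiv.Perm GolayPt) ((t : Equiv.Perm GolayPt) (unpos 5)) = q
    rw [htq, e3]

theorem final1601 (d : Finset GolayPt) (hd : d ∈ dodecads) (p q : GolayPt) (hp : p ∈ d)
    (hq : q ∉ d) :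
    Nonempty (↥(MulAction.stabilizer M24 d ⊓ MulAction.stabilizer M24 p
        ⊓ MulAction.stabilizer M24 q)
      ≃* Matrix.ProjectiveSpecialLinearGroup (Fin 2) (ZMod 11)) := by
  obtain ⟨s, hsd, hsp, hsq⟩ := exists_s2 d hd p q hp hq
  have e1 : MulAction.stabilizer M24 d ⊓ MulAction.stabilizer M24 p
        ⊓ MulAction.stabilizer M24 q
      = H01.map (MulAut.conj s).toMonoidHom := by
    rw [H01, M11b, Subgroup.map_inf _ _ _ (MulAut.conj _).injective,
      Subgroup.map_inf _ _ _ (MulAut.conj _).injective,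
      ← MulAction.stabilizer_smul_eq_stabilizer_map_conj,
      ← MulAction.stabilizer_smul_eq_stabilizer_map_conj,
      ← MulAction.stabilizer_smul_eq_stabilizer_map_conj, hsd, hsp, hsq]
  rw [e1]
  obtain ⟨e⟩ := base1601
  exact ⟨((MulAut.conj s).subgroupMap H01).symm.trans e⟩

end Cfsg.Agent.Helper1.Golay
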