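import Mathlib
import Cfsg.Agent.Helper1.Sx1602Tab
import Cfsg.Agent.Helper1.Golay12

set_option autoImplicit false

namespace Cfsg.Agent.Helper1.Golay

open Cfsg
open scoped Pointwise

theorem permT_smul_of_pull {t m : ℕ} (hok : tblOK t = true)
    (h : Nat.beq (pullBits t m 24) m = true) :
    permT t • support₂ (ofBits m) = support₂ (ofBits m) := by
  have e2 := permT_inv_smul hok m
  rw [Nat.eq_of_beq_eq_true h] at e2
  exact (inv_smul_eq_iff.mp e2).symm

theorem card_compl_dodecad {d : Finset GolayPt} (hd : d ∈ dodecads) :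
    (Finset.univ \ d).card = 12 := by
  rw [Finset.card_sdiff_of_subset (Finset.subset_univ d), Finset.card_univ, card_golayPt, hd.2]

theorem exists_third {d : Finset GolayPt} (hd : d ∈ dodecads) (a b : GolayPt) :
    ∃ r, r ∉ d ∧ r ≠ a ∧ r ≠ b := by
  by_contra hcon
  have hsub : Finset.univ \ d ⊆ {a, b} := by
    intro r hr
    rw [Finset.mem_sdiff] at hr
    by_contra hr'
    rw [Finset.mem_insert, Finset.mem_singleton, not_or] at hr'
    exact hcon ⟨r, hr.2, hr'.1, hr'.2⟩
  have h1 := Finset.card_le_card hsub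
  rw [card_compl_dodecad hd] at h1
  have h2 : ({a, b} : Finset GolayPt).card ≤ 2 := Finset.card_le_two
  omega

/-- The stabiliser of a dodecad and a point of it is transitive on the ordered pairs of points
outside the dodecad. -/
theorem m11_pair_trans (d : Finset GolayPt) (hd : d ∈ dodecads) (p : GolayPt) (hp : p ∈ d)
    (a b a' b' : GolayPt) (ha : a ∉ d) (hb : b ∉ d) (hab : a ≠ b) (ha' : a' ∉ d) (hb' : b' ∉ d)
    (hab' : a' ≠ b') : ∃ g ∈ M24, g • d = d ∧ g p = p ∧ g a = a' ∧ g b = b' := by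
  obtain ⟨r, hr, hra, hrb⟩ := exists_third hd a b
  obtain ⟨r', hr', hra', hrb'⟩ := exists_third hd a' b'
  have hX : Function.Injective ![a, b, r] := by
    intro i j h
    fin_cases i <;> fin_cases j <;> simp_all
  have hY : Function.Injective ![a', b', r'] := by
    intro i j h
    fin_cases i <;> fin_cases j <;> simp_all
  have hXd : ∀ i, (⟨![a, b, r], hX⟩ : Fin 3 ↪ GolayPt) i ∉ d := by
    intro i
    fin_cases i
    · exact ha
    · exact hb
    · exact hr
  have hYd : ∀ i, (⟨![a', b', r'], hY⟩ : Fin 3 ↪ GolayPt) i ∉ d := by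
    intro i
    fin_cases i
    · exact ha'
    · exact hb'
    · exact hr'
  obtain ⟨g, hg, hgd, hgp, hgx⟩ := m11_exists d hd p hp ⟨![a, b, r], hX⟩ ⟨![a', b', r'], hY⟩
    hXd hYd
  exact ⟨g, hg, hgd, hgp, hgx 0, hgx 1⟩

theorem smul_pair (g : Equiv.Perm GolayPt) (a b : GolayPt) :
    g • ({a, b} : Finset GolayPt) = {g a, g b} := by
  rw [Finset.smul_finset_insert, Finset.smul_finset_singleton]
  rfl

theorem pair_orbit (d : Finset GolayPt) (hd : d ∈ dodecads) (p : GolayPt) (hp : p ∈ d)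
    (q q' : GolayPt) (hq : q ∉ d) (hq' : q' ∉ d) (hqq' : q ≠ q') :
    {x : Finset GolayPt | ∃ h ∈ MulAction.stabilizer M24 d ⊓ MulAction.stabilizer M24 p,
        h • ({q, q'} : Finset GolayPt) = x}
      = ↑((Finset.univ \ d).powersetCard 2) := by
  ext x
  rw [Finset.mem_coe, Finset.mem_powersetCard]
  constructor
  · rintro ⟨h, hh, rfl⟩
    have hhd : (h : Equiv.Perm GolayPt) • d = d :=
      MulAction.mem_stabilizer_iff.mp (Subgroup.mem_inf.mp hh).1
    have e : h • ({q, q'} : Finset GolayPt) = {(h : Equiv.Perm GolayPt) q,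
        (h : Equiv.Perm GolayPt) q'} := smul_pair _ q q'
    rw [e]
    constructor
    · intro y hy
      rw [Finset.mem_insert, Finset.mem_singleton] at hy
      rw [Finset.mem_sdiff]
      rcases hy with rfl | rfl
      · exact ⟨Finset.mem_univ _, apply_notMem_of_smul_eq hhd hq⟩
      · exact ⟨Finset.mem_univ _, apply_notMem_of_smul_eq hhd hq'⟩
    · exact Finset.card_pair (fun h' => hqq' ((h : Equiv.Perm GolayPt).injective h'))
  · rintro ⟨hsub, hcard⟩
    obtain ⟨a, b, hab, rfl⟩ := Finset.card_eq_two.mp hcard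
    have ha : a ∉ d := (Finset.mem_sdiff.mp (hsub (Finset.mem_insert_self a _))).2
    have hb : b ∉ d := (Finset.mem_sdiff.mp (hsub (Finset.mem_insert_of_mem
      (Finset.mem_singleton_self b)))).2
    obtain ⟨g, hg, hgd, hgp, hga, hgb⟩ := m11_pair_trans d hd p hp q q' a b hq hq' hqq' ha hb hab
    refine ⟨⟨g, hg⟩, Subgroup.mem_inf.mpr ⟨MulAction.mem_stabilizer_iff.mpr hgd,
      MulAction.mem_stabilizer_iff.mpr hgp⟩, ?_⟩
    have e : (⟨g, hg⟩ : M24) • ({q, q'} : Finset GolayPt) = {g q, g q'} := smul_pair g q q'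
    rw [e, hga, hgb]

theorem card_m11Pair (d : Finset GolayPt) (hd : d ∈ dodecads) (p : GolayPt) (hp : p ∈ d)
    (q q' : GolayPt) (hq : q ∉ d) (hq' : q' ∉ d) (hqq' : q ≠ q') :
    Nat.card ↥(MulAction.stabilizer M24 d ⊓ MulAction.stabilizer M24 p
      ⊓ MulAction.stabilizer M24 ({q, q'} : Finset GolayPt)) = 120 := by
  have h := card_eq_orbit_mul' (MulAction.stabilizer M24 d ⊓ MulAction.stabilizer M24 p)
    ({q, q'} : Finset GolayPt)
  rw [pair_orbit d hd p hp q q' hq hq' hqq', Set.ncard_coe_finset, Finset.card_powersetCard,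
    card_compl_dodecad hd, card_stabilizer_dodecad_point d hd p hp] at h
  have h2 : Nat.choose 12 2 = 66 := by decide
  rw [h2] at h
  omega

/-- The elements fixing a set, a point and a second set, as a set of permutations. -/
def m11PairSet (d : Finset GolayPt) (p : GolayPt) (s : Finset GolayPt) :
    Set (Equiv.Perm GolayPt) :=
  {g | g ∈ M24 ∧ g • d = d ∧ g p = p ∧ g • s = s}

theorem m11PairSet_ncard (d : Finset GolayPt) (hd : d ∈ dodecads) (p : GolayPt) (hp : p ∈ d)
    (q q' : GolayPt) (hq : q ∉ d) (hq' : q' ∉ d) (hqq' : q ≠ q') :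
    (m11PairSet d p {q, q'}).ncard = 120 := by
  rw [← card_m11Pair d hd p hp q q' hq hq' hqq', ← Nat.card_coe_set_eq]
  apply Nat.card_congr
  exact
    { toFun := fun x => ⟨⟨x.1, x.2.1⟩, Subgroup.mem_inf.mpr ⟨Subgroup.mem_inf.mpr
        ⟨MulAction.mem_stabilizer_iff.mpr x.2.2.1, MulAction.mem_stabilizer_iff.mpr x.2.2.2.1⟩,
        MulAction.mem_stabilizer_iff.mpr x.2.2.2.2⟩⟩
      invFun := fun y => ⟨((y.1 : M24) : Equiv.Perm GolayPt), (y.1 : M24).2,
        MulAction.mem_stabilizer_iff.mp (Subgroup.mem_inf.mp (Subgroup.mem_inf.mp y.2).1).1,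
        MulAction.mem_stabilizer_iff.mp (Subgroup.mem_inf.mp (Subgroup.mem_inf.mp y.2).1).2,
        MulAction.mem_stabilizer_iff.mp (Subgroup.mem_inf.mp y.2).2⟩
      left_inv := fun x => rfl
      right_inv := fun y => rfl }

/-! ### The base configuration -/

theorem base_d_mem : support₂ (ofBits 340831) ∈ dodecads := by
  rw [← comb_one]
  exact baseDodecad_mem

theorem base_p_mem : unpos 0 ∈ support₂ (ofBits 340831) := by
  rw [mem_support₂_ofBits]
  decide +kernel

theorem base_q_notMem : unpos 5 ∉ support₂ (ofBits 340831) := by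
  rw [mem_support₂_ofBits]
  decide +kernel

theorem base_q'_notMem : unpos 7 ∉ support₂ (ofBits 340831) := by
  rw [mem_support₂_ofBits]
  decide +kernel

theorem base_qq' : unpos 5 ≠ unpos 7 := by decide +kernel

theorem base_pair_eq : ({unpos 5, unpos 7} : Finset GolayPt) = support₂ (ofBits s5Pair) := by
  have h : ∀ p : GolayPt, p ∈ ({unpos 5, unpos 7} : Finset GolayPt)
      ↔ s5Pair.testBit (pos p) = true := by decide +kernel
  ext p
  rw [mem_support₂_ofBits]
  exact h p

theorem base_five_sub : support₂ (ofBits s5Five) ⊆ support₂ (ofBits 340831) := by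
  have h : ∀ p : GolayPt, s5Five.testBit (pos p) = true → (340831 : ℕ).testBit (pos p) = true := by
    decide +kernel
  intro p hp
  rw [mem_support₂_ofBits] at hp ⊢
  exact h p hp

theorem base_five_card : (support₂ (ofBits s5Five)).card = 5 := by
  rw [card_support₂, hammingNorm_ofBits]
  decide +kernel

/-- The listed elements. -/
noncomputable def s5Elem (i : ℕ) : Equiv.Perm GolayPt := permT (s5Tab i)

theorem s5Elem_spec (i : ℕ) (hi : i < 120) :
    tblOK (s5Tab i) = true
      ∧ s5Elem i ∈ m11PairSet (support₂ (ofBits 340831)) (unpos 0) {unpos 5, unpos 7}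
      ∧ s5Elem i • support₂ (ofBits s5Five) = support₂ (ofBits s5Five) := by
  have h := List.all_eq_true.mp s5_ok i (List.mem_range.mpr hi)
  simp only [Bool.and_eq_true] at h
  obtain ⟨⟨⟨⟨⟨hok, hc⟩, hd⟩, hp⟩, hpair⟩, hfive⟩ := h
  refine ⟨hok, ⟨permT_mem hok hc, permT_smul_of_pull hok hd, ?_, ?_⟩,
    permT_smul_of_pull hok hfive⟩
  · apply pos_injective
    show pos (permT (s5Tab i) (unpos 0)) = pos (unpos 0)
    rw [pos_permT hok, pos_unpos 0 (by norm_num)]
    exact Nat.eq_of_beq_eq_true hp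
  · rw [base_pair_eq]
    exact permT_smul_of_pull hok hpair

theorem s5Elem_inj {i j : ℕ} (hi : i < 120) (hj : j < 120) (h : s5Elem i = s5Elem j) :
    i = j := by
  by_contra hne
  wlog hlt : j < i generalizing i j
  · exact this hj hi h.symm (Ne.symm hne) (by omega)
  have h1 := List.all_eq_true.mp (List.all_eq_true.mp s5_distinct i (List.mem_range.mpr hi)) j
    (List.mem_range.mpr hlt)
  obtain ⟨p, hp, hpne⟩ := List.any_eq_true.mp h1
  rw [List.mem_range] at hp
  have e := congrArg (fun g : Equiv.Perm GolayPt => pos (g (unpos p))) h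
  simp only [s5Elem] at e
  rw [pos_permT (s5Elem_spec i hi).1, pos_permT (s5Elem_spec j hj).1, pos_unpos p hp] at e
  rw [e, Nat.beq_refl] at hpne
  exact absurd hpne (by decide)

theorem m11Pair_base :
    m11PairSet (support₂ (ofBits 340831)) (unpos 0) {unpos 5, unpos 7}
      = s5Elem '' ↑(Finset.range 120) := by
  symm
  apply Set.eq_of_subset_of_ncard_le
  · rintro _ ⟨i, hi, rfl⟩
    exact (s5Elem_spec i (Finset.mem_range.mp (Finset.mem_coe.mp hi))).2.1
  · rw [m11PairSet_ncard _ base_d_mem _ base_p_mem _ _ base_q_notMem base_q'_notMem base_qq',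
      Set.InjOn.ncard_image, Set.ncard_coe_finset, Finset.card_range]
    intro i hi j hj h
    exact s5Elem_inj (Finset.mem_range.mp (Finset.mem_coe.mp hi))
      (Finset.mem_range.mp (Finset.mem_coe.mp hj)) h
  · exact Set.toFinite _

theorem base_five_inv (g : Equiv.Perm GolayPt)
    (hg : g ∈ m11PairSet (support₂ (ofBits 340831)) (unpos 0) {unpos 5, unpos 7}) :
    g • support₂ (ofBits s5Five) = support₂ (ofBits s5Five) := by
  rw [m11Pair_base] at hg
  obtain ⟨i, hi, rfl⟩ := hg
  exact (s5Elem_spec i (Finset.mem_range.mp (Finset.mem_coe.mp hi))).2.2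

/-! ### Transport -/

theorem exists_to_config (d : Finset GolayPt) (hd : d ∈ dodecads) (p : GolayPt) (hp : p ∈ d)
    (q q' : GolayPt) (hq : q ∉ d) (hq' : q' ∉ d) (hqq' : q ≠ q') :
    ∃ t ∈ M24, t • support₂ (ofBits 340831) = d ∧ t (unpos 0) = p
      ∧ t • ({unpos 5, unpos 7} : Finset GolayPt) = {q, q'} := by
  obtain ⟨t1, ht1⟩ := dodecads_transitive _ d base_d_mem hd
  have ht1' : (t1 : Equiv.Perm GolayPt) • support₂ (ofBits 340831) = d := ht1
  have hp1 : (t1 : Equiv.Perm GolayPt) (unpos 0) ∈ d := by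
    have h1 := Finset.smul_mem_smul_finset (a := (t1 : Equiv.Perm GolayPt)) base_p_mem
    rw [ht1'] at h1
    exact h1
  have hnot : ∀ x, x ∉ support₂ (ofBits 340831) → (t1 : Equiv.Perm GolayPt) x ∉ d := by
    intro x hx hx'
    rw [← ht1'] at hx'
    exact hx ((Finset.smul_mem_smul_finset_iff _).mp hx')
  obtain ⟨h, hh, hs, hp'⟩ := dodecad_stab_trans d hd _ p hp1 hp
  obtain ⟨g, hg, hgd, hgp, hga, hgb⟩ := m11_pair_trans d hd p hp
    (h ((t1 : Equiv.Perm GolayPt) (unpos 5))) (h ((t1 : Equiv.Perm GolayPt) (unpos 7))) q q'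
    (apply_notMem_of_smul_eq hs (hnot _ base_q_notMem))
    (apply_notMem_of_smul_eq hs (hnot _ base_q'_notMem))
    (fun e => base_qq' ((t1 : Equiv.Perm GolayPt).injective (h.injective e))) hq hq' hqq'
  refine ⟨g * h * (t1 : Equiv.Perm GolayPt), mul_mem (mul_mem hg hh) t1.2, ?_, ?_, ?_⟩
  · rw [mul_smul, mul_smul, ht1', hs, hgd]
  · rw [Equiv.Perm.mul_apply, Equiv.Perm.mul_apply, hp', hgp]
  · rw [smul_pair, Equiv.Perm.mul_apply, Equiv.Perm.mul_apply, Equiv.Perm.mul_apply,
      Equiv.Perm.mul_apply, hga, hgb]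

theorem five_general (d : Finset GolayPt) (hd : d ∈ dodecads) (p : GolayPt) (hp : p ∈ d)
    (q q' : GolayPt) (hq : q ∉ d) (hq' : q' ∉ d) (hqq' : q ≠ q') :
    ∃ O : Finset GolayPt, O ⊆ d ∧ O.card = 5 ∧ ∀ g ∈ m11PairSet d p {q, q'}, g • O = O := by
  obtain ⟨t, ht, htd, htp, hts⟩ := exists_to_config d hd p hp q q' hq hq' hqq'
  refine ⟨t • support₂ (ofBits s5Five), ?_, ?_, ?_⟩
  · rw [← htd]
    exact Finset.smul_finset_subset_smul_finset base_five_sub
  · rw [Finset.card_smul_finset, base_five_card]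
  · rintro g ⟨hg, hgd, hgp, hgs⟩
    have h0 : t⁻¹ * g * t ∈ m11PairSet (support₂ (ofBits 340831)) (unpos 0)
        {unpos 5, unpos 7} := by
      refine ⟨mul_mem (mul_mem (inv_mem ht) hg) ht, ?_, ?_, ?_⟩
      · rw [mul_smul, mul_smul, htd, hgd, ← htd, inv_smul_smul]
      · rw [Equiv.Perm.mul_apply, Equiv.Perm.mul_apply, htp, hgp, ← htp]
        exact t.symm_apply_apply _
      · rw [mul_smul, mul_smul, hts, hgs, ← hts, inv_smul_smul]
    have h1 := base_five_inv _ h0
    rw [mul_smul, mul_smul, inv_smul_eq_iff] at h1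
    exact h1

/-- The permutation of the points of an invariant set. -/
def ptPerm (O : Finset GolayPt) (g : Equiv.Perm GolayPt) (hg : g • O = O) : Equiv.Perm ↥O where
  toFun v := ⟨g v.1, apply_mem_of_smul_eq hg v.2⟩
  invFun v := ⟨g⁻¹ v.1, apply_mem_of_smul_eq (inv_smul_eq_iff.mpr hg.symm) v.2⟩
  left_inv v := Subtype.ext (g.symm_apply_apply v.1)
  right_inv v := Subtype.ext (g.apply_symm_apply v.1)

theorem s5_iso (d : Finset GolayPt) (hd : d ∈ dodecads) (p : GolayPt) (hp : p ∈ d)
    (q q' : GolayPt) (hq : q ∉ d) (hq' : q' ∉ d) (hqq' : q ≠ q') :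
    Nonempty (↥(MulAction.stabilizer M24 d ⊓ MulAction.stabilizer M24 p
      ⊓ MulAction.stabilizer M24 ({q, q'} : Finset GolayPt)) ≃* Equiv.Perm (Fin 5)) := by
  obtain ⟨O, hOd, hO5, hinv⟩ := five_general d hd p hp q q' hq hq' hqq'
  have hmem : ∀ g : ↥(MulAction.stabilizer M24 d ⊓ MulAction.stabilizer M24 p
      ⊓ MulAction.stabilizer M24 ({q, q'} : Finset GolayPt)),
      ((g : M24) : Equiv.Perm GolayPt) ∈ m11PairSet d p {q, q'} := fun g =>
    ⟨(g : M24).2,
      MulAction.mem_stabilizer_iff.mp (Subgroup.mem_inf.mp (Subgroup.mem_inf.mp g.2).1).1,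
      MulAction.mem_stabilizer_iff.mp (Subgroup.mem_inf.mp (Subgroup.mem_inf.mp g.2).1).2,
      MulAction.mem_stabilizer_iff.mp (Subgroup.mem_inf.mp g.2).2⟩
  let φ : ↥(MulAction.stabilizer M24 d ⊓ MulAction.stabilizer M24 p
      ⊓ MulAction.stabilizer M24 ({q, q'} : Finset GolayPt)) →* Equiv.Perm ↥O :=
    { toFun := fun g => ptPerm O ((g : M24) : Equiv.Perm GolayPt) (hinv _ (hmem g))
      map_one' := Equiv.ext (fun v => Subtype.ext rfl)
      map_mul' := fun a b => Equiv.ext (fun v => Subtype.ext rfl) }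
  have hinj : Function.Injective φ := by
    rw [injective_iff_map_eq_one]
    intro g hg
    have hfix : ∀ x (hx : x ∈ O), ((g : M24) : Equiv.Perm GolayPt) x = x := fun x hx =>
      congrArg (fun e : Equiv.Perm ↥O => ((e ⟨x, hx⟩ : ↥O) : GolayPt)) hg
    let x : Fin 5 ↪ GolayPt :=
      (Finset.equivFinOfCardEq hO5).symm.toEmbedding.trans (Function.Embedding.subtype _)
    have hx : ∀ i, x i ∈ d := fun i => hOd ((Finset.equivFinOfCardEq hO5).symm i).2
    have hbot := m12_stab_trivial d hd x hx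
    have hg' : (g : M24) ∈ MulAction.stabilizer M24 d ⊓ MulAction.stabilizer M24 x := by
      refine Subgroup.mem_inf.mpr ⟨(Subgroup.mem_inf.mp (Subgroup.mem_inf.mp g.2).1).1, ?_⟩
      rw [MulAction.mem_stabilizer_iff]
      apply Function.Embedding.ext
      intro i
      exact hfix _ ((Finset.equivFinOfCardEq hO5).symm i).2
    rw [hbot, Subgroup.mem_bot] at hg'
    exact Subtype.ext hg'
  have hcard : Nat.card ↥(MulAction.stabilizer M24 d ⊓ MulAction.stabilizer M24 p
      ⊓ MulAction.stabilizer M24 ({q, q'} : Finset GolayPt)) = Nat.card (Equiv.Perm ↥O) := by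
    rw [card_m11Pair d hd p hp q q' hq hq' hqq', Nat.card_eq_fintype_card, Fintype.card_perm,
      Fintype.card_coe, hO5]
    rfl
  have hbij : Function.Bijective φ := (Nat.bijective_iff_injective_and_card φ).mpr ⟨hinj, hcard⟩
  exact ⟨(MulEquiv.ofBijective φ hbij).trans (Finset.equivFinOfCardEq hO5).permCongrHom⟩

end Cfsg.Agent.Helper1.Golay
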