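import Mathlib
import Cfsg.Prelude.Def_SporadicCombinatorics

set_option autoImplicit false

namespace Cfsg.Agent.Helper1.Hexa

/-- addition of the field of order 4 on the indices 0 ↦ 0, 1 ↦ 1, 2 ↦ ω, 3 ↦ ω² -/
def gadd (a b : Fin 4) : Fin 4 :=
  (![![0, 1, 2, 3], ![1, 0, 3, 2], ![2, 3, 0, 1], ![3, 2, 1, 0]] : Fin 4 → Fin 4 → Fin 4) a b

/-- multiplication of the field of order 4 on the indices -/
def gmul (a b : Fin 4) : Fin 4 :=
  (![![0, 0, 0, 0], ![0, 1, 2, 3], ![0, 2, 3, 1], ![0, 3, 1, 2]] : Fin 4 → Fin 4 → Fin 4) a b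

/-- the three spanning words on indices -/
def hV1 : Fin 6 → Fin 4 := ![2, 3, 3, 2, 3, 2]
/-- the three spanning words on indices -/
def hV2 : Fin 6 → Fin 4 := ![3, 2, 2, 3, 3, 2]
/-- the three spanning words on indices -/
def hV3 : Fin 6 → Fin 4 := ![3, 2, 3, 2, 2, 3]

/-- coefficient triples -/
abbrev T3 : Type := Fin 4 × Fin 4 × Fin 4

/-- the model word of a coefficient triple -/
def mw (t : T3) : Fin 6 → Fin 4 := fun i =>
  gadd (gadd (gmul t.1 (hV1 i)) (gmul t.2.1 (hV2 i))) (gmul t.2.2 (hV3 i))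

/-- the weight of a model word -/
def mwt (m : Fin 6 → Fin 4) : ℕ := (Finset.univ.filter fun i => m i ≠ 0).card

theorem mw_inj : ∀ t t' : T3, mw t = mw t' → t = t' := by
  decide +kernel

theorem mw_wt : ∀ t : T3, (∀ i, mw t i = 0) ∨ mwt (mw t) = 4 ∨ mwt (mw t) = 6 := by
  decide +kernel

theorem mw_n4 : (Finset.univ.filter (fun t : T3 => mwt (mw t) = 4)).card = 45 := by
  decide +kernel

theorem mw_n6 : (Finset.univ.filter (fun t : T3 => mwt (mw t) = 6)).card = 18 := by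
  decide +kernel

theorem gadd_zero_imp : ∀ a b : Fin 4, gadd a b = 0 → a = b := by
  decide

section
variable {F : Type*} [Field F]

/-- the elements of a field of order 4 -/
def io (ω : F) : Fin 4 → F := ![0, 1, ω, ω ^ 2]

theorem two_eq_zero_of_card [Fintype F] (hF : Fintype.card F = 4) : (2 : F) = 0 := by
  have h4 : ((Fintype.card F : ℕ) : F) = 0 := Nat.cast_card_eq_zero F
  rw [hF] at h4
  have h22 : (2 : F) * 2 = 0 := by
    have h : ((4 : ℕ) : F) = 2 * 2 := by norm_num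
    rw [← h]
    exact h4
  exact mul_self_eq_zero.mp h22

theorem io_add (ω : F) (h2 : (2 : F) = 0) (hω : ω ^ 2 + ω + 1 = 0) :
    ∀ a b : Fin 4, io ω a + io ω b = io ω (gadd a b) := by
  intro a b
  fin_cases a <;> fin_cases b
  · show (0 : F) + (0 : F) = (0 : F)
    linear_combination (0) * hω + (0) * h2
  · show (0 : F) + (1 : F) = (1 : F)
    linear_combination (0) * hω + (0) * h2
  · show (0 : F) + ω = ω
    linear_combination (0) * hω + (0) * h2
  · show (0 : F) + ω ^ 2 = ω ^ 2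
    linear_combination (0) * hω + (0) * h2
  · show (1 : F) + (0 : F) = (1 : F)
    linear_combination (0) * hω + (0) * h2
  · show (1 : F) + (1 : F) = (0 : F)
    linear_combination (0) * hω + ((1)) * h2
  · show (1 : F) + ω = ω ^ 2
    linear_combination ((-1)) * hω + ((1) + (1) * ω) * h2
  · show (1 : F) + ω ^ 2 = ω
    linear_combination ((1)) * hω + ((-1) * ω) * h2
  · show ω + (0 : F) = ω
    linear_combination (0) * hω + (0) * h2
  · show ω + (1 : F) = ω ^ 2
    linear_combination ((-1)) * hω + ((1) + (1) * ω) * h2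
  · show ω + ω = (0 : F)
    linear_combination (0) * hω + ((1) * ω) * h2
  · show ω + ω ^ 2 = (1 : F)
    linear_combination ((1)) * hω + ((-1)) * h2
  · show ω ^ 2 + (0 : F) = ω ^ 2
    linear_combination (0) * hω + (0) * h2
  · show ω ^ 2 + (1 : F) = ω
    linear_combination ((1)) * hω + ((-1) * ω) * h2
  · show ω ^ 2 + ω = (1 : F)
    linear_combination ((1)) * hω + ((-1)) * h2
  · show ω ^ 2 + ω ^ 2 = (0 : F)
    linear_combination ((2)) * hω + ((-1) + (-1) * ω) * h2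

theorem io_mul (ω : F) (h2 : (2 : F) = 0) (hω : ω ^ 2 + ω + 1 = 0) :
    ∀ a b : Fin 4, io ω a * io ω b = io ω (gmul a b) := by
  intro a b
  fin_cases a <;> fin_cases b
  · show (0 : F) * (0 : F) = (0 : F)
    linear_combination (0) * hω + (0) * h2
  · show (0 : F) * (1 : F) = (0 : F)
    linear_combination (0) * hω + (0) * h2
  · show (0 : F) * ω = (0 : F)
    linear_combination (0) * hω + (0) * h2
  · show (0 : F) * ω ^ 2 = (0 : F)
    linear_combination (0) * hω + (0) * h2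
  · show (1 : F) * (0 : F) = (0 : F)
    linear_combination (0) * hω + (0) * h2
  · show (1 : F) * (1 : F) = (1 : F)
    linear_combination (0) * hω + (0) * h2
  · show (1 : F) * ω = ω
    linear_combination (0) * hω + (0) * h2
  · show (1 : F) * ω ^ 2 = ω ^ 2
    linear_combination (0) * hω + (0) * h2
  · show ω * (0 : F) = (0 : F)
    linear_combination (0) * hω + (0) * h2
  · show ω * (1 : F) = ω
    linear_combination (0) * hω + (0) * h2
  · show ω * ω = ω ^ 2
    linear_combination (0) * hω + (0) * h2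
  · show ω * ω ^ 2 = (1 : F)
    linear_combination ((-1) + (1) * ω) * hω + (0) * h2
  · show ω ^ 2 * (0 : F) = (0 : F)
    linear_combination (0) * hω + (0) * h2
  · show ω ^ 2 * (1 : F) = ω ^ 2
    linear_combination (0) * hω + (0) * h2
  · show ω ^ 2 * ω = (1 : F)
    linear_combination ((-1) + (1) * ω) * hω + (0) * h2
  · show ω ^ 2 * ω ^ 2 = ω
    linear_combination ((-1) * ω + (1) * ω ^ 2) * hω + (0) * h2

theorem io_ne (ω : F) (hω : ω ^ 2 + ω + 1 = 0) : ∀ a : Fin 4, io ω a = 0 → a = 0 := by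
  have hω0 : ω ≠ 0 := by
    intro h0
    rw [h0] at hω
    norm_num at hω
  intro a
  fin_cases a
  · intro _
    rfl
  · intro h
    exact absurd (show (1 : F) = 0 from h) one_ne_zero
  · intro h
    exact absurd (show ω = 0 from h) hω0
  · intro h
    exact absurd (show ω ^ 2 = 0 from h) (pow_ne_zero 2 hω0)

theorem io_inj (ω : F) (h2 : (2 : F) = 0) (hω : ω ^ 2 + ω + 1 = 0) :
    Function.Injective (io ω) := by
  intro a b hab
  have h := io_add ω h2 hω a b
  rw [hab] at h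
  have h0 : io ω (gadd a b) = 0 := by
    rw [← h]
    linear_combination (io ω b) * h2
  exact gadd_zero_imp a b (io_ne ω hω _ h0)

theorem io_surj [Fintype F] (hF : Fintype.card F = 4) (ω : F) (hω : ω ^ 2 + ω + 1 = 0) :
    Function.Surjective (io ω) := by
  have hb : Function.Bijective (io ω) :=
    (Fintype.bijective_iff_injective_and_card (io ω)).mpr
      ⟨io_inj ω (two_eq_zero_of_card hF) hω, by rw [hF, Fintype.card_fin]⟩
  exact hb.2

/-- the word of the hexacode with a given coefficient triple -/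
def hphi (ω : F) (t : T3) : Fin 6 → F := fun i => io ω (mw t i)

theorem hv1 (ω : F) : (![ω, ω ^ 2, ω ^ 2, ω, ω ^ 2, ω] : Fin 6 → F) = fun i => io ω (hV1 i) := by
  funext i
  fin_cases i <;> rfl

theorem hv2 (ω : F) : (![ω ^ 2, ω, ω, ω ^ 2, ω ^ 2, ω] : Fin 6 → F) = fun i => io ω (hV2 i) := by
  funext i
  fin_cases i <;> rfl

theorem hv3 (ω : F) : (![ω ^ 2, ω, ω ^ 2, ω, ω, ω ^ 2] : Fin 6 → F) = fun i => io ω (hV3 i) := by
  funext i
  fin_cases i <;> rfl

theorem hexa_word (ω : F) (h2 : (2 : F) = 0) (hω : ω ^ 2 + ω + 1 = 0) (a b c : Fin 4) :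
    io ω a • (![ω, ω ^ 2, ω ^ 2, ω, ω ^ 2, ω] : Fin 6 → F)
      + io ω b • (![ω ^ 2, ω, ω, ω ^ 2, ω ^ 2, ω] : Fin 6 → F)
      + io ω c • (![ω ^ 2, ω, ω ^ 2, ω, ω, ω ^ 2] : Fin 6 → F) = hphi ω (a, b, c) := by
  rw [hv1 ω, hv2 ω, hv3 ω]
  funext i
  simp only [Pi.add_apply, Pi.smul_apply, smul_eq_mul]
  rw [io_mul ω h2 hω, io_mul ω h2 hω, io_mul ω h2 hω, io_add ω h2 hω, io_add ω h2 hω]
  rfl

theorem hexa_mem_iff [Fintype F] (hF : Fintype.card F = 4) (ω : F) (hω : ω ^ 2 + ω + 1 = 0)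
    (x : Fin 6 → F) : x ∈ Cfsg.hexacode F ω ↔ ∃ t : T3, hphi ω t = x := by
  have h2 := two_eq_zero_of_card hF
  have hs := io_surj hF ω hω
  unfold Cfsg.hexacode
  rw [Submodule.mem_span_triple]
  constructor
  · rintro ⟨a, b, c, rfl⟩
    obtain ⟨a', rfl⟩ := hs a
    obtain ⟨b', rfl⟩ := hs b
    obtain ⟨c', rfl⟩ := hs c
    exact ⟨(a', b', c'), (hexa_word ω h2 hω a' b' c').symm⟩
  · rintro ⟨⟨a, b, c⟩, rfl⟩
    exact ⟨io ω a, io ω b, io ω c, hexa_word ω h2 hω a b c⟩

theorem hphi_inj (ω : F) (h2 : (2 : F) = 0) (hω : ω ^ 2 + ω + 1 = 0) :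
    Function.Injective (hphi ω) := by
  intro t t' h
  apply mw_inj
  funext i
  exact io_inj ω h2 hω (congrFun h i)

theorem hexa_wt [DecidableEq F] (ω : F) (hω : ω ^ 2 + ω + 1 = 0) (t : T3) :
    (Finset.univ.filter fun i => hphi ω t i ≠ 0).card = mwt (mw t) := by
  unfold mwt
  congr 1
  apply Finset.filter_congr
  intro i _
  constructor
  · intro h h0
    apply h
    show io ω (mw t i) = 0
    rw [h0]
    rfl
  · intro h h0
    exact h (io_ne ω hω _ h0)

theorem hexa_card [Fintype F] (hF : Fintype.card F = 4) (ω : F) (hω : ω ^ 2 + ω + 1 = 0) :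
    Nat.card ↥(Cfsg.hexacode F ω) = 64 := by
  have hset : (Cfsg.hexacode F ω : Set (Fin 6 → F)) = hphi ω '' Set.univ := by
    ext x
    simp only [SetLike.mem_coe, hexa_mem_iff hF ω hω, Set.image_univ, Set.mem_range]
  rw [← SetLike.coe_sort_coe, _root_.Nat.card_coe_set_eq, hset,
    Set.ncard_image_of_injective _ (hphi_inj ω (two_eq_zero_of_card hF) hω), Set.ncard_univ,
    Nat.card_eq_fintype_card]
  decide +kernel

theorem hexa_count [Fintype F] [DecidableEq F] (hF : Fintype.card F = 4) (ω : F)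
    (hω : ω ^ 2 + ω + 1 = 0) (k N : ℕ)
    (hN : (Finset.univ.filter (fun t : T3 => mwt (mw t) = k)).card = N) :
    {x : Fin 6 → F | x ∈ Cfsg.hexacode F ω ∧
      (Finset.univ.filter fun i => x i ≠ 0).card = k}.ncard = N := by
  have hset : {x : Fin 6 → F | x ∈ Cfsg.hexacode F ω ∧
      (Finset.univ.filter fun i => x i ≠ 0).card = k}
      = hphi ω '' (↑(Finset.univ.filter (fun t : T3 => mwt (mw t) = k)) : Set T3) := by
    ext x
    simp only [Set.mem_ofPred_eq, Set.mem_image, Finset.coe_filter, Finset.mem_univ, true_and,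
      hexa_mem_iff hF ω hω]
    constructor
    · rintro ⟨⟨t, rfl⟩, hk⟩
      exact ⟨t, (hexa_wt ω hω t).symm.trans hk, rfl⟩
    · rintro ⟨t, hk, rfl⟩
      exact ⟨⟨t, rfl⟩, (hexa_wt ω hω t).trans hk⟩
  rw [hset, Set.ncard_image_of_injective _ (hphi_inj ω (two_eq_zero_of_card hF) hω),
    Set.ncard_coe_finset, hN]

theorem final1610 (F : Type*) [Field F] [Fintype F] [DecidableEq F] (hF : Fintype.card F = 4) (ω : F) (hω : ω ^ 2 + ω + 1 = 0) : Nat.card ↥(Cfsg.hexacode F ω) = 64 ∧ (∀ x ∈ Cfsg.hexacode F ω, x ≠ 0 → (Finset.univ.filter fun i => x i ≠ 0).card = 4 ∨ (Finset.univ.filter fun i => x i ≠ 0).card = 6) ∧ {x : Fin 6 → F | x ∈ Cfsg.hexacode F ω ∧ (Finset.univ.filter fun i => x i ≠ 0).card = 4}.ncard = 45 ∧ {x : Fin 6 → F | x ∈ Cfsg.hexacode F ω ∧ (Finset.univ.filter fun i => x i ≠ 0).card = 6}.ncard = 18 := by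
  refine ⟨hexa_card hF ω hω, ?_, hexa_count hF ω hω 4 45 mw_n4, hexa_count hF ω hω 6 18 mw_n6⟩
  intro x hx hx0
  obtain ⟨t, rfl⟩ := (hexa_mem_iff hF ω hω x).mp hx
  rw [hexa_wt ω hω t]
  rcases mw_wt t with h | h
  · exfalso
    apply hx0
    funext i
    show io ω (mw t i) = 0
    rw [h i]
    rfl
  · exact h

end

end Cfsg.Agent.Helper1.Hexa
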