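import Mathlib
import Cfsg.Agent.Helper1.Sx3362Tab

set_option autoImplicit false

namespace Cfsg.Agent.Helper1.Golay

open Cfsg
open scoped Pointwise

/-- The twelve points of the dodecad. -/
def ph (i : Fin 12) : GolayPt := unpos (phN i.val)

/-- The index of a point of the dodecad. -/
def ps (q : GolayPt) : Fin 12 := ⟨psN (pos q) % 12, Nat.mod_lt _ (by norm_num)⟩

theorem pos_ph (i : Fin 12) : pos (ph i) = phN i.val := pos_unpos _ (ph_lt i)

theorem ps_ph' (i : Fin 12) : ps (ph i) = i := by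
  apply Fin.ext
  show psN (pos (ph i)) % 12 = i.val
  rw [pos_ph, ps_ph i]
  exact Nat.mod_eq_of_lt i.isLt

theorem ph_inj : Function.Injective ph := Function.LeftInverse.injective ps_ph'

theorem ph_mem (i : Fin 12) : ph i ∈ support₂ (ofBits 340831) := by
  rw [mem_support₂_ofBits, pos_ph]
  exact ph_bit i

theorem ph_ps' (q : GolayPt) (hq : q ∈ support₂ (ofBits 340831)) : ph (ps q) = q := by
  have h := ph_ps ⟨pos q, pos_lt q⟩ ((mem_support₂_ofBits _ _).mp hq)
  apply pos_injective
  rw [pos_ph]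
  show phN (psN (pos q) % 12) = pos q
  rw [Nat.mod_eq_of_lt h.2]
  exact h.1

theorem cc12_mem (g : ↥M12b) (i : Fin 12) : cc12 g (ph i) ∈ support₂ (ofBits 340831) := by
  have h : cc12 g • support₂ (ofBits 340831) = support₂ (ofBits 340831) :=
    (mem_M12b (g : ↥M24)).mp g.2
  have h2 : cc12 g • ph i ∈ cc12 g • support₂ (ofBits 340831) :=
    Finset.smul_mem_smul_finset (ph_mem i)
  rw [h] at h2
  exact h2

/-- The action on the indices. -/
noncomputable def rhoFun (g : ↥M12b) (i : Fin 12) : Fin 12 := ps (cc12 g (ph i))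

theorem rhoFun_spec (g : ↥M12b) (i : Fin 12) : ph (rhoFun g i) = cc12 g (ph i) :=
  ph_ps' _ (cc12_mem g i)

theorem rhoFun_one (i : Fin 12) : rhoFun 1 i = i := by
  show ps (cc12 1 (ph i)) = i
  rw [map_one, Equiv.Perm.one_apply, ps_ph']

theorem rhoFun_mul (g h : ↥M12b) (i : Fin 12) : rhoFun (g * h) i = rhoFun g (rhoFun h i) := by
  show ps (cc12 (g * h) (ph i)) = ps (cc12 g (ph (rhoFun h i)))
  rw [rhoFun_spec, map_mul, Equiv.Perm.mul_apply]

/-- The action of the dodecad stabiliser on the twelve indices. -/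
noncomputable def rho : ↥M12b →* Equiv.Perm (Fin 12) where
  toFun g :=
    { toFun := rhoFun g
      invFun := rhoFun g⁻¹
      left_inv := fun i => by rw [← rhoFun_mul, inv_mul_cancel, rhoFun_one]
      right_inv := fun i => by rw [← rhoFun_mul, mul_inv_cancel, rhoFun_one] }
  map_one' := by
    apply Equiv.ext
    intro i
    exact rhoFun_one i
  map_mul' g h := by
    apply Equiv.ext
    intro i
    exact rhoFun_mul g h i

theorem rho_spec (g : ↥M12b) (i : Fin 12) : ph (rho g i) = cc12 g (ph i) := rhoFun_spec g i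

theorem rho_eq_of_table {g : ↥M12b} {t : ℕ} (hs : Spec12 g t) (σ : Equiv.Perm (Fin 12))
    (h : ∀ i : Fin 12, look t (phN i.val) = phN (σ i).val) : rho g = σ := by
  apply Equiv.ext
  intro i
  apply ph_inj
  rw [rho_spec]
  apply pos_injective
  rw [hs, pos_ph, pos_ph]
  exact h i

/-- The base five points. -/
def x5 : Fin 5 ↪ GolayPt :=
  ⟨fun k => ph (Fin.castLE (by norm_num) k),
    fun a b hab => Fin.castLE_injective _ (ph_inj hab)⟩

theorem m12_sharp (x y : Fin 5 ↪ GolayPt) (hx : ∀ i, x i ∈ support₂ (ofBits 340831))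
    (hy : ∀ i, y i ∈ support₂ (ofBits 340831)) :
    ∃ g : ↥M12b, (∀ i, cc12 g (x i) = y i)
      ∧ ∀ g' : ↥M12b, (∀ i, cc12 g' (x i) = y i) → g' = g :=
  Cfsg.Agent.S0384.result (support₂ (ofBits 340831)) g_d_mem x y hx hy

theorem unique5 (g : ↥M12b) (h : ∀ i : Fin 12, cc12 g (ph i) = ph i) : g = 1 := by
  obtain ⟨g0, -, hu⟩ := m12_sharp x5 x5 (fun i => ph_mem _) (fun i => ph_mem _)
  have h1 : g = g0 := hu g (fun i => h _)
  have h2 : (1 : ↥M12b) = g0 := hu 1 (fun i => by rw [map_one]; rfl)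
  rw [h1, ← h2]

theorem rho_inj : Function.Injective rho := by
  rw [injective_iff_map_eq_one]
  intro g hg
  apply unique5
  intro i
  rw [← rho_spec, hg, Equiv.Perm.one_apply]

theorem gen_in_range {t C : ℕ} (σ : Equiv.Perm (Fin 12))
    (h : (tblOK t && chkCode t C && Nat.beq (pullBits t 340831 24) 340831) = true)
    (h2 : ∀ i : Fin 12, look t (phN i.val) = phN (σ i).val) : σ ∈ rho.range := by
  simp only [Bool.and_eq_true] at h
  obtain ⟨⟨hok, hc⟩, hd⟩ := h
  refine ⟨⟨mk24 t, mk24_mem_M12b hok hc hd⟩, ?_⟩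
  exact rho_eq_of_table
    (spec_of_permT (g := ⟨mk24 t, mk24_mem_M12b hok hc hd⟩) hok (mk24_coe hok hc)) σ h2

theorem M11b_le : M11b ≤ M12b := fun g hg => (mem_M12b g).mpr ((mem_M11b g).mp hg).1

/-- The action of the point stabiliser. -/
noncomputable def rho11 : ↥M11b →* Equiv.Perm (Fin 12) := rho.comp (Subgroup.inclusion M11b_le)

theorem rho11_inj : Function.Injective rho11 :=
  rho_inj.comp (Subgroup.inclusion_injective M11b_le)

theorem gen_in_range11 {t C : ℕ} (σ : Equiv.Perm (Fin 12))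
    (h : (tblOK t && chkCode t C && Nat.beq (pullBits t 340831 24) 340831
      && Nat.beq (look t 0) 0) = true)
    (h2 : ∀ i : Fin 12, look t (phN i.val) = phN (σ i).val) : σ ∈ rho11.range := by
  simp only [Bool.and_eq_true] at h
  obtain ⟨⟨⟨hok, hc⟩, hd⟩, h0⟩ := h
  have hm : mk24 t ∈ M11b := by
    rw [mem_M11b, mk24_coe hok hc]
    exact ⟨permT_smul_of_pull' hok hd, permT_fix hok (by norm_num) h0⟩
  refine ⟨⟨mk24 t, hm⟩, ?_⟩
  exact rho_eq_of_table (g := Subgroup.inclusion M11b_le ⟨mk24 t, hm⟩)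
    (spec_of_permT hok (mk24_coe hok hc)) σ h2

theorem and3 {a b c d : Bool} (h : (a && b && c && d) = true) : (a && b && c) = true := by
  simp only [Bool.and_eq_true] at h ⊢
  exact h.1

theorem rho_zz : rho zz12 = wordZ.prod := rho_eq_of_table zz12_spec _ q_wz

theorem rho_bb : rho bb12 = wordB.prod := rho_eq_of_table bb12_spec _ q_wb

theorem rho11_zz : rho11 zz = wordZ7.prod := by
  have hs : Spec12 (Subgroup.inclusion M11b_le zz) gzT := spec_of_permT gz_tblOK zz_coe
  exact rho_eq_of_table hs _ q_wz7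

theorem rho11_bb : rho11 bb11 = wordB7.prod := by
  have hs : Spec12 (Subgroup.inclusion M11b_le bb11) ebT := spec_of_permT eb_spec.1 eb_spec.2
  exact rho_eq_of_table hs _ q_wb7

/-- The eight generators. -/
def gens8 : Set (Equiv.Perm (Fin 12)) := {pS, pT, pU, pV, pW, pX1, pX2, pX3}

def gens7 : Set (Equiv.Perm (Fin 12)) := {pS, pT, pU, pV, pW, pX1, pX2}

theorem closure8 : Subgroup.closure gens8 = rho.range := by
  apply le_antisymm
  · rw [Subgroup.closure_le]
    intro σ hσ
    simp only [gens8, Set.mem_insert_iff, Set.mem_singleton_iff] at hσ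
    rcases hσ with rfl | rfl | rfl | rfl | rfl | rfl | rfl | rfl
    · exact gen_in_range _ (and3 q_ok0) q_tab0
    · exact gen_in_range _ (and3 q_ok1) q_tab1
    · exact gen_in_range _ (and3 q_ok2) q_tab2
    · exact gen_in_range _ (and3 q_ok3) q_tab3
    · exact gen_in_range _ (and3 q_ok4) q_tab4
    · exact gen_in_range _ (and3 q_ok5) q_tab5
    · exact gen_in_range _ (and3 q_ok6) q_tab6
    · exact gen_in_range _ q_ok7 q_tab7
  · rw [MonoidHom.range_eq_map, ← gen12_top, MonoidHom.map_closure, Subgroup.closure_le]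
    rintro _ ⟨x, hx, rfl⟩
    rcases hx with rfl | rfl
    · show rho zz12 ∈ Subgroup.closure gens8
      rw [rho_zz]
      apply Subgroup.list_prod_mem
      intro σ hσ
      apply Subgroup.subset_closure
      simp only [wordZ, List.mem_cons, List.not_mem_nil, or_false] at hσ
      rcases hσ with rfl | rfl <;> simp [gens8]
    · show rho bb12 ∈ Subgroup.closure gens8
      rw [rho_bb]
      apply Subgroup.list_prod_mem
      intro σ hσ
      apply Subgroup.subset_closure
      simp only [wordB, List.mem_cons, List.not_mem_nil, or_false] at hσ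
      rcases hσ with rfl | rfl | rfl | rfl | rfl | rfl | rfl | rfl | rfl | rfl <;> simp [gens8]

theorem closure7 : Subgroup.closure gens7 = rho11.range := by
  apply le_antisymm
  · rw [Subgroup.closure_le]
    intro σ hσ
    simp only [gens7, Set.mem_insert_iff, Set.mem_singleton_iff] at hσ
    rcases hσ with rfl | rfl | rfl | rfl | rfl | rfl | rfl
    · exact gen_in_range11 _ q_ok0 q_tab0
    · exact gen_in_range11 _ q_ok1 q_tab1
    · exact gen_in_range11 _ q_ok2 q_tab2
    · exact gen_in_range11 _ q_ok3 q_tab3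
    · exact gen_in_range11 _ q_ok4 q_tab4
    · exact gen_in_range11 _ q_ok5 q_tab5
    · exact gen_in_range11 _ q_ok6 q_tab6
  · rw [MonoidHom.range_eq_map, ← gen11_top, MonoidHom.map_closure, Subgroup.closure_le]
    rintro _ ⟨x, hx, rfl⟩
    rcases hx with rfl | rfl
    · show rho11 zz ∈ Subgroup.closure gens7
      rw [rho11_zz]
      apply Subgroup.list_prod_mem
      intro σ hσ
      apply Subgroup.subset_closure
      simp only [wordZ7, List.mem_cons, List.not_mem_nil, or_false] at hσ
      rcases hσ with rfl | rfl <;> simp [gens7]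
    · show rho11 bb11 ∈ Subgroup.closure gens7
      rw [rho11_bb]
      apply Subgroup.list_prod_mem
      intro σ hσ
      apply Subgroup.subset_closure
      simp only [wordB7, List.mem_cons, List.not_mem_nil, or_false] at hσ
      rcases hσ with rfl | rfl | rfl | rfl | rfl | rfl | rfl | rfl | rfl <;> simp [gens7]

theorem card8 : Nat.card ↥(Subgroup.closure gens8) = 95040 := by
  rw [closure8, ← Nat.card_congr (MonoidHom.ofInjective rho_inj).toEquiv]
  exact card_M12b

theorem card7 : Nat.card ↥(Subgroup.closure gens7) = 7920 := by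
  rw [closure7, ← Nat.card_congr (MonoidHom.ofInjective rho11_inj).toEquiv]
  exact card_M11b

theorem trans8 : MulAction.IsMultiplyPretransitive ↥(Subgroup.closure gens8) (Fin 12) 5 := by
  refine ⟨fun x y => ?_⟩
  obtain ⟨g, hg, -⟩ := m12_sharp (x.trans ⟨ph, ph_inj⟩) (y.trans ⟨ph, ph_inj⟩)
    (fun i => ph_mem _) (fun i => ph_mem _)
  have hm : rho g ∈ Subgroup.closure gens8 := by
    rw [closure8]
    exact ⟨g, rfl⟩
  refine ⟨⟨rho g, hm⟩, ?_⟩
  apply Function.Embedding.ext
  intro i
  show rho g (x i) = y i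
  apply ph_inj
  rw [rho_spec]
  exact hg i

theorem sharp8 (y : Fin 5 ↪ Fin 12) :
    MulAction.stabilizer ↥(Subgroup.closure gens8) y = ⊥ := by
  rw [eq_bot_iff]
  intro m hm
  rw [MulAction.mem_stabilizer_iff] at hm
  rw [Subgroup.mem_bot]
  have hmr : (m : Equiv.Perm (Fin 12)) ∈ rho.range := by
    rw [← closure8]
    exact m.2
  obtain ⟨g, hg⟩ := hmr
  have hfix : ∀ i : Fin 5, (m : Equiv.Perm (Fin 12)) (y i) = y i := by
    intro i
    have h1 := DFunLike.congr_fun hm i
    exact h1
  obtain ⟨g0, -, hu⟩ := m12_sharp (y.trans ⟨ph, ph_inj⟩) (y.trans ⟨ph, ph_inj⟩)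
    (fun i => ph_mem _) (fun i => ph_mem _)
  have h1 : g = g0 := by
    apply hu
    intro i
    show cc12 g (ph (y i)) = ph (y i)
    rw [← rho_spec, hg, hfix i]
  have h2 : (1 : ↥M12b) = g0 := hu 1 (fun i => by rw [map_one]; rfl)
  have hg1 : g = 1 := by rw [h1, ← h2]
  apply Subtype.ext
  rw [← hg, hg1, map_one]
  rfl

theorem ph_two' : ph 2 = unpos 0 := by
  show unpos (phN 2) = unpos 0
  rw [ph_two]

theorem stab7 : Subgroup.closure gens7
    = Subgroup.closure gens8 ⊓ MulAction.stabilizer (Equiv.Perm (Fin 12)) (2 : Fin 12) := by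
  apply le_antisymm
  · apply le_inf
    · apply Subgroup.closure_mono
      intro σ hσ
      simp only [gens7, Set.mem_insert_iff, Set.mem_singleton_iff] at hσ
      rcases hσ with rfl | rfl | rfl | rfl | rfl | rfl | rfl <;> simp [gens8]
    · rw [Subgroup.closure_le]
      intro σ hσ
      simp only [gens7, Set.mem_insert_iff, Set.mem_singleton_iff] at hσ
      obtain ⟨f0, f1, f2, f3, f4, f5, f6⟩ := q_fix
      rw [SetLike.mem_coe, MulAction.mem_stabilizer_iff, Equiv.Perm.smul_def]
      rcases hσ with rfl | rfl | rfl | rfl | rfl | rfl | rfl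
      · exact f0
      · exact f1
      · exact f2
      · exact f3
      · exact f4
      · exact f5
      · exact f6
  · rintro m ⟨hm8, hm2⟩
    rw [SetLike.mem_coe, closure8] at hm8
    obtain ⟨g, rfl⟩ := hm8
    have hfix : rho g 2 = 2 := by
      have h9 := MulAction.mem_stabilizer_iff.mp hm2
      rw [Equiv.Perm.smul_def] at h9
      exact h9
    have hg0 : cc12 g (unpos 0) = unpos 0 := by
      rw [← ph_two', ← rho_spec, hfix]
    have hg11 : (g : ↥M24) ∈ M11b := by
      rw [mem_M11b]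
      exact ⟨(mem_M12b (g : ↥M24)).mp g.2, hg0⟩
    rw [closure7]
    exact ⟨⟨(g : ↥M24), hg11⟩, rfl⟩

theorem final3362 :
    MulAction.IsMultiplyPretransitive ↥(Subgroup.closure gens8) (Fin 12) 5
    ∧ (∀ y : Fin 5 ↪ Fin 12, MulAction.stabilizer ↥(Subgroup.closure gens8) y = ⊥)
    ∧ Nat.card ↥(Subgroup.closure gens8) = 95040 ∧ Nat.card ↥(Subgroup.closure gens7) = 7920
    ∧ Subgroup.closure gens7
      = Subgroup.closure gens8 ⊓ MulAction.stabilizer (Equiv.Perm (Fin 12)) (2 : Fin 12) :=
  ⟨trans8, sharp8, card8, card7, stab7⟩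

end Cfsg.Agent.Helper1.Golay
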